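import Mathlib
import Cfsg.Prelude.Def_RootSubgroups

set_option autoImplicit false

namespace Cfsg.Agent.Helper26

open Cfsg

variable {G : Type*} [Group G]

theorem mem_conjBy {A : Subgroup G} {g x : G} : x ∈ conjBy A g ↔ g⁻¹ * x * g ∈ A := by
  constructor
  · rintro ⟨a, ha, rfl⟩
    have : g⁻¹ * (g * a * g⁻¹) * g = a := by group
    simpa [this] using ha
  · intro h
    exact ⟨g⁻¹ * x * g, h, by simp [mul_assoc]⟩

theorem conj_mem_conjBy {A : Subgroup G} {g a : G} (ha : a ∈ A) : g * a * g⁻¹ ∈ conjBy A g :=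
  ⟨a, ha, rfl⟩

theorem conjBy_one (A : Subgroup G) : conjBy A 1 = A := by
  ext x; rw [mem_conjBy]; simp

theorem conjBy_conjBy (A : Subgroup G) (g h : G) : conjBy (conjBy A g) h = conjBy A (h * g) := by
  ext x; rw [mem_conjBy, mem_conjBy, mem_conjBy]
  have : g⁻¹ * (h⁻¹ * x * h) * g = (h * g)⁻¹ * x * (h * g) := by group
  rw [this]

theorem conjBy_eq_self_iff {A : Subgroup G} {g : G} :
    conjBy A g = A ↔ g ∈ Subgroup.normalizer (A : Set G) := by
  rw [Subgroup.mem_normalizer_iff_map_conj_eq]; rfl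

theorem conjBy_of_mem {A : Subgroup G} {g : G} (hg : g ∈ A) : conjBy A g = A :=
  conjBy_eq_self_iff.mpr (Subgroup.le_normalizer hg)

theorem conjBy_eq_iff {A B : Subgroup G} {g : G} : conjBy A g = B ↔ A = conjBy B g⁻¹ := by
  constructor
  · rintro rfl; rw [conjBy_conjBy]; simp [conjBy_one]
  · rintro rfl; rw [conjBy_conjBy]; simp [conjBy_one]

theorem conjBy_injective (g : G) : Function.Injective (fun A : Subgroup G => conjBy A g) := by
  intro A B h
  have h' : conjBy A g = conjBy B g := h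
  rw [conjBy_eq_iff, conjBy_conjBy] at h'
  simpa [conjBy_one] using h'

theorem conjBy_inj {A B : Subgroup G} {g : G} : conjBy A g = conjBy B g ↔ A = B :=
  (conjBy_injective g).eq_iff

theorem conjBy_mono {A B : Subgroup G} (h : A ≤ B) (g : G) : conjBy A g ≤ conjBy B g :=
  Subgroup.map_mono h

theorem conjBy_le_iff {A B : Subgroup G} {g : G} : conjBy A g ≤ B ↔ A ≤ conjBy B g⁻¹ := by
  constructor
  · intro h
    have := conjBy_mono h g⁻¹
    rw [conjBy_conjBy] at this; simpa [conjBy_one] using this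
  · intro h
    have := conjBy_mono h g
    rw [conjBy_conjBy] at this; simpa [conjBy_one] using this

theorem mem_normalizer_conjBy {A : Subgroup G} {g x : G} :
    x ∈ Subgroup.normalizer ((conjBy A g : Subgroup G) : Set G) ↔
      g⁻¹ * x * g ∈ Subgroup.normalizer (A : Set G) := by
  rw [← conjBy_eq_self_iff, ← conjBy_eq_self_iff]
  constructor
  · intro h
    have h1 : conjBy A (g⁻¹ * x * g) = conjBy (conjBy (conjBy A g) x) g⁻¹ := by
      rw [conjBy_conjBy, conjBy_conjBy]
    rw [h1, h, conjBy_conjBy]; simp [conjBy_one]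
  · intro h
    have h1 : conjBy (conjBy A g) x = conjBy (conjBy A (g⁻¹ * x * g)) g := by
      rw [conjBy_conjBy, conjBy_conjBy]; congr 1; group
    rw [h1, h]

/-- No non-identity element of `A` normalizes `B` in a rank one pair. -/
theorem normalizer_inf_eq_bot {A B : Subgroup G} (h : IsRankOnePair A B) :
    A ⊓ Subgroup.normalizer (B : Set G) = ⊥ := by
  rw [eq_bot_iff]
  rintro a ⟨haA, haN⟩
  rw [Subgroup.mem_bot]
  by_contra ha1
  obtain ⟨b, hbB, -, hb⟩ := h.cond_left a haA ha1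
  have h1 : conjBy B a⁻¹ = B := conjBy_eq_self_iff.mpr (Subgroup.inv_mem _ haN)
  rw [h1, conjBy_eq_iff, inv_inv, conjBy_of_mem hbB] at hb
  exact h.ne hb

theorem normalizer_inf_eq_bot' {A B : Subgroup G} (h : IsRankOnePair A B) :
    B ⊓ Subgroup.normalizer (A : Set G) = ⊥ :=
  normalizer_inf_eq_bot (RankOnePair_symm h)

theorem eq_one_of_mem_of_normalizes {A B : Subgroup G} (h : IsRankOnePair A B) {a : G}
    (ha : a ∈ A) (hn : a ∈ Subgroup.normalizer (B : Set G)) : a = 1 := by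
  have : a ∈ A ⊓ Subgroup.normalizer (B : Set G) := ⟨ha, hn⟩
  rw [normalizer_inf_eq_bot h] at this
  exact this

theorem eq_one_of_mem_of_normalizes' {A B : Subgroup G} (h : IsRankOnePair A B) {b : G}
    (hb : b ∈ B) (hn : b ∈ Subgroup.normalizer (A : Set G)) : b = 1 :=
  eq_one_of_mem_of_normalizes (RankOnePair_symm h) hb hn

/-- uniqueness of `b(a)` -/
theorem rankOne_unique_left {A B : Subgroup G} (h : IsRankOnePair A B) {C : Subgroup G} {b b' : G}
    (hb : b ∈ B) (hb' : b' ∈ B) (h1 : conjBy A b⁻¹ = C) (h2 : conjBy A b'⁻¹ = C) : b = b' := by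
  have h3 : conjBy A (b * b'⁻¹) = A := by
    rw [← conjBy_conjBy, h2, ← h1, conjBy_conjBy]; simp [conjBy_one]
  have h4 := eq_one_of_mem_of_normalizes' h (B.mul_mem hb (B.inv_mem hb')) (conjBy_eq_self_iff.mp h3)
  exact mul_inv_eq_one.mp h4

theorem rankOne_unique_right {A B : Subgroup G} (h : IsRankOnePair A B) {C : Subgroup G} {a a' : G}
    (ha : a ∈ A) (ha' : a' ∈ A) (h1 : conjBy B a⁻¹ = C) (h2 : conjBy B a'⁻¹ = C) : a = a' :=
  rankOne_unique_left (RankOnePair_symm h) ha ha' h1 h2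


/-- restated left condition without inverses -/
theorem cond_left' {A B : Subgroup G} (h : IsRankOnePair A B) {a : G} (ha : a ∈ A) (ha1 : a ≠ 1) :
    ∃ b ∈ B, b ≠ 1 ∧ conjBy A b = conjBy B a := by
  obtain ⟨b, hb, hb1, hab⟩ := h.cond_left a⁻¹ (A.inv_mem ha) (by simpa using ha1)
  refine ⟨b⁻¹, B.inv_mem hb, by simpa using hb1, ?_⟩
  simpa using hab

theorem cond_right' {A B : Subgroup G} (h : IsRankOnePair A B) {b : G} (hb : b ∈ B) (hb1 : b ≠ 1) :
    ∃ a ∈ A, a ≠ 1 ∧ conjBy B a = conjBy A b :=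
  cond_left' (RankOnePair_symm h) hb hb1

theorem exists_ne_one_left {A B : Subgroup G} (h : IsRankOnePair A B) : ∃ a ∈ A, a ≠ 1 := by
  by_contra hA
  simp only [not_exists, not_and, not_not] at hA
  have hA' : A = ⊥ := by
    rw [eq_bot_iff]; intro a ha; rw [Subgroup.mem_bot]; exact hA a ha
  have hB' : B = ⊥ := by
    rw [eq_bot_iff]; intro b hb; rw [Subgroup.mem_bot]
    by_contra hb1
    obtain ⟨a, ha, ha1, -⟩ := cond_right' h hb hb1
    exact ha1 (hA a ha)
  exact h.ne (hA'.trans hB'.symm)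

theorem exists_ne_one_right {A B : Subgroup G} (h : IsRankOnePair A B) : ∃ b ∈ B, b ≠ 1 :=
  exists_ne_one_left (RankOnePair_symm h)

/-- `B` is a conjugate of `A` under `A ⊔ B`. -/
theorem exists_conj_eq {A B : Subgroup G} (h : IsRankOnePair A B) :
    ∃ x ∈ A ⊔ B, B = conjBy A x := by
  obtain ⟨a, ha, ha1⟩ := exists_ne_one_left h
  obtain ⟨b, hb, -, hab⟩ := cond_left' h ha ha1
  refine ⟨a⁻¹ * b, (A ⊔ B).mul_mem ((A ⊔ B).inv_mem (Subgroup.mem_sup_left ha))
    (Subgroup.mem_sup_right hb), ?_⟩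
  rw [← conjBy_conjBy, hab, conjBy_conjBy]; simp [conjBy_one]

theorem mem_unipotentSubgroups_self (A B : Subgroup G) : A ∈ unipotentSubgroups A B :=
  ⟨1, Subgroup.one_mem _, (conjBy_one A).symm⟩

theorem mem_unipotentSubgroups_right {A B : Subgroup G} (h : IsRankOnePair A B) :
    B ∈ unipotentSubgroups A B := exists_conj_eq h

theorem conjBy_mem_unipotentSubgroups {A B C : Subgroup G} (hC : C ∈ unipotentSubgroups A B)
    {x : G} (hx : x ∈ A ⊔ B) : conjBy C x ∈ unipotentSubgroups A B := by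
  obtain ⟨y, hy, rfl⟩ := hC
  exact ⟨x * y, (A ⊔ B).mul_mem hx hy, conjBy_conjBy A y x⟩

/-- The key orbit lemma: every conjugate of `A` under `A ⊔ B` is `A` or an `A`-conjugate of `B`. -/
theorem conj_eq_or {A B : Subgroup G} (h : IsRankOnePair A B) {x : G} (hx : x ∈ A ⊔ B) :
    ∀ C : Subgroup G, (C = A ∨ ∃ a ∈ A, C = conjBy B a) →
      ((conjBy C x = A ∨ ∃ a ∈ A, conjBy C x = conjBy B a) ∧
       (conjBy C x⁻¹ = A ∨ ∃ a ∈ A, conjBy C x⁻¹ = conjBy B a)) := by
  -- invariance under elements of A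
  have hA : ∀ a' ∈ A, ∀ C : Subgroup G, (C = A ∨ ∃ a ∈ A, C = conjBy B a) →
      (conjBy C a' = A ∨ ∃ a ∈ A, conjBy C a' = conjBy B a) := by
    rintro a' ha' C (rfl | ⟨a, ha, rfl⟩)
    · left; exact conjBy_of_mem ha'
    · right; exact ⟨a' * a, A.mul_mem ha' ha, conjBy_conjBy B a a'⟩
  -- conjugates of A under B
  have hB0 : ∀ b ∈ B, (conjBy A b = A ∨ ∃ a ∈ A, conjBy A b = conjBy B a) := by
    intro b hb
    by_cases hb1 : b = 1
    · left; rw [hb1, conjBy_one]
    · right
      obtain ⟨a, ha, -, hab⟩ := cond_right' h hb hb1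
      exact ⟨a, ha, hab.symm⟩
  have hB : ∀ b' ∈ B, ∀ C : Subgroup G, (C = A ∨ ∃ a ∈ A, C = conjBy B a) →
      (conjBy C b' = A ∨ ∃ a ∈ A, conjBy C b' = conjBy B a) := by
    rintro b' hb' C (rfl | ⟨a, ha, rfl⟩)
    · exact hB0 b' hb'
    · by_cases ha1 : a = 1
      · right; refine ⟨1, A.one_mem, ?_⟩
        rw [ha1, conjBy_one, conjBy_of_mem hb']
      · obtain ⟨b, hb, -, hab⟩ := cond_left' h ha ha1
        rw [← hab, conjBy_conjBy]
        exact hB0 (b' * b) (B.mul_mem hb' hb)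
  have hx' : x ∈ Subgroup.closure ((A : Set G) ∪ (B : Set G)) := by
    rwa [Subgroup.closure_union, Subgroup.closure_eq, Subgroup.closure_eq]
  induction hx' using Subgroup.closure_induction with
  | mem y hy =>
    intro C hC
    rcases hy with hy | hy
    · exact ⟨hA y hy C hC, hA y⁻¹ (A.inv_mem hy) C hC⟩
    · exact ⟨hB y hy C hC, hB y⁻¹ (B.inv_mem hy) C hC⟩
  | one =>
    intro C hC
    simp only [inv_one, conjBy_one]
    exact ⟨hC, hC⟩
  | mul y z _ _ ihy ihz =>
    intro C hC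
    have hyz : y * z ∈ A ⊔ B := by
      rw [← Subgroup.closure_eq A, ← Subgroup.closure_eq B, ← Subgroup.closure_union]
      exact Subgroup.mul_mem _ ‹_› ‹_›
    have hy' : y ∈ A ⊔ B := by
      rw [← Subgroup.closure_eq A, ← Subgroup.closure_eq B, ← Subgroup.closure_union]; assumption
    have hz' : z ∈ A ⊔ B := by
      rw [← Subgroup.closure_eq A, ← Subgroup.closure_eq B, ← Subgroup.closure_union]; assumption
    constructor
    · rw [← conjBy_conjBy]
      exact (ihy hy' _ (ihz hz' C hC).1).1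
    · rw [mul_inv_rev, ← conjBy_conjBy]
      exact (ihz hz' _ (ihy hy' C hC).2).2
  | inv y _ ihy =>
    intro C hC
    have hy' : y ∈ A ⊔ B := by
      rw [← Subgroup.closure_eq A, ← Subgroup.closure_eq B, ← Subgroup.closure_union]; assumption
    rw [inv_inv]
    exact ⟨(ihy hy' C hC).2, (ihy hy' C hC).1⟩

theorem mem_unipotentSubgroups_iff {A B : Subgroup G} (h : IsRankOnePair A B) {C : Subgroup G} :
    C ∈ unipotentSubgroups A B ↔ (C = A ∨ ∃ a ∈ A, C = conjBy B a) := by
  constructor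
  · rintro ⟨x, hx, rfl⟩
    exact (conj_eq_or h hx A (Or.inl rfl)).1
  · rintro (rfl | ⟨a, ha, rfl⟩)
    · exact mem_unipotentSubgroups_self _ B
    · exact conjBy_mem_unipotentSubgroups (mem_unipotentSubgroups_right h) (Subgroup.mem_sup_left ha)

theorem conjBy_right_ne_left {A B : Subgroup G} (h : IsRankOnePair A B) {a : G} (ha : a ∈ A) :
    conjBy B a ≠ A := by
  intro hBA
  rw [conjBy_eq_iff, conjBy_of_mem (A.inv_mem ha)] at hBA
  exact h.ne hBA.symm

/-- `A` is not normalized by `A ⊔ B`. -/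
theorem exists_not_normalize {A B : Subgroup G} (h : IsRankOnePair A B) :
    ∃ x ∈ A ⊔ B, conjBy A x ≠ A := by
  obtain ⟨x, hx, hB⟩ := exists_conj_eq h
  exact ⟨x, hx, fun hA => h.ne (hA.symm.trans hB.symm)⟩


/-- If every element of `A ⊔ B = ⊤` normalizes `A` we get a contradiction. -/
theorem not_forall_normalize {X : Type*} [Group X] {A B : Subgroup X} (h : IsRankOneGroup X A B) :
    ¬ ∀ x : X, conjBy A x = A := by
  intro hall
  obtain ⟨x, -, hx⟩ := exists_not_normalize h.2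
  exact hx (hall x)

/-- A normal subgroup of a rank one group supplements `A` or is central. -/
theorem normal_sup_or_le_center {X : Type*} [Group X] {A B : Subgroup X}
    (h : IsRankOneGroup X A B) (N : Subgroup X) (hN : N.Normal) :
    N ⊔ A = ⊤ ∨ N ≤ Subgroup.center X := by
  obtain ⟨htop, hp⟩ := h
  by_cases hNA : ∀ n ∈ N, conjBy A n = A
  · right
    have hNB : ∀ n ∈ N, conjBy B n = B := by
      intro n hn
      obtain ⟨x, -, hB⟩ := exists_conj_eq hp
      have h1 : x⁻¹ * n * x ∈ N := by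
        have := hN.conj_mem n hn x⁻¹
        simpa using this
      rw [hB, conjBy_conjBy]
      have h2 : n * x = x * (x⁻¹ * n * x) := by group
      rw [h2, ← conjBy_conjBy, hNA _ h1]
    have hcA : ∀ n ∈ N, ∀ a ∈ A, n * a = a * n := by
      intro n hn a ha
      have h1 : n * a * n⁻¹ * a⁻¹ ∈ A := by
        refine A.mul_mem ?_ (A.inv_mem ha)
        have : n * a * n⁻¹ ∈ conjBy A n := conj_mem_conjBy ha
        rwa [hNA n hn] at this
      have h2 : n * a * n⁻¹ * a⁻¹ ∈ N := by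
        have h3 : a * n⁻¹ * a⁻¹ ∈ N := hN.conj_mem _ (N.inv_mem hn) a
        have h4 : n * a * n⁻¹ * a⁻¹ = n * (a * n⁻¹ * a⁻¹) := by group
        rw [h4]; exact N.mul_mem hn h3
      have h5 := eq_one_of_mem_of_normalizes hp h1 (conjBy_eq_self_iff.mp (hNB _ h2))
      have h6 : n * a = (n * a * n⁻¹ * a⁻¹) * (a * n) := by group
      rw [h6, h5, one_mul]
    have hcB : ∀ n ∈ N, ∀ b ∈ B, n * b = b * n := by
      intro n hn b hb
      have h1 : n * b * n⁻¹ * b⁻¹ ∈ B := by
        refine B.mul_mem ?_ (B.inv_mem hb)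
        have : n * b * n⁻¹ ∈ conjBy B n := conj_mem_conjBy hb
        rwa [hNB n hn] at this
      have h2 : n * b * n⁻¹ * b⁻¹ ∈ N := by
        have h3 : b * n⁻¹ * b⁻¹ ∈ N := hN.conj_mem _ (N.inv_mem hn) b
        have h4 : n * b * n⁻¹ * b⁻¹ = n * (b * n⁻¹ * b⁻¹) := by group
        rw [h4]; exact N.mul_mem hn h3
      have h5 := eq_one_of_mem_of_normalizes' hp h1 (conjBy_eq_self_iff.mp (hNA _ h2))
      have h6 : n * b = (n * b * n⁻¹ * b⁻¹) * (b * n) := by group
      rw [h6, h5, one_mul]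
    intro n hn
    rw [Subgroup.mem_center_iff]
    intro g
    have hg : g ∈ Subgroup.centralizer ({n} : Set X) := by
      have hle : A ⊔ B ≤ Subgroup.centralizer ({n} : Set X) := by
        apply sup_le
        · intro a ha
          rw [Subgroup.mem_centralizer_iff]
          intro m hm
          rw [Set.mem_singleton_iff] at hm
          rw [hm]
          exact hcA n hn a ha
        · intro b hb
          rw [Subgroup.mem_centralizer_iff]
          intro m hm
          rw [Set.mem_singleton_iff] at hm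
          rw [hm]
          exact hcB n hn b hb
      exact hle (by rw [htop]; trivial)
    exact (Subgroup.mem_centralizer_iff.mp hg n rfl).symm
  · left
    simp only [not_forall] at hNA
    obtain ⟨n, hn, hnA⟩ := hNA
    have hmem : conjBy A n ∈ unipotentSubgroups A B :=
      ⟨n, by rw [htop]; trivial, rfl⟩
    rcases (mem_unipotentSubgroups_iff hp).mp hmem with h1 | ⟨a₀, ha₀, h1⟩
    · exact absurd h1 hnA
    · have hB : B = conjBy A (a₀⁻¹ * n) := by
        rw [← conjBy_conjBy, h1, conjBy_conjBy]; simp [conjBy_one]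
      rw [eq_top_iff, ← htop]
      apply sup_le le_sup_right
      rw [hB]
      rintro _ ⟨a, ha, rfl⟩
      have hn' : n ∈ N ⊔ A := Subgroup.mem_sup_left hn
      have ha' : a ∈ N ⊔ A := Subgroup.mem_sup_right ha
      have ha₀' : a₀ ∈ N ⊔ A := Subgroup.mem_sup_right ha₀
      show a₀⁻¹ * n * a * (a₀⁻¹ * n)⁻¹ ∈ N ⊔ A
      exact (N ⊔ A).mul_mem ((N ⊔ A).mul_mem ((N ⊔ A).mul_mem ((N ⊔ A).inv_mem ha₀') hn') ha')
        ((N ⊔ A).inv_mem ((N ⊔ A).mul_mem ((N ⊔ A).inv_mem ha₀') hn'))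


/-- In a rank one pair, no non-identity element of `A` normalizes `d A d⁻¹` for `1 ≠ d ∈ B`. -/
theorem eq_one_of_normalizes_conj {A B : Subgroup G} (h : IsRankOnePair A B) {d : G} (hd : d ∈ B)
    (hd1 : d ≠ 1) {a : G} (ha : a ∈ A)
    (hn : a ∈ Subgroup.normalizer ((conjBy A d : Subgroup G) : Set G)) : a = 1 := by
  obtain ⟨a'', ha'', -, hab⟩ := cond_right' h hd hd1
  rw [← hab, mem_normalizer_conjBy] at hn
  have h1 := eq_one_of_mem_of_normalizes h (A.mul_mem (A.mul_mem (A.inv_mem ha'') ha) ha'') hn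
  have h2 : a = a'' * (a''⁻¹ * a * a'') * a''⁻¹ := by group
  rw [h2, h1]; group

/-- In a rank one pair, no non-identity element of `B` normalizes `a B a⁻¹` for `1 ≠ a ∈ A`. -/
theorem eq_one_of_normalizes_conj' {A B : Subgroup G} (h : IsRankOnePair A B) {a : G} (ha : a ∈ A)
    (ha1 : a ≠ 1) {b : G} (hb : b ∈ B)
    (hn : b ∈ Subgroup.normalizer ((conjBy B a : Subgroup G) : Set G)) : b = 1 :=
  eq_one_of_normalizes_conj (RankOnePair_symm h) ha ha1 hb hn

theorem exists_partner {S : Set (Subgroup G)} {A : Subgroup G}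
    (hA : ¬ IsIsolatedIn (FAdj S) S A) (hAS : A ∈ S) : ∃ C ∈ S, IsRankOnePair A C := by
  have h0 : ∃ C, FAdj S A C ∨ FAdj S C A := by
    by_contra hne
    apply hA
    exact ⟨hAS, fun B => ⟨fun hh => hne ⟨B, Or.inl hh⟩, fun hh => hne ⟨B, Or.inr hh⟩⟩⟩
  obtain ⟨C, h1 | h2⟩ := h0
  · exact ⟨C, h1.2.1, h1.2.2⟩
  · exact ⟨C, h2.1, RankOnePair_symm h2.2.2⟩

theorem mem_normalizer_of_forall_comm {K : Subgroup G} {x : G} (hx : ∀ k ∈ K, k * x = x * k) :
    x ∈ Subgroup.normalizer (K : Set G) :=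
  Subgroup.centralizer_le_normalizer _ (Subgroup.mem_centralizer_iff.mpr hx)

open scoped commutatorElement in
theorem comm_of_commutator_eq_bot {A B : Subgroup G} (h : ⁅A, B⁆ = ⊥) {a b : G} (ha : a ∈ A)
    (hb : b ∈ B) : a * b = b * a := by
  have h1 : ⁅a, b⁆ ∈ ⁅A, B⁆ := Subgroup.commutator_mem_commutator ha hb
  rw [h, Subgroup.mem_bot, commutatorElement_def] at h1
  have : a * b = (a * b * a⁻¹ * b⁻¹) * (b * a) := by group
  rw [this, h1, one_mul]

theorem comm_of_isMulCommutative {A : Subgroup G} (hA : IsMulCommutative A) {a b : G} (ha : a ∈ A)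
    (hb : b ∈ A) : a * b = b * a := by
  have := hA.is_comm.comm ⟨a, ha⟩ ⟨b, hb⟩
  exact congrArg Subtype.val this


theorem center_le_normalizer (A : Subgroup G) :
    Subgroup.center G ≤ Subgroup.normalizer (A : Set G) := by
  intro z hz
  rw [Subgroup.mem_normalizer_iff]
  intro a
  have hza : z * a * z⁻¹ = a := by
    rw [Subgroup.mem_center_iff] at hz
    rw [← hz a]; group
  rw [hza]

theorem conjBy_of_mem_center (A : Subgroup G) {z : G} (hz : z ∈ Subgroup.center G) :
    conjBy A z = A :=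
  conjBy_eq_self_iff.mpr (center_le_normalizer A hz)


/-- In a rank one pair with `B` commutative, a non-identity element of `A` commutes with no
non-identity element of `B`. -/
theorem eq_one_of_comm {A B : Subgroup G} (h : IsRankOnePair A B) (hBc : IsMulCommutative B)
    {a : G} (ha : a ∈ A) (ha1 : a ≠ 1) {b : G} (hb : b ∈ B) (hcomm : a * b = b * a) : b = 1 := by
  obtain ⟨b₀, hb₀, -, h0⟩ := cond_left' h ha ha1
  have h1 : b ∈ conjBy B a := by
    refine ⟨b, hb, ?_⟩
    show a * b * a⁻¹ = b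
    rw [hcomm]; group
  rw [← h0, mem_conjBy] at h1
  have h2 : b₀⁻¹ * b * b₀ = b := by
    have := comm_of_isMulCommutative hBc hb hb₀
    rw [mul_assoc, this]; group
  rw [h2] at h1
  exact eq_one_of_mem_of_normalizes h h1 (Subgroup.le_normalizer hb)

theorem le_centralizer_zpowers_iff {C : Subgroup G} {a : G} :
    C ≤ Subgroup.centralizer ((Subgroup.zpowers a : Subgroup G) : Set G) ↔
      ∀ c ∈ C, c * a = a * c := by
  constructor
  · intro h c hc
    exact (Subgroup.mem_centralizer_iff.mp (h hc) a (Subgroup.mem_zpowers a)).symm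
  · intro h c hc
    rw [Subgroup.mem_centralizer_iff]
    rintro _ ⟨n, rfl⟩
    have : Commute c a := h c hc
    exact (this.zpow_right n).symm

theorem mem_centralizer_sup {A C : Subgroup G} {z : G} (hA : ∀ x ∈ A, x * z = z * x)
    (hC : ∀ x ∈ C, x * z = z * x) : z ∈ Subgroup.centralizer ((A ⊔ C : Subgroup G) : Set G) := by
  have hle : A ⊔ C ≤ Subgroup.centralizer ({z} : Set G) := by
    apply sup_le
    · intro x hx
      rw [Subgroup.mem_centralizer_iff]
      intro m hm
      rw [Set.mem_singleton_iff] at hm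
      rw [hm]; exact (hA x hx).symm
    · intro x hx
      rw [Subgroup.mem_centralizer_iff]
      intro m hm
      rw [Set.mem_singleton_iff] at hm
      rw [hm]; exact (hC x hx).symm
  rw [Subgroup.mem_centralizer_iff]
  intro x hx
  exact (Subgroup.mem_centralizer_iff.mp (hle hx) z rfl).symm


theorem isNilpotent_conjBy {A : Subgroup G} (hA : Group.IsNilpotent A) (g : G) :
    Group.IsNilpotent (conjBy A g) :=
  (Group.isNilpotent_congr (A.equivMapOfInjective _ (MulAut.conj g).injective)).mp hA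


theorem rankOnePair_conj {A B : Subgroup G} (h : IsRankOnePair A B) (g : G) :
    IsRankOnePair (conjBy A g) (conjBy B g) := by
  have hcond : ∀ {A B : Subgroup G}, RankOneCondition A B →
      RankOneCondition (conjBy A g) (conjBy B g) := by
    intro A B hc x hx hx1
    obtain ⟨a, ha, rfl⟩ := hx
    have ha1 : a ≠ 1 := by
      rintro rfl; apply hx1; simp
    obtain ⟨b, hb, hb1, hab⟩ := hc a ha ha1
    refine ⟨g * b * g⁻¹, conj_mem_conjBy hb, ?_, ?_⟩
    · intro h
      apply hb1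
      have : b = g⁻¹ * (g * b * g⁻¹) * g := by group
      rw [this, h]; group
    · show conjBy (conjBy A g) (g * b * g⁻¹)⁻¹ = conjBy (conjBy B g) (g * a * g⁻¹)⁻¹
      rw [conjBy_conjBy, conjBy_conjBy]
      have e1 : (g * b * g⁻¹)⁻¹ * g = g * b⁻¹ := by group
      have e2 : (g * a * g⁻¹)⁻¹ * g = g * a⁻¹ := by group
      rw [e1, e2, ← conjBy_conjBy, ← conjBy_conjBy, hab]
  exact ⟨fun hAB => h.ne (conjBy_inj.mp hAB), isNilpotent_conjBy h.nilpotent_left g,
    isNilpotent_conjBy h.nilpotent_right g, hcond h.cond_left, hcond h.cond_right⟩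

/-- Two distinct members of `Ω` can be moved to `(A, B)`. -/
theorem to_std {A B : Subgroup G} (h : IsRankOnePair A B)
    {C₁ C₂ : Subgroup G} (h1 : C₁ ∈ unipotentSubgroups A B)
    (h2 : C₂ ∈ unipotentSubgroups A B) (hne : C₁ ≠ C₂) :
    ∃ x ∈ A ⊔ B, conjBy C₁ x = A ∧ conjBy C₂ x = B := by
  obtain ⟨u, hu, rfl⟩ := h1
  have h3 : conjBy C₂ u⁻¹ ∈ unipotentSubgroups A B :=
    conjBy_mem_unipotentSubgroups h2 ((A ⊔ B).inv_mem hu)
  rcases (mem_unipotentSubgroups_iff h).mp h3 with h4 | ⟨a, ha, h4⟩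
  · exfalso
    apply hne
    rw [conjBy_eq_iff, inv_inv] at h4
    exact h4.symm
  · refine ⟨a⁻¹ * u⁻¹, (A ⊔ B).mul_mem ((A ⊔ B).inv_mem (Subgroup.mem_sup_left ha))
      ((A ⊔ B).inv_mem hu), ?_, ?_⟩
    · rw [conjBy_conjBy]
      have : a⁻¹ * u⁻¹ * u = a⁻¹ := by group
      rw [this, conjBy_of_mem (A.inv_mem ha)]
    · rw [← conjBy_conjBy, h4, conjBy_conjBy]
      simp [conjBy_one]

theorem unipotent_le {A B E : Subgroup G} (hE : E ∈ unipotentSubgroups A B) : E ≤ A ⊔ B := by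
  obtain ⟨y, hy, rfl⟩ := hE
  rintro _ ⟨a, ha, rfl⟩
  exact (A ⊔ B).mul_mem ((A ⊔ B).mul_mem hy (Subgroup.mem_sup_left ha)) ((A ⊔ B).inv_mem hy)

/-- distinct members of `Ω`: no nonidentity element of one normalizes the other -/
theorem eq_one_of_mem_of_normalizes_of_ne {C D : Subgroup G} (h : IsRankOnePair C D)
    {E₁ E₂ : Subgroup G} (h1 : E₁ ∈ unipotentSubgroups C D) (h2 : E₂ ∈ unipotentSubgroups C D)
    (hne : E₁ ≠ E₂) {x : G} (hx : x ∈ E₁) (hn : x ∈ Subgroup.normalizer (E₂ : Set G)) : x = 1 := by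
  obtain ⟨y, hy, hy1, hy2⟩ := to_std h h1 h2 hne
  have hxC : y * x * y⁻¹ ∈ C := by rw [← hy1]; exact conj_mem_conjBy hx
  have hxD : y * x * y⁻¹ ∈ Subgroup.normalizer (D : Set G) := by
    rw [← hy2, mem_normalizer_conjBy]
    have : y⁻¹ * (y * x * y⁻¹) * y = x := by group
    rw [this]; exact hn
  have h4 := eq_one_of_mem_of_normalizes h hxC hxD
  have h3 : x = y⁻¹ * (y * x * y⁻¹) * y := by group
  rw [h3, h4]; group

/-- a member of `Ω(C, D)` has a rank one partner in `S` -/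
theorem unipotent_partner {S : Set (Subgroup G)} (hS : IsRootSubgroupSet S) {C D E : Subgroup G}
    (hD : D ∈ S) (hCD : IsRankOnePair C D) (hE : E ∈ unipotentSubgroups C D) :
    ∃ E' ∈ S, IsRankOnePair E E' := by
  obtain ⟨y, hy, rfl⟩ := hE
  exact ⟨conjBy D y, hS.conj_mem D hD y, rankOnePair_conj hCD y⟩

theorem not_isolated_of_partner {S : Set (Subgroup G)} {A C : Subgroup G} (hA : A ∈ S) (hC : C ∈ S)
    (hAC : IsRankOnePair A C) : ¬ IsIsolatedIn (FAdj S) S A := by
  rintro ⟨-, h⟩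
  exact (h C).1 ⟨hA, hC, hAC⟩


theorem isNilpotent_of_isMulCommutative {H : Type*} [Group H] (h : IsMulCommutative H) :
    Group.IsNilpotent H :=
  ⟨⟨1, Subgroup.upperCentralSeries_one_eq_top_iff.mpr h⟩⟩

end Cfsg.Agent.Helper26
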