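import Mathlib
import Cfsg.Agent.Helper26.CycGlaub

/-!
# Canonical extensions for a cyclic group acting with constant centralizers (helper26)

Prefix `cz_`.  Continuation of `CycGlaub`: values of the canonical extension on the cosets of
non-generators when all non-identity elements of `S` have the same centralizer in `G`.
-/

set_option autoImplicit false

namespace Cfsg.Agent.Helper26

open Cfsg

universe u

theorem cz_coprime_aux (n : ℕ) (hn : 0 < n) : (2 * n - 1).Coprime n := by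
  apply Nat.Coprime.symm
  have h1 : Nat.gcd n (2 * n - 1) ∣ n := Nat.gcd_dvd_left _ _
  have h2 : Nat.gcd n (2 * n - 1) ∣ 2 * n - 1 := Nat.gcd_dvd_right _ _
  have h3 : Nat.gcd n (2 * n - 1) ∣ 1 := by
    have h4 := Nat.dvd_sub (Dvd.dvd.mul_left h1 2) h2
    have e : 2 * n - (2 * n - 1) = 1 := by omega
    rw [e] at h4; exact h4
  exact Nat.dvd_one.mp h3

section Elt

open scoped ComplexConjugate

variable {Γ : Type u} [Group Γ] [Fintype Γ] (G S C : Subgroup Γ) [hG : G.Normal] [Fintype G]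
  [Fintype S] [Fintype C]

/-- The canonical extension is invariant under `t ↦ t ^ j` on the cosets `C t`. -/
theorem cz_pow_indep (hsup : G ⊔ S = ⊤) (hcop : (Nat.card G).Coprime (Nat.card S))
    (hcent : ∀ c ∈ C, ∀ t ∈ S, c * t = t * c) (hCG : C ≤ G)
    (χ : IrrCharacter G) (χh : IrrCharacter Γ)
    (hext : ∀ g : G, (χh : Γ → ℂ) g = (χ : G → ℂ) g)
    (hdet : (detOrder (χh : Γ → ℂ)).Coprime (Nat.card S))
    (j : ℕ) (hj : j.Coprime (Nat.card S)) (t : S) (c : C) :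
    (χh : Γ → ℂ) ((c : Γ) * (t : Γ) ^ j) = (χh : Γ → ℂ) ((c : Γ) * t) := by
  have hidx : G.index = Nat.card S := gx_index_eq G S hsup hcop
  have hΓ : Nat.card Γ = Nat.card G * Nat.card S := by
    rw [← hidx]; exact (Subgroup.card_mul_index G).symm
  have hd : (charDegree (χ : G → ℂ)).Coprime (Nat.card S) :=
    Nat.Coprime.coprime_dvd_left (Helper25.irr_degree_dvd_card χ) hcop
  obtain ⟨k, hk1, hk2⟩ := Nat.chineseRemainder hcop 1 j
  have hk : k.Coprime (Nat.card Γ) := by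
    rw [hΓ]
    apply Nat.Coprime.mul_right
    · have h1 := Nat.ModEq.gcd_eq hk1
      show Nat.gcd k (Nat.card G) = 1
      rw [h1]; simp
    · have h1 := Nat.ModEq.gcd_eq hk2
      show Nat.gcd k (Nat.card S) = 1
      rw [h1]; exact hj
  have hkG : ∀ g : G, (g : Γ) ^ k = g := by
    intro g
    have h1 : k ≡ 1 [MOD orderOf (g : Γ)] := by
      apply Nat.ModEq.of_dvd _ hk1
      rw [Subgroup.orderOf_coe]
      exact orderOf_dvd_natCard g
    have h2 := (pow_eq_pow_iff_modEq (x := (g : Γ)) (n := k) (m := 1)).mpr h1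
    rw [h2, pow_one]
  have hkt : (t : Γ) ^ k = (t : Γ) ^ j := by
    apply (pow_eq_pow_iff_modEq (x := (t : Γ)) (n := k) (m := j)).mpr
    apply Nat.ModEq.of_dvd _ hk2
    rw [Subgroup.orderOf_coe]
    exact orderOf_dvd_natCard t
  have h3 := cy_galois G (Nat.card S) hidx χ hd χh hext hdet k hk hkG ((c : Γ) * t)
  have hcm : Commute (c : Γ) (t : Γ) := hcent c c.2 t t.2
  have e : (c : Γ) ^ k = c := hkG ⟨c, hCG c.2⟩
  rw [hcm.mul_pow, e, hkt] at h3
  exact h3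

/-- The values of the canonical extension on a coset `C x`, for `x ∈ S` whose centralizer in
`G` is `C`. -/
theorem cz_exists_elt (hsup : G ⊔ S = ⊤) (hcop : (Nat.card G).Coprime (Nat.card S))
    (hab : ∀ a b : S, a * b = b * a)
    (hcent : ∀ c ∈ C, ∀ t ∈ S, c * t = t * c) (hCG : C ≤ G)
    (χ : IrrCharacter G) (χh : IrrCharacter Γ)
    (hext : ∀ g : G, (χh : Γ → ℂ) g = (χ : G → ℂ) g)
    (hdet : (detOrder (χh : Γ → ℂ)).Coprime (Nat.card S))
    (x : S) (hx : ∀ y ∈ G, y * (x : Γ) = x * y → y ∈ C) :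
    ∃ (β : IrrCharacter C) (ε : ℤ), (ε = 1 ∨ ε = -1) ∧
      ∀ c : C, (χh : Γ → ℂ) ((c : Γ) * x) = (ε : ℂ) * (β : C → ℂ) c := by
  classical
  have hinf : G ⊓ S = ⊥ := Subgroup.inf_eq_bot_of_coprime hcop
  have hCs : ∀ c ∈ C, c * (x : Γ) = x * c := fun c hc => hcent c hc x x.2
  have hnorm : ∀ g ∈ G, (x : Γ) * g * (x : Γ)⁻¹ ∈ G := fun g hg => hG.conj_mem g hg x
  have hcop' : (Nat.card G).Coprime (orderOf (x : Γ)) := by
    apply Nat.Coprime.coprime_dvd_right _ hcop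
    rw [Subgroup.orderOf_coe]
    exact orderOf_dvd_natCard x
  have hirr : IsIrrCharacter G (fun g : G => (χh : Γ → ℂ) g) := by
    have e : (fun g : G => (χh : Γ → ℂ) g) = (χ : G → ℂ) := funext hext
    rw [e]; exact χ.2
  have hG0 : (Nat.card G : ℂ) ≠ 0 := Nat.cast_ne_zero.mpr Nat.card_pos.ne'
  have hC0 : (Nat.card C : ℂ) ≠ 0 := Nat.cast_ne_zero.mpr Nat.card_pos.ne'
  have hpow := cz_pow_indep G S C hsup hcop hcent hCG χ χh hext hdet
  -- the norm on the coset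
  have hnormsum : ∑ c : C, (χh : Γ → ℂ) ((c : Γ) * x) * conj ((χh : Γ → ℂ) ((c : Γ) * x))
      = (Nat.card C : ℂ) := by
    have h1 := cy_coset_sum G C (x : Γ) hCG hCs hx hnorm hcop'
      (fun y => (χh : Γ → ℂ) y * conj ((χh : Γ → ℂ) y))
      (fun y z => by simp only [Helper25.irr_conj])
    have h2 := (cy_coset_orth G S hsup hinf hab χh χh hirr x).1 rfl
    beta_reduce at h1 h2
    rw [h2] at h1
    have h3 : (Nat.card G : ℂ) * ∑ c : C, (χh : Γ → ℂ) ((c : Γ) * x) * conj ((χh : Γ → ℂ) ((c : Γ) * x))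
        = (Nat.card G : ℂ) * (Nat.card C : ℂ) := by rw [← h1]; ring
    exact mul_left_cancel₀ hG0 h3
  have hAchar : ∀ β : IrrCharacter C, IsCharacter S (cy_A S C (χh : Γ → ℂ) (β : C → ℂ)) :=
    fun β => cy_A_char S C hcent hab _ (Helper2.isCharacter_of_isIrrCharacter χh.2) _
      (Helper2.isCharacter_of_isIrrCharacter β.2)
  have hApow : ∀ (β : IrrCharacter C) (j : ℕ), j.Coprime (Nat.card S) →
      cy_A S C (χh : Γ → ℂ) (β : C → ℂ) (x ^ j) = cy_A S C (χh : Γ → ℂ) (β : C → ℂ) x := by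
    intro β j hj
    unfold cy_A
    congr 1
    funext c
    rw [Subgroup.coe_pow, hpow j hj x c]
  -- integrality bound
  obtain ⟨ι, hι, hne, m, hm, hbur⟩ := char_galois_sum' S
  have hbound : ∀ β : IrrCharacter C, cy_A S C (χh : Γ → ℂ) (β : C → ℂ) x ≠ 0 →
      1 ≤ Complex.normSq (cy_A S C (χh : Γ → ℂ) (β : C → ℂ) x) := by
    intro β hne0
    have h1 := hbur _ (hAchar β) x hne0
    have h2 : ∀ i, cy_A S C (χh : Γ → ℂ) (β : C → ℂ) (x ^ m i)
        = cy_A S C (χh : Γ → ℂ) (β : C → ℂ) x := fun i => hApow β (m i) (hm i).symm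
    simp only [h2] at h1
    rw [Finset.sum_const, Finset.card_univ, nsmul_eq_mul] at h1
    have hι0 : (0 : ℝ) < Fintype.card ι := by exact_mod_cast Fintype.card_pos
    rw [Complex.normSq_eq_norm_sq]
    nlinarith
  -- reality
  have hxinv : x⁻¹ = x ^ (2 * Nat.card S - 1) := by
    have h1 : x ^ (2 * Nat.card S - 1) * x = 1 := by
      rw [← pow_succ]
      have e : 2 * Nat.card S - 1 + 1 = Nat.card S * 2 := by
        have := Nat.card_pos (α := S); omega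
      rw [e, pow_mul, pow_card_eq_one', one_pow]
    exact (eq_inv_of_mul_eq_one_left h1).symm
  have hreal : ∀ β : IrrCharacter C, conj (cy_A S C (χh : Γ → ℂ) (β : C → ℂ) x)
      = cy_A S C (χh : Γ → ℂ) (β : C → ℂ) x := by
    intro β
    have h1 : cy_A S C (χh : Γ → ℂ) (β : C → ℂ) x⁻¹ = cy_A S C (χh : Γ → ℂ) (β : C → ℂ) x := by
      rw [hxinv]
      exact hApow β _ (cz_coprime_aux _ Nat.card_pos)
    conv_rhs => rw [← h1]
    unfold cy_A classInner
    rw [map_mul, map_inv₀, Complex.conj_natCast, map_sum]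
    congr 1
    rw [← Equiv.sum_comp (Equiv.inv C)
      (fun c : C => (χh : Γ → ℂ) ((c : Γ) * ((x⁻¹ : S) : Γ)) * conj ((β : C → ℂ) c))]
    apply Finset.sum_congr rfl; intro c _
    rw [map_mul, Complex.conj_conj]
    show _ = (χh : Γ → ℂ) (((c⁻¹ : C) : Γ) * ((x⁻¹ : S) : Γ)) * conj ((β : C → ℂ) c⁻¹)
    rw [Helper25.irr_inv β c, Complex.conj_conj, ← Helper25.irr_inv χh]
    have h3 := hCs c c.2
    have h4 : ((c : Γ) * (x : Γ))⁻¹ = ((c⁻¹ : C) : Γ) * ((x⁻¹ : S) : Γ) := by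
      rw [Subgroup.coe_inv, Subgroup.coe_inv, h3, mul_inv_rev]
    rw [h4]
  -- the class function `c ↦ χh (c x)`
  obtain ⟨F, hF⟩ : ∃ F : C → ℂ, F = fun c : C => (χh : Γ → ℂ) ((c : Γ) * x) := ⟨_, rfl⟩
  have hFcl : IsClassFunction C F := by
    intro c y
    rw [hF]
    show (χh : Γ → ℂ) (((y * c * y⁻¹ : C) : Γ) * x) = (χh : Γ → ℂ) ((c : Γ) * x)
    have hy := hCs y y.2
    have e : ((y * c * y⁻¹ : C) : Γ) * x = (y : Γ) * ((c : Γ) * x) * (y : Γ)⁻¹ := by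
      rw [Subgroup.coe_mul, Subgroup.coe_mul, Subgroup.coe_inv]
      calc (y : Γ) * c * (y : Γ)⁻¹ * x = y * c * (y : Γ)⁻¹ * (x * y) * (y : Γ)⁻¹ := by group
        _ = y * c * (y : Γ)⁻¹ * (y * x) * (y : Γ)⁻¹ := by rw [hy]
        _ = (y : Γ) * ((c : Γ) * x) * (y : Γ)⁻¹ := by group
    rw [e, Helper25.irr_conj]
  have hFa : ∀ β : IrrCharacter C, classInner F (β : C → ℂ)
      = cy_A S C (χh : Γ → ℂ) (β : C → ℂ) x := by
    intro β; rw [hF]; rfl
  have hFF : classInner F F = 1 := by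
    unfold classInner
    rw [hF]
    simp only []
    rw [hnormsum, inv_mul_cancel₀ hC0]
  have hpars := Helper2.classInner_eq_sum_mul hFcl F
  rw [hFF] at hpars
  have hsum1 : ∑ β : IrrCharacter C, Complex.normSq (classInner F (β : C → ℂ)) = 1 := by
    have h1 : ((∑ β : IrrCharacter C, Complex.normSq (classInner F (β : C → ℂ)) : ℝ) : ℂ) = 1 := by
      rw [Complex.ofReal_sum, hpars]
      exact Finset.sum_congr rfl (fun β _ => (Complex.mul_conj _).symm)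
    exact_mod_cast h1
  have hb1 : ∀ β : IrrCharacter C, classInner F (β : C → ℂ) ≠ 0 →
      1 ≤ Complex.normSq (classInner F (β : C → ℂ)) := by
    intro β h
    rw [hFa β] at h ⊢
    exact hbound β h
  obtain ⟨β₀, hβ₀⟩ : ∃ β₀ : IrrCharacter C, classInner F (β₀ : C → ℂ) ≠ 0 := by
    by_contra hno
    push_neg at hno
    simp only [hno, map_zero, Finset.sum_const_zero] at hsum1
    exact zero_ne_one hsum1
  have huniq : ∀ β : IrrCharacter C, β ≠ β₀ → classInner F (β : C → ℂ) = 0 := by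
    intro β hβ
    by_contra hne0
    have h1 : ∑ x ∈ ({β₀, β} : Finset (IrrCharacter C)), Complex.normSq (classInner F (x : C → ℂ))
        ≤ ∑ x : IrrCharacter C, Complex.normSq (classInner F (x : C → ℂ)) :=
      Finset.sum_le_sum_of_subset_of_nonneg (Finset.subset_univ _)
        (fun _ _ _ => Complex.normSq_nonneg _)
    rw [Finset.sum_pair (Ne.symm hβ), hsum1] at h1
    have h2 := hb1 β₀ hβ₀
    have h3 := hb1 β hne0
    linarith
  have hns : Complex.normSq (classInner F (β₀ : C → ℂ)) = 1 := by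
    rw [Finset.sum_eq_single β₀ (fun β _ hβ => by rw [huniq β hβ, map_zero])
      (fun h => absurd (Finset.mem_univ _) h)] at hsum1
    exact hsum1
  obtain ⟨a, ha⟩ : ∃ a : ℂ, a = classInner F (β₀ : C → ℂ) := ⟨_, rfl⟩
  have hare : conj a = a := by rw [ha, hFa]; exact hreal β₀
  have ha1 : a = 1 ∨ a = -1 := by
    have him : a.im = 0 := by
      have h1 := congrArg Complex.im hare
      rw [Complex.conj_im] at h1
      linarith
    have hre : a.re * a.re = 1 := by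
      have h := hns
      rw [← ha, Complex.normSq_apply, him] at h
      linarith
    have hre' : a.re = 1 ∨ a.re = -1 := by
      have h1 : (a.re - 1) * (a.re + 1) = 0 := by ring_nf; linarith
      rcases mul_eq_zero.mp h1 with h | h
      · left; linarith
      · right; linarith
    rcases hre' with h | h
    · left; apply Complex.ext <;> simp [h, him]
    · right; apply Complex.ext <;> simp [h, him]
  have hFeq : F = a • (β₀ : C → ℂ) := by
    conv_lhs => rw [Helper2.classFun_eq_sum_classInner hFcl]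
    rw [Finset.sum_eq_single β₀ (fun β _ hβ => by rw [huniq β hβ, zero_smul])
      (fun h => absurd (Finset.mem_univ _) h), ha]
  obtain ⟨ε, hε, hεa⟩ : ∃ ε : ℤ, (ε = 1 ∨ ε = -1) ∧ (ε : ℂ) = a := by
    rcases ha1 with h | h
    · exact ⟨1, Or.inl rfl, by rw [h]; simp⟩
    · exact ⟨-1, Or.inr rfl, by rw [h]; simp⟩
  refine ⟨β₀, ε, hε, ?_⟩
  intro c
  rw [hεa]
  have h1 := congrFun hFeq c
  rw [hF] at h1
  exact h1

/-- The multiplicity function at `x` in terms of the pair `(β, ε)`. -/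
theorem cz_A_of_eq (χh : Γ → ℂ) (x : S) (β : IrrCharacter C) (ε : ℂ)
    (h : ∀ c : C, χh ((c : Γ) * x) = ε * (β : C → ℂ) c) (γ : IrrCharacter C) :
    cy_A S C χh (γ : C → ℂ) x = if β = γ then ε else 0 := by
  unfold cy_A
  have e : (fun c : C => χh ((c : Γ) * x)) = ε • (β : C → ℂ) := by
    funext c; rw [h c]; rfl
  rw [e, Helper2.classInner_smul_left, Helper2.classInner_irr_irr]
  split_ifs <;> simp

end Elt

section FourierQ

open scoped ComplexConjugate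

variable {Q : Type u} [Group Q] [Fintype Q]

theorem cz_hom_norm (μ : Q →* ℂˣ) (t : Q) : ‖((μ t : ℂˣ) : ℂ)‖ = 1 := by
  apply Complex.norm_eq_one_of_pow_eq_one (n := Nat.card Q) _ Nat.card_pos.ne'
  rw [← Units.val_pow_eq_pow_val, ← map_pow, pow_card_eq_one', map_one, Units.val_one]

theorem cz_hom_conj (μ : Q →* ℂˣ) (t : Q) : conj ((μ t : ℂˣ) : ℂ) = ((μ t⁻¹ : ℂˣ) : ℂ) := by
  rw [map_inv, Units.val_inv_eq_inv_val, Complex.inv_def, lo_hom_normSq μ t]
  simp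

open Classical in
/-- Orthogonality of distinct linear characters. -/
theorem cz_hom_orth (μ μ' : Q →* ℂˣ) :
    ∑ t : Q, ((μ t : ℂˣ) : ℂ) * conj ((μ' t : ℂˣ) : ℂ)
      = if μ = μ' then (Nat.card Q : ℂ) else 0 := by
  have h := Helper2.classInner_irr_irr
    (⟨_, Helper25.isIrrCharacter_of_monoidHom μ⟩ : IrrCharacter Q)
    ⟨_, Helper25.isIrrCharacter_of_monoidHom μ'⟩
  unfold classInner at h
  have hn0 : (Nat.card Q : ℂ) ≠ 0 := Nat.cast_ne_zero.mpr Nat.card_pos.ne'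
  have h2 : ∑ t : Q, ((μ t : ℂˣ) : ℂ) * conj ((μ' t : ℂˣ) : ℂ) = (Nat.card Q : ℂ) *
      (if (⟨_, Helper25.isIrrCharacter_of_monoidHom μ⟩ : IrrCharacter Q)
        = ⟨_, Helper25.isIrrCharacter_of_monoidHom μ'⟩ then 1 else 0) := by
    rw [← h, ← mul_assoc, mul_inv_cancel₀ hn0, one_mul]
  rw [h2]
  by_cases hμ : μ = μ'
  · rw [if_pos hμ, if_pos (by subst hμ; rfl), mul_one]
  · rw [if_neg hμ, if_neg, mul_zero]
    intro heq
    apply hμ
    ext t
    exact congrFun (congrArg Subtype.val heq) t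

open Classical in
/-- Fourier inversion in terms of the inner products with linear characters. -/
theorem cz_inversion (hab : ∀ a b : Q, a * b = b * a) [Fintype (Q →* ℂˣ)] (A : Q → ℂ) (t : Q) :
    A t = ∑ μ : Q →* ℂˣ, classInner A (fun u => ((μ u : ℂˣ) : ℂ)) * ((μ t : ℂˣ) : ℂ) := by
  have hn0 : (Nat.card Q : ℂ) ≠ 0 := Nat.cast_ne_zero.mpr Nat.card_pos.ne'
  unfold classInner
  have h1 : ∀ μ : Q →* ℂˣ,
      (Nat.card Q : ℂ)⁻¹ * (∑ u : Q, A u * conj ((μ u : ℂˣ) : ℂ)) * ((μ t : ℂˣ) : ℂ)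
      = (Nat.card Q : ℂ)⁻¹ * ∑ u : Q, A u * ((μ (u⁻¹ * t) : ℂˣ) : ℂ) := by
    intro μ
    rw [mul_assoc, Finset.sum_mul]
    congr 1
    apply Finset.sum_congr rfl; intro u _
    rw [cz_hom_conj, map_mul, Units.val_mul]; ring
  rw [Finset.sum_congr rfl (fun μ _ => h1 μ), ← Finset.mul_sum, Finset.sum_comm]
  simp only [← Finset.mul_sum, cy_hom_sum hab]
  rw [Finset.sum_eq_single t]
  · rw [if_pos (inv_mul_cancel t)]; field_simp
  · intro u _ hu
    rw [if_neg, mul_zero]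
    intro h0
    exact hu (inv_mul_eq_one.mp h0)
  · intro h0; exact absurd (Finset.mem_univ _) h0

/-- Two Fourier coefficients of a function supported on `K ∪ {1}` with values of absolute value
at most one on `K` differ by at most `2 |K| / |Q|`. -/
theorem cz_coef_diff (A : Q → ℂ) (K : Finset Q) (hK0 : ∀ t, t ∉ K → t ≠ 1 → A t = 0)
    (hK : ∀ t ∈ K, ‖A t‖ ≤ 1) (μ μ' : Q →* ℂˣ) :
    ‖classInner A (fun u => ((μ u : ℂˣ) : ℂ)) - classInner A (fun u => ((μ' u : ℂˣ) : ℂ))‖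
      ≤ 2 * K.card / Nat.card Q := by
  classical
  unfold classInner
  rw [← mul_sub, ← Finset.sum_sub_distrib, norm_mul, norm_inv, Complex.norm_natCast,
    div_eq_inv_mul]
  apply mul_le_mul_of_nonneg_left _ (inv_nonneg.mpr (Nat.cast_nonneg _))
  have h1 : ∑ t : Q, (A t * conj ((μ t : ℂˣ) : ℂ) - A t * conj ((μ' t : ℂˣ) : ℂ))
      = ∑ t ∈ K, (A t * conj ((μ t : ℂˣ) : ℂ) - A t * conj ((μ' t : ℂˣ) : ℂ)) := by
    symm
    apply Finset.sum_subset (Finset.subset_univ K)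
    intro t _ htK
    by_cases ht1 : t = 1
    · rw [ht1]; simp
    · rw [hK0 t htK ht1]; simp
  rw [h1]
  have hterm : ∀ t ∈ K, ‖A t * conj ((μ t : ℂˣ) : ℂ) - A t * conj ((μ' t : ℂˣ) : ℂ)‖ ≤ 2 := by
    intro t ht
    rw [← mul_sub, norm_mul]
    have h2 : ‖conj ((μ t : ℂˣ) : ℂ) - conj ((μ' t : ℂˣ) : ℂ)‖ ≤ 2 := by
      calc ‖conj ((μ t : ℂˣ) : ℂ) - conj ((μ' t : ℂˣ) : ℂ)‖
          ≤ ‖conj ((μ t : ℂˣ) : ℂ)‖ + ‖conj ((μ' t : ℂˣ) : ℂ)‖ := norm_sub_le _ _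
        _ = 2 := by rw [RCLike.norm_conj, RCLike.norm_conj, cz_hom_norm, cz_hom_norm]; norm_num
    calc ‖A t‖ * ‖conj ((μ t : ℂˣ) : ℂ) - conj ((μ' t : ℂˣ) : ℂ)‖ ≤ 1 * 2 :=
          mul_le_mul (hK t ht) h2 (norm_nonneg _) zero_le_one
      _ = 2 := by norm_num
  calc ‖∑ t ∈ K, (A t * conj ((μ t : ℂˣ) : ℂ) - A t * conj ((μ' t : ℂˣ) : ℂ))‖
      ≤ ∑ t ∈ K, ‖A t * conj ((μ t : ℂˣ) : ℂ) - A t * conj ((μ' t : ℂˣ) : ℂ)‖ := norm_sum_le _ _
    _ ≤ ∑ _t ∈ K, (2 : ℝ) := Finset.sum_le_sum hterm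
    _ = 2 * K.card := by rw [Finset.sum_const, nsmul_eq_mul]; ring

/-- A character supported on `K ∪ {1}` with small `K` vanishes off the identity. -/
theorem cz_vanish (hab : ∀ a b : Q, a * b = b * a) [Fintype (Q →* ℂˣ)] (A : Q → ℂ)
    (hA : IsCharacter Q A) (K : Finset Q) (hK0 : ∀ t, t ∉ K → t ≠ 1 → A t = 0)
    (hK : ∀ t ∈ K, ‖A t‖ ≤ 1) (hsmall : 2 * K.card < Nat.card Q) (t : Q) (ht : t ≠ 1) :
    A t = 0 := by
  classical
  have hnat : ∀ μ : Q →* ℂˣ, ∃ k : ℕ, classInner A (fun u => ((μ u : ℂˣ) : ℂ)) = k :=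
    fun μ => Helper2.classInner_char_nat hA (Helper7.isCharacter_of_hom μ)
  choose b hb using hnat
  have heq : ∀ μ μ' : Q →* ℂˣ, b μ = b μ' := by
    intro μ μ'
    have h1 := cz_coef_diff A K hK0 hK μ μ'
    rw [hb, hb] at h1
    have h2 : (2 * (K.card : ℝ)) / Nat.card Q < 1 := by
      rw [div_lt_one (by exact_mod_cast Nat.card_pos)]; exact_mod_cast hsmall
    have h3 : ‖((b μ : ℂ) - (b μ' : ℂ))‖ < 1 := lt_of_le_of_lt h1 h2
    have h4 : (((b μ : ℤ) - (b μ' : ℤ) : ℤ) : ℂ) = (b μ : ℂ) - (b μ' : ℂ) := by push_cast; ring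
    rw [← h4, Complex.norm_intCast] at h3
    have h5 : |(b μ : ℤ) - (b μ' : ℤ)| < 1 := by exact_mod_cast h3
    have h6 := Int.abs_lt_one_iff.mp h5
    omega
  rw [cz_inversion hab A t, Finset.sum_congr rfl (fun μ _ => by rw [hb μ, heq μ 1]),
    ← Finset.mul_sum, cy_hom_sum hab, if_neg ht, mul_zero]

/-- A character vanishing off the identity is a multiple of the regular character. -/
theorem cz_regular (hab : ∀ a b : Q, a * b = b * a) [Fintype (Q →* ℂˣ)] (A : Q → ℂ)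
    (hA : IsCharacter Q A) (h0 : ∀ t, t ≠ 1 → A t = 0) :
    ∃ a : ℕ, A 1 = (Nat.card Q : ℂ) * a := by
  classical
  obtain ⟨a, ha⟩ := Helper2.classInner_char_nat hA (Helper7.isCharacter_of_hom (1 : Q →* ℂˣ))
  refine ⟨a, ?_⟩
  have heq : ∀ μ : Q →* ℂˣ, classInner A (fun u => ((μ u : ℂˣ) : ℂ)) = a := by
    intro μ
    have h1 := cz_coef_diff A ∅ (fun t _ ht => h0 t ht)
      (fun t ht => absurd ht (Finset.notMem_empty t)) μ 1
    rw [Finset.card_empty, Nat.cast_zero, mul_zero, zero_div] at h1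
    rw [← ha]
    exact sub_eq_zero.mp (norm_le_zero_iff.mp h1)
  rw [cz_inversion hab A 1,
    Finset.sum_congr rfl (fun μ _ => by rw [heq μ, map_one, Units.val_one, mul_one]),
    Finset.sum_const, Finset.card_univ, nsmul_eq_mul, ← Nat.card_eq_fintype_card,
    Helper2.card_hom_of_comm hab]

/-- A character with values `±1` off the identity is a multiple of the regular character plus or
minus a linear character. -/
theorem cz_pm (hab : ∀ a b : Q, a * b = b * a) [Fintype (Q →* ℂˣ)] (B : Q → ℂ)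
    (hB : IsCharacter Q B) (hpm : ∀ t, t ≠ 1 → B t = 1 ∨ B t = -1) :
    ∃ (ε : ℤ) (μ : Q →* ℂˣ) (k : ℕ), (ε = 1 ∨ ε = -1) ∧
      (∀ t, t ≠ 1 → B t = (ε : ℂ) * ((μ t : ℂˣ) : ℂ)) ∧
      B 1 = (Nat.card Q : ℂ) * k + ε := by
  classical
  have hn0 : 0 < Nat.card Q := Nat.card_pos
  have hnat : ∀ μ : Q →* ℂˣ, ∃ k : ℕ, classInner B (fun u => ((μ u : ℂˣ) : ℂ)) = k :=
    fun μ => Helper2.classInner_char_nat hB (Helper7.isCharacter_of_hom μ)
  choose b hb using hnat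
  have hdiff : ∀ μ μ' : Q →* ℂˣ, b μ ≤ b μ' + 1 := by
    intro μ μ'
    have h1 := cz_coef_diff B (Finset.univ.erase 1)
      (fun t ht ht1 => absurd (Finset.mem_erase.mpr ⟨ht1, Finset.mem_univ t⟩) ht)
      (fun t ht => by
        rcases hpm t (Finset.ne_of_mem_erase ht) with h | h <;> rw [h] <;> simp) μ μ'
    rw [hb, hb, Finset.card_erase_of_mem (Finset.mem_univ _), Finset.card_univ,
      ← Nat.card_eq_fintype_card] at h1
    have h2 : (2 * ((Nat.card Q - 1 : ℕ) : ℝ)) / Nat.card Q < 2 := by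
      rw [div_lt_iff₀ (by exact_mod_cast hn0)]
      have h7 : ((Nat.card Q - 1 : ℕ) : ℝ) < Nat.card Q := by
        exact_mod_cast Nat.sub_lt hn0 one_pos
      linarith
    have h3 : ‖((b μ : ℂ) - (b μ' : ℂ))‖ < 2 := lt_of_le_of_lt h1 h2
    have h4 : (((b μ : ℤ) - (b μ' : ℤ) : ℤ) : ℂ) = (b μ : ℂ) - (b μ' : ℂ) := by push_cast; ring
    rw [← h4, Complex.norm_intCast] at h3
    have h5 : |(b μ : ℤ) - (b μ' : ℤ)| < 2 := by exact_mod_cast h3
    have h6 := abs_lt.mp h5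
    omega
  obtain ⟨μ₀, -, hmin⟩ := Finset.exists_min_image Finset.univ b ⟨1, Finset.mem_univ _⟩
  obtain ⟨k, hk⟩ : ∃ k, k = b μ₀ := ⟨_, rfl⟩
  obtain ⟨L, hL⟩ : ∃ L : Finset (Q →* ℂˣ), L = Finset.univ.filter (fun μ => b μ = k + 1) :=
    ⟨_, rfl⟩
  have hbL : ∀ μ : Q →* ℂˣ, (b μ : ℂ) = (k : ℂ) + (if μ ∈ L then 1 else 0) := by
    intro μ
    have h1 := hmin μ (Finset.mem_univ μ)
    have h2 := hdiff μ μ₀
    by_cases hμ : μ ∈ L
    · rw [if_pos hμ]
      rw [hL, Finset.mem_filter] at hμ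
      rw [hμ.2]; push_cast; ring
    · rw [if_neg hμ, add_zero]
      rw [hL, Finset.mem_filter] at hμ
      have h3 : b μ ≠ k + 1 := fun h => hμ ⟨Finset.mem_univ _, h⟩
      have h4 : b μ = k := by omega
      rw [h4]
  have hBD : ∀ t : Q, B t = (k : ℂ) * (if t = 1 then (Nat.card Q : ℂ) else 0)
      + ∑ μ ∈ L, ((μ t : ℂˣ) : ℂ) := by
    intro t
    rw [cz_inversion hab B t,
      Finset.sum_congr rfl (fun μ _ => by rw [hb μ, hbL μ, add_mul]),
      Finset.sum_add_distrib, ← Finset.mul_sum, cy_hom_sum hab]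
    congr 1
    simp only [ite_mul, one_mul, zero_mul]
    rw [Finset.sum_ite_mem, Finset.univ_inter]
  have hDnorm : ∑ t : Q, (∑ μ ∈ L, ((μ t : ℂˣ) : ℂ)) * conj (∑ μ ∈ L, ((μ t : ℂˣ) : ℂ))
      = (Nat.card Q : ℂ) * L.card := by
    simp only [map_sum, Finset.sum_mul_sum]
    rw [Finset.sum_comm]
    rw [Finset.sum_congr rfl (fun μ _ => Finset.sum_comm)]
    simp only [cz_hom_orth]
    simp only [Finset.sum_ite_eq]
    rw [Finset.sum_congr rfl (fun μ hμ => if_pos hμ), Finset.sum_const, nsmul_eq_mul, mul_comm]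
  have hD1 : ∑ μ ∈ L, (((μ : Q →* ℂˣ) 1 : ℂˣ) : ℂ) = (L.card : ℂ) := by
    simp
  have hDt : ∀ t : Q, t ≠ 1 → (∑ μ ∈ L, ((μ t : ℂˣ) : ℂ)) * conj (∑ μ ∈ L, ((μ t : ℂˣ) : ℂ)) = 1 := by
    intro t ht
    have h1 := hBD t
    rw [if_neg ht, mul_zero, zero_add] at h1
    rw [← h1]
    rcases hpm t ht with h | h <;> rw [h] <;> simp
  have hDnorm2 : ∑ t : Q, (∑ μ ∈ L, ((μ t : ℂˣ) : ℂ)) * conj (∑ μ ∈ L, ((μ t : ℂˣ) : ℂ))
      = (L.card : ℂ) * (L.card : ℂ) + ((Nat.card Q : ℂ) - 1) := by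
    rw [← Finset.add_sum_erase Finset.univ _ (Finset.mem_univ (1 : Q)), hD1,
      Finset.sum_congr rfl (fun t ht => hDt t (Finset.ne_of_mem_erase ht)), Finset.sum_const,
      Finset.card_erase_of_mem (Finset.mem_univ _), Finset.card_univ, nsmul_eq_mul, mul_one,
      ← Nat.card_eq_fintype_card, Nat.cast_sub hn0, Nat.cast_one]
    simp
  have hquad : ((L.card : ℤ) - 1) * ((L.card : ℤ) - ((Nat.card Q : ℤ) - 1)) = 0 := by
    have h1 : (Nat.card Q : ℂ) * (L.card : ℂ)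
        = (L.card : ℂ) * (L.card : ℂ) + ((Nat.card Q : ℂ) - 1) := by rw [← hDnorm, hDnorm2]
    have h2 : (Nat.card Q : ℤ) * (L.card : ℤ)
        = (L.card : ℤ) * (L.card : ℤ) + ((Nat.card Q : ℤ) - 1) := by exact_mod_cast h1
    linear_combination (-1 : ℤ) * h2
  rcases mul_eq_zero.mp hquad with hc | hc
  · have hL1 : L.card = 1 := by omega
    obtain ⟨μ₁, hμ₁⟩ := Finset.card_eq_one.mp hL1
    refine ⟨1, μ₁, k, Or.inl rfl, ?_, ?_⟩
    · intro t ht
      rw [hBD t, if_neg ht, mul_zero, zero_add, hμ₁, Finset.sum_singleton]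
      simp
    · rw [hBD 1, if_pos rfl, hD1, hL1]
      push_cast; ring
  · have hcard : Fintype.card (Q →* ℂˣ) = Nat.card Q := by
      rw [← Nat.card_eq_fintype_card, Helper2.card_hom_of_comm hab]
    have hLc : Lᶜ.card = 1 := by
      rw [Finset.card_compl, hcard]; omega
    obtain ⟨μ₂, hμ₂⟩ := Finset.card_eq_one.mp hLc
    have hsumL : ∀ t : Q, ∑ μ ∈ L, ((μ t : ℂˣ) : ℂ)
        = (if t = 1 then (Nat.card Q : ℂ) else 0) - ((μ₂ t : ℂˣ) : ℂ) := by
      intro t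
      have h1 := Finset.sum_add_sum_compl L (fun μ : Q →* ℂˣ => ((μ t : ℂˣ) : ℂ))
      rw [hμ₂, Finset.sum_singleton, cy_hom_sum hab] at h1
      rw [← h1]; ring
    refine ⟨-1, μ₂, k + 1, Or.inr rfl, ?_, ?_⟩
    · intro t ht
      rw [hBD t, if_neg ht, mul_zero, zero_add, hsumL t, if_neg ht]
      push_cast; ring
    · rw [hBD 1, if_pos rfl, hsumL 1, if_pos rfl, map_one, Units.val_one]
      push_cast; ring

end FourierQ

section Final2

open scoped ComplexConjugate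

/-- Statement S4451: canonical extensions when all non-identity elements of the cyclic group
`S` have the same centralizer in `G`. -/
theorem cz_main {Γ : Type u} [Group Γ] [Fintype Γ] (G S : Subgroup Γ) [Fintype G] (hnorm : ∀ s ∈ S, ∀ g ∈ G, s * g * s⁻¹ ∈ G) (hcop : (Nat.card G).Coprime (Nat.card S)) (htop : G ⊔ S = ⊤) (hcyc : IsCyclic S) (C : Subgroup Γ) [Fintype C] (hC : C = G ⊓ Subgroup.centralizer (S : Set Γ)) (hCG : C ≤ G) (hfpf : ∀ x ∈ S, x ≠ 1 → G ⊓ Subgroup.centralizer ({x} : Set Γ) = C) (χ : Cfsg.IrrCharacter G) (hinv : (∀ s ∈ S, ∀ g g' : G, (g' : Γ) = s * g * s⁻¹ → (χ : G → ℂ) g' = (χ : G → ℂ) g)) (χh : Cfsg.IrrCharacter Γ) (hext : (∀ g : G, (χh : Γ → ℂ) g = (χ : G → ℂ) g)) (hdet : (Cfsg.detOrder (χh : Γ → ℂ)).Coprime (Nat.card S)) (β : Cfsg.IrrCharacter C) (ε₀ : ℤ) (hε₀ : ε₀ = 1 ∨ ε₀ = -1) (hβ : ∀ c : C, ∀ s : Γ, Subgroup.zpowers s = S → (χh : Γ → ℂ) ((c : Γ) * s) = (ε₀ : ℂ) * (β : C → ℂ)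 c) : ∃ ε : ℤ, (ε = 1 ∨ ε = -1) ∧ (∃ μ : S → ℂ, Cfsg.IsCharacter S μ ∧ μ 1 = 1 ∧ (∀ x : S, μ x * μ x = 1) ∧ ∀ c : C, ∀ x : S, x ≠ 1 → (χh : Γ → ℂ) ((c : Γ) * x) = (ε : ℂ) * (β : C → ℂ) c * μ x) ∧ (∃ ϑ : C → ℂ, Cfsg.IsCharacter C ϑ ∧ (fun c : C => (χ : G → ℂ) ⟨c, hCG c.2⟩) = fun c => (Nat.card S : ℂ) * ϑ c + (ε : ℂ) * (β : C → ℂ) c) ∧ (Nat.card S : ℤ) ∣ (Cfsg.charDegree (χ : G → ℂ) : ℤ) - ε * (Cfsg.charDegree (β : C → ℂ) : ℤ) := by
  classical
  haveI hG : G.Normal := by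
    have h1 : G ≤ Subgroup.normalizer (G : Set Γ) := Subgroup.le_normalizer
    have h2 : S ≤ Subgroup.normalizer (G : Set Γ) := by
      intro s hs
      rw [Subgroup.mem_normalizer_iff]
      intro g
      constructor
      · exact hnorm s hs g
      · intro h
        have h3 := hnorm s⁻¹ (S.inv_mem hs) _ h
        have e : s⁻¹ * (s * g * s⁻¹) * s⁻¹⁻¹ = g := by group
        rw [e] at h3; exact h3
    have h3 : Subgroup.normalizer (G : Set Γ) = ⊤ := by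
      rw [eq_top_iff, ← htop]; exact sup_le h1 h2
    exact Subgroup.normalizer_eq_top_iff.mp h3
  letI : Fintype S := Fintype.ofFinite S
  obtain ⟨g₀, hg₀⟩ := hcyc.exists_generator
  obtain ⟨s, hs⟩ : ∃ s : Γ, Subgroup.zpowers s = S := by
    refine ⟨(g₀ : Γ), le_antisymm (Subgroup.zpowers_le.mpr g₀.2) ?_⟩
    intro x hx
    obtain ⟨i, hi⟩ := Subgroup.mem_zpowers_iff.mp (hg₀ ⟨x, hx⟩)
    rw [Subgroup.mem_zpowers_iff]
    refine ⟨i, ?_⟩
    have h1 := congrArg Subtype.val hi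
    rw [Subgroup.coe_zpow] at h1
    exact h1
  have hab : ∀ a b : S, a * b = b * a := by
    intro a b
    have ha : (a : Γ) ∈ Subgroup.zpowers s := by rw [hs]; exact a.2
    have hb : (b : Γ) ∈ Subgroup.zpowers s := by rw [hs]; exact b.2
    obtain ⟨i, hi⟩ := Subgroup.mem_zpowers_iff.mp ha
    obtain ⟨j, hj⟩ := Subgroup.mem_zpowers_iff.mp hb
    apply Subtype.ext
    show (a : Γ) * b = b * a
    rw [← hi, ← hj, ← zpow_add, ← zpow_add, add_comm]
  have hsS : s ∈ S := by rw [← hs]; exact Subgroup.mem_zpowers s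
  have hcent : ∀ c ∈ C, ∀ t ∈ S, c * t = t * c := by
    intro c hc t ht
    rw [hC] at hc
    exact (Subgroup.mem_centralizer_iff.mp (Subgroup.mem_inf.mp hc).2 t ht).symm
  haveI : Finite (S →* ℂˣ) := Helper24.finite_hom hab
  letI : Fintype (S →* ℂˣ) := Fintype.ofFinite _
  have hx : ∀ x : S, x ≠ 1 → ∀ y ∈ G, y * (x : Γ) = x * y → y ∈ C := by
    intro x hx1 y hy hyx
    have hx1' : (x : Γ) ≠ 1 := fun h => hx1 (Subtype.ext h)
    rw [← hfpf (x : Γ) x.2 hx1']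
    refine Subgroup.mem_inf.mpr ⟨hy, ?_⟩
    rw [Subgroup.mem_centralizer_iff]
    intro h hh
    rw [Set.mem_singleton_iff] at hh
    rw [hh]; exact hyx.symm
  have hex : ∀ x : S, ∃ (βx : IrrCharacter C) (εx : ℤ), x ≠ 1 → ((εx = 1 ∨ εx = -1) ∧
      ∀ c : C, (χh : Γ → ℂ) ((c : Γ) * x) = (εx : ℂ) * (βx : C → ℂ) c) := by
    intro x
    by_cases hx1 : x = 1
    · exact ⟨β, 1, fun h => absurd hx1 h⟩
    · obtain ⟨βx, εx, h1, h2⟩ := cz_exists_elt G S C htop hcop hab hcent hCG χ χh hext hdet x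
        (hx x hx1)
      exact ⟨βx, εx, fun _ => ⟨h1, h2⟩⟩
  choose bx ex hbx using hex
  have hAx : ∀ x : S, x ≠ 1 → ∀ γ : IrrCharacter C,
      cy_A S C (χh : Γ → ℂ) (γ : C → ℂ) x = if bx x = γ then (ex x : ℂ) else 0 :=
    fun x hx1 γ => cz_A_of_eq S C (χh : Γ → ℂ) x (bx x) (ex x) (hbx x hx1).2 γ
  have hAchar : ∀ γ : IrrCharacter C, IsCharacter S (cy_A S C (χh : Γ → ℂ) (γ : C → ℂ)) :=
    fun γ => cy_A_char S C hcent hab _ (Helper2.isCharacter_of_isIrrCharacter χh.2) _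
      (Helper2.isCharacter_of_isIrrCharacter γ.2)
  have hex_norm : ∀ x : S, x ≠ 1 → ‖((ex x : ℤ) : ℂ)‖ = 1 := by
    intro x hx1
    rcases (hbx x hx1).1 with h | h <;> rw [h] <;> simp
  -- Step 1: the character of `C` is the same for all non-identity elements
  have hstep1 : ∀ x : S, x ≠ 1 → bx x = β := by
    intro x₁ hx₁
    by_contra hne
    obtain ⟨γ, hγ⟩ : ∃ γ, γ = bx x₁ := ⟨_, rfl⟩
    obtain ⟨s₀, hs₀⟩ : ∃ s₀ : S, (s₀ : Γ) = s := ⟨⟨s, hsS⟩, rfl⟩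
    have hs₀1 : s₀ ≠ 1 := by
      intro h
      apply hx₁
      have h1 : (x₁ : Γ) ∈ Subgroup.zpowers s := by rw [hs]; exact x₁.2
      obtain ⟨i, hi⟩ := Subgroup.mem_zpowers_iff.mp h1
      apply Subtype.ext
      rw [← hi, ← hs₀, h]; simp
    have hAβs : cy_A S C (χh : Γ → ℂ) (β : C → ℂ) s₀ = (ε₀ : ℂ) := by
      have h1 := cz_A_of_eq S C (χh : Γ → ℂ) s₀ β (ε₀ : ℂ)
        (fun c => by rw [hs₀]; exact hβ c s hs) β
      rw [if_pos rfl] at h1; exact h1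
    have hε₀0 : (ε₀ : ℂ) ≠ 0 := by rcases hε₀ with h | h <;> rw [h] <;> norm_num
    obtain ⟨K₁, hK₁⟩ : ∃ K₁ : Finset S,
        K₁ = Finset.univ.filter (fun x : S => x ≠ 1 ∧ bx x = γ) := ⟨_, rfl⟩
    obtain ⟨K₂, hK₂⟩ : ∃ K₂ : Finset S,
        K₂ = Finset.univ.filter (fun x : S => x ≠ 1 ∧ bx x = β) := ⟨_, rfl⟩
    have hdisj : Disjoint K₁ K₂ := by
      rw [Finset.disjoint_left]
      intro x h1 h2
      rw [hK₁, Finset.mem_filter] at h1
      rw [hK₂, Finset.mem_filter] at h2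
      apply hne
      rw [← hγ, ← h1.2.2, h2.2.2]
    have hcardsum : K₁.card + K₂.card ≤ Nat.card S - 1 := by
      rw [← Finset.card_union_of_disjoint hdisj]
      have hsub : K₁ ∪ K₂ ⊆ Finset.univ.erase 1 := by
        intro x hx
        rw [Finset.mem_erase]
        rcases Finset.mem_union.mp hx with h | h
        · rw [hK₁, Finset.mem_filter] at h; exact ⟨h.2.1, Finset.mem_univ _⟩
        · rw [hK₂, Finset.mem_filter] at h; exact ⟨h.2.1, Finset.mem_univ _⟩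
      have h3 := Finset.card_le_card hsub
      rw [Finset.card_erase_of_mem (Finset.mem_univ _), Finset.card_univ,
        ← Nat.card_eq_fintype_card] at h3
      exact h3
    have hprop : ∀ (δ : IrrCharacter C) (K : Finset S),
        K = Finset.univ.filter (fun x : S => x ≠ 1 ∧ bx x = δ) →
        (∀ t, t ∉ K → t ≠ 1 → cy_A S C (χh : Γ → ℂ) (δ : C → ℂ) t = 0) ∧
        (∀ t ∈ K, ‖cy_A S C (χh : Γ → ℂ) (δ : C → ℂ) t‖ ≤ 1) := by
      intro δ K hK
      constructor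
      · intro t htK ht1
        rw [hAx t ht1 δ, if_neg]
        intro h; apply htK; rw [hK, Finset.mem_filter]; exact ⟨Finset.mem_univ _, ht1, h⟩
      · intro t ht
        rw [hK, Finset.mem_filter] at ht
        rw [hAx t ht.2.1 δ, if_pos ht.2.2, hex_norm t ht.2.1]
    have hn1 := Nat.card_pos (α := S)
    by_cases hsmall : 2 * K₁.card < Nat.card S
    · have h1 := cz_vanish hab (cy_A S C (χh : Γ → ℂ) (γ : C → ℂ)) (hAchar γ) K₁
        (hprop γ K₁ hK₁).1 (hprop γ K₁ hK₁).2 hsmall x₁ hx₁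
      rw [hAx x₁ hx₁ γ, if_pos hγ.symm] at h1
      have h2 := hex_norm x₁ hx₁
      rw [h1] at h2
      simp at h2
    · have hsmall2 : 2 * K₂.card < Nat.card S := by omega
      have h1 := cz_vanish hab (cy_A S C (χh : Γ → ℂ) (β : C → ℂ)) (hAchar β) K₂
        (hprop β K₂ hK₂).1 (hprop β K₂ hK₂).2 hsmall2 s₀ hs₀1
      rw [hAβs] at h1
      exact hε₀0 h1
  have hval : ∀ x : S, x ≠ 1 → ∀ c : C,
      (χh : Γ → ℂ) ((c : Γ) * x) = (ex x : ℂ) * (β : C → ℂ) c := by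
    intro x hx1 c
    rw [(hbx x hx1).2 c, hstep1 x hx1]
  have hAβ : ∀ x : S, x ≠ 1 → cy_A S C (χh : Γ → ℂ) (β : C → ℂ) x = (ex x : ℂ) := by
    intro x hx1
    rw [hAx x hx1 β, if_pos (hstep1 x hx1)]
  have hAγ : ∀ γ : IrrCharacter C, γ ≠ β → ∀ x : S, x ≠ 1 →
      cy_A S C (χh : Γ → ℂ) (γ : C → ℂ) x = 0 := by
    intro γ hγ x hx1
    rw [hAx x hx1 γ, if_neg]
    rw [hstep1 x hx1]; exact fun h => hγ h.symm
  obtain ⟨ε, μ, k, hε, hμ, hB1⟩ := cz_pm hab (cy_A S C (χh : Γ → ℂ) (β : C → ℂ)) (hAchar β)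
    (fun t ht => by
      rw [hAβ t ht]
      rcases (hbx t ht).1 with h | h <;> rw [h] <;> simp)
  have hreg : ∀ γ : IrrCharacter C, γ ≠ β →
      ∃ a : ℕ, cy_A S C (χh : Γ → ℂ) (γ : C → ℂ) 1 = (Nat.card S : ℂ) * a :=
    fun γ hγ => cz_regular hab _ (hAchar γ) (hAγ γ hγ)
  have hmult : ∀ γ : IrrCharacter C,
      classInner (fun c : C => (χ : G → ℂ) ⟨c, hCG c.2⟩) (γ : C → ℂ)
        = cy_A S C (χh : Γ → ℂ) (γ : C → ℂ) 1 := by
    intro γ
    unfold cy_A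
    congr 1
    funext c
    rw [OneMemClass.coe_one, mul_one]
    exact (hext ⟨c, hCG c.2⟩).symm
  have hcoef : ∀ γ : IrrCharacter C, ∃ a : ℕ, cy_A S C (χh : Γ → ℂ) (γ : C → ℂ) 1
      = (Nat.card S : ℂ) * a + (if γ = β then (ε : ℂ) else 0) := by
    intro γ
    by_cases hγ : γ = β
    · rw [if_pos hγ, hγ]; exact ⟨k, hB1⟩
    · rw [if_neg hγ]
      obtain ⟨a, ha⟩ := hreg γ hγ
      exact ⟨a, by rw [ha, add_zero]⟩
  choose coef hcoef' using hcoef
  have hχC : IsCharacter C (fun c : C => (χ : G → ℂ) ⟨c, hCG c.2⟩) :=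
    Helper2.isCharacter_comp (Subgroup.inclusion hCG) (Helper2.isCharacter_of_isIrrCharacter χ.2)
  have hb : ∃ ϑ : C → ℂ, IsCharacter C ϑ ∧ (fun c : C => (χ : G → ℂ) ⟨c, hCG c.2⟩)
      = fun c => (Nat.card S : ℂ) * ϑ c + (ε : ℂ) * (β : C → ℂ) c := by
    refine ⟨∑ γ : IrrCharacter C, (coef γ : ℂ) • (γ : C → ℂ),
      Helper2.isCharacter_sum _ _ (fun γ _ => Helper2.isCharacter_nsmul (coef γ)
        (Helper2.isCharacter_of_isIrrCharacter γ.2)), ?_⟩
    conv_lhs => rw [Helper2.classFun_eq_sum_classInner (Helper2.isClassFunction_of_isCharacter hχC)]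
    funext c
    simp only [Finset.sum_apply, Pi.smul_apply, smul_eq_mul]
    rw [Finset.sum_congr rfl (fun γ _ => by rw [hmult γ, hcoef' γ, add_mul, mul_assoc]),
      Finset.sum_add_distrib, ← Finset.mul_sum]
    congr 1
    rw [Finset.sum_eq_single β]
    · rw [if_pos rfl]
    · intro γ _ hγ; rw [if_neg hγ, zero_mul]
    · intro h; exact absurd (Finset.mem_univ _) h
  refine ⟨ε, hε, ?_, hb, ?_⟩
  · refine ⟨fun t => ((μ t : ℂˣ) : ℂ), Helper7.isCharacter_of_hom μ, by simp, ?_, ?_⟩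
    · intro x
      show ((μ x : ℂˣ) : ℂ) * ((μ x : ℂˣ) : ℂ) = 1
      by_cases hx1 : x = 1
      · rw [hx1]; simp
      · have h1 := hμ x hx1
        rw [hAβ x hx1] at h1
        have h2 : ((μ x : ℂˣ) : ℂ) = (ε : ℂ) * (ex x : ℂ) := by
          rw [h1, ← mul_assoc]
          have h3 : (ε : ℂ) * (ε : ℂ) = 1 := by rcases hε with h | h <;> rw [h] <;> norm_num
          rw [h3, one_mul]
        rw [h2]
        rcases hε with h | h <;> rcases (hbx x hx1).1 with h' | h' <;> rw [h, h'] <;> norm_num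
    · intro c x hx1
      show (χh : Γ → ℂ) ((c : Γ) * x) = (ε : ℂ) * (β : C → ℂ) c * ((μ x : ℂˣ) : ℂ)
      rw [hval x hx1 c, ← hAβ x hx1, hμ x hx1]; ring
  · obtain ⟨ϑ, hϑ, hϑeq⟩ := hb
    have h1 := congrFun hϑeq 1
    beta_reduce at h1
    have e : (⟨((1 : C) : Γ), hCG (1 : C).2⟩ : G) = 1 := Subtype.ext (OneMemClass.coe_one C)
    rw [e, Helper25.irr_one_eq_degree χ, Helper25.char_one_eq_degree hϑ,
      Helper25.irr_one_eq_degree β] at h1
    have h2 : (charDegree (χ : G → ℂ) : ℤ)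
        = (Nat.card S : ℤ) * (charDegree ϑ : ℤ) + ε * (charDegree (β : C → ℂ) : ℤ) := by
      exact_mod_cast h1
    exact ⟨(charDegree ϑ : ℤ), by rw [h2]; ring⟩

end Final2

end Cfsg.Agent.Helper26
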