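import Mathlib
import Cfsg.Prelude.Def_RootSubgroups

set_option autoImplicit false

namespace Cfsg.Agent.Helper26

open Cfsg Equiv

/-- the possible cycle types of even permutations of six points -/
theorem multiset_cases_six (m : Multiset ℕ) (h2 : ∀ x ∈ m, 2 ≤ x) (hs : m.sum ≤ 6)
    (hev : Even (m.sum + Multiset.card m)) :
    m = 0 ∨ m = {3} ∨ m = {5} ∨ m = {2, 2} ∨ m = {2, 4} ∨ m = {4, 2} ∨ m = {3, 3} := by
  induction m using Quotient.inductionOn with
  | _ l =>
    simp only [Multiset.quot_mk_to_coe, Multiset.mem_coe, Multiset.sum_coe,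
      Multiset.coe_card] at h2 hs hev ⊢
    rcases l with _ | ⟨a, _ | ⟨b, _ | ⟨c, _ | ⟨d, l⟩⟩⟩⟩
    · left; rfl
    · have ha := h2 a (by simp)
      simp only [List.sum_cons, List.sum_nil, List.length_cons, List.length_nil] at hs hev
      have ha6 : a ≤ 6 := by omega
      interval_cases a <;> first | decide | (exfalso; revert hev; decide)
    · have ha := h2 a (by simp)
      have hb := h2 b (by simp)
      simp only [List.sum_cons, List.sum_nil, List.length_cons, List.length_nil] at hs hev
      have ha6 : a ≤ 4 := by omega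
      have hb6 : b ≤ 4 := by omega
      interval_cases a <;> interval_cases b <;>
        first | decide | (exfalso; revert hev; decide) | (exfalso; omega)
    · have ha := h2 a (by simp)
      have hb := h2 b (by simp)
      have hc := h2 c (by simp)
      simp only [List.sum_cons, List.sum_nil, List.length_cons, List.length_nil] at hs hev
      have ha6 : a = 2 := by omega
      have hb6 : b = 2 := by omega
      have hc6 : c = 2 := by omega
      subst ha6 hb6 hc6
      exfalso; revert hev; decide
    · have ha := h2 a (by simp)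
      have hb := h2 b (by simp)
      have hc := h2 c (by simp)
      have hd := h2 d (by simp)
      simp only [List.sum_cons] at hs
      omega

theorem altSix_cycleType (g : alternatingGroup (Fin 6)) :
    (g : Perm (Fin 6)).cycleType = 0 ∨ (g : Perm (Fin 6)).cycleType = {3} ∨
    (g : Perm (Fin 6)).cycleType = {5} ∨ (g : Perm (Fin 6)).cycleType = {2, 2} ∨
    (g : Perm (Fin 6)).cycleType = {2, 4} ∨ (g : Perm (Fin 6)).cycleType = {4, 2} ∨
    (g : Perm (Fin 6)).cycleType = {3, 3} := by
  apply multiset_cases_six
  · intro x hx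
    exact Equiv.Perm.two_le_of_mem_cycleType hx
  · have := Equiv.Perm.sum_cycleType_le (g : Perm (Fin 6))
    simpa using this
  · have h1 := Equiv.Perm.sign_of_cycleType (g : Perm (Fin 6))
    rw [Equiv.Perm.mem_alternatingGroup.mp g.2] at h1
    by_contra hodd
    rw [Nat.not_even_iff_odd] at hodd
    rw [hodd.neg_one_pow] at h1
    exact absurd h1 (by decide)

theorem altSix_orderOf (g : alternatingGroup (Fin 6)) :
    (orderOf g = 1 ∨ orderOf g = 2 ∨ orderOf g = 3 ∨ orderOf g = 4 ∨ orderOf g = 5) ∧
    (orderOf g = 2 → (g : Perm (Fin 6)).cycleType = {2, 2}) := by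
  have h1 : orderOf g = (g : Perm (Fin 6)).cycleType.lcm := by
    rw [Equiv.Perm.lcm_cycleType, Subgroup.orderOf_coe]
  have e24 : lcm (2 : ℕ) 4 = 4 := by rw [lcm_eq_nat_lcm]; rfl
  have e42 : lcm (4 : ℕ) 2 = 4 := by rw [lcm_eq_nat_lcm]; rfl
  rcases altSix_cycleType g with h | h | h | h | h | h | h <;> rw [h] at h1 <;>
    simp [Multiset.insert_eq_cons] at h1 <;> rw [h1] <;> simp [h, e24, e42]


theorem altSix_simple : IsSimpleGroup (alternatingGroup (Fin 6)) :=
  alternatingGroup.isSimpleGroup (by simp)

/-- the involutions of `A₆` form a class of root involutions with products of order `≤ 5` -/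
theorem altSix_rootInvolutions :
    Cfsg.IsRootInvolutionClass {g : ↥(alternatingGroup (Fin 6)) | orderOf g = 2} ∧
    ∀ d ∈ {g : ↥(alternatingGroup (Fin 6)) | orderOf g = 2},
      ∀ e ∈ {g : ↥(alternatingGroup (Fin 6)) | orderOf g = 2}, orderOf (d * e) ≤ 5 := by
  classical
  -- an involution
  have hne : ∃ d₀ : ↥(alternatingGroup (Fin 6)), orderOf d₀ = 2 := by
    have hmem : (swap (0 : Fin 6) 1 * swap (2 : Fin 6) 3) ∈ alternatingGroup (Fin 6) := by
      rw [Equiv.Perm.mem_alternatingGroup, Equiv.Perm.sign_mul, Equiv.Perm.sign_swap (by decide),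
        Equiv.Perm.sign_swap (by decide)]
      decide
    have hord : orderOf (swap (0 : Fin 6) 1 * swap (2 : Fin 6) 3) = 2 := by
      apply orderOf_eq_prime
      · decide
      · decide
    refine ⟨⟨_, hmem⟩, ?_⟩
    rw [← Subgroup.orderOf_coe]
    exact hord
  have hconj : ∀ d ∈ {g : ↥(alternatingGroup (Fin 6)) | orderOf g = 2},
      ∀ g : ↥(alternatingGroup (Fin 6)), g * d * g⁻¹ ∈
        {g : ↥(alternatingGroup (Fin 6)) | orderOf g = 2} := by
    intro d hd g
    have := MulEquiv.orderOf_eq (MulAut.conj g) d
    have e : (MulAut.conj g) d = g * d * g⁻¹ := MulAut.conj_apply g d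
    show orderOf (g * d * g⁻¹) = 2
    rw [← e]
    exact this.trans hd
  refine ⟨⟨⟨fun d hd => hd, ?_, hconj, ?_⟩, ?_, ?_⟩, ?_⟩
  · -- generation
    have hN : Subgroup.closure {g : ↥(alternatingGroup (Fin 6)) | orderOf g = 2} =
        Subgroup.normalClosure {g : ↥(alternatingGroup (Fin 6)) | orderOf g = 2} := by
      have : Group.conjugatesOfSet {g : ↥(alternatingGroup (Fin 6)) | orderOf g = 2} =
          {g : ↥(alternatingGroup (Fin 6)) | orderOf g = 2} := by
        apply Set.Subset.antisymm
        · intro x hx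
          rw [Group.mem_conjugatesOfSet_iff] at hx
          obtain ⟨d, hd, hdx⟩ := hx
          obtain ⟨c, rfl⟩ := isConj_iff.mp hdx
          exact hconj d hd c
        · exact Group.subset_conjugatesOfSet
      show _ = Subgroup.closure (Group.conjugatesOfSet _)
      rw [this]
    rw [hN]
    haveI := altSix_simple
    rcases (Subgroup.normalClosure_normal (s := {g : ↥(alternatingGroup (Fin 6)) |
      orderOf g = 2})).eq_bot_or_eq_top with h | h
    · exfalso
      obtain ⟨d₀, hd₀⟩ := hne
      have h1 : d₀ ∈ Subgroup.normalClosure {g : ↥(alternatingGroup (Fin 6)) | orderOf g = 2} :=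
        Subgroup.subset_normalClosure hd₀
      rw [h, Subgroup.mem_bot] at h1
      rw [h1, orderOf_one] at hd₀
      omega
    · exact h
  · -- pairs
    intro a ha b hb
    have ha2 : a * a = 1 := by
      have := pow_orderOf_eq_one a
      rw [ha, sq] at this
      exact this
    have hb2 : b * b = 1 := by
      have := pow_orderOf_eq_one b
      rw [hb, sq] at this
      exact this
    rcases (altSix_orderOf (a * b)).1 with h | h | h | h | h
    · right; left; rw [h]; decide
    · left
      have h1 := pow_orderOf_eq_one (a * b)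
      rw [h, sq] at h1
      have hai : a⁻¹ = a := inv_eq_of_mul_eq_one_left ha2
      have hbi : b⁻¹ = b := inv_eq_of_mul_eq_one_left hb2
      have h2 := eq_inv_of_mul_eq_one_left h1
      rw [mul_inv_rev, hai, hbi] at h2
      exact h2
    · right; left; rw [h]; decide
    · right; right
      refine ⟨h, ?_⟩
      show orderOf ((a * b) ^ 2) = 2
      rw [orderOf_pow' _ (by norm_num), h]
      rfl
    · right; left; rw [h]; decide
  · obtain ⟨d₀, hd₀⟩ := hne
    exact ⟨d₀, hd₀⟩
  · intro a ha b hb
    have hca := (altSix_orderOf a).2 ha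
    have hcb := (altSix_orderOf b).2 hb
    have hc : IsConj (a : Perm (Fin 6)) (b : Perm (Fin 6)) :=
      Equiv.Perm.isConj_iff_cycleType_eq.mpr (hca.trans hcb.symm)
    have hsupp : (a : Perm (Fin 6)).support.card + 2 ≤ Fintype.card (Fin 6) := by
      rw [← Equiv.Perm.sum_cycleType, hca]
      simp
    obtain ⟨c, hc'⟩ := isConj_iff.mp (alternatingGroup.isConj_of hc hsupp)
    exact ⟨c, hc'.symm⟩
  · intro d _ e _
    rcases (altSix_orderOf (d * e)).1 with h | h | h | h | h <;> omega

end Cfsg.Agent.Helper26
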