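import Mathlib
import Cfsg.Agent.Helper26.StrongInv2

set_option autoImplicit false

namespace Cfsg.Agent.Helper26

open Cfsg Cfsg.FusionSystem

variable {Ω : Type*} [Group Ω] {S : Subgroup Ω}

/-- the image of `P` under the automorphism `α` of `S` -/
def imA (α : MulAut S) (P : Subgroup Ω) : Subgroup Ω :=
  (P.subgroupOf S).map (S.subtype.comp α.toMonoidHom)

theorem imA_le (α : MulAut S) (P : Subgroup Ω) : imA α P ≤ S := by
  rintro _ ⟨x, -, rfl⟩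
  exact (α x).2

theorem mem_imA {α : MulAut S} {P : Subgroup Ω} (hP : P ≤ S) {y : Ω} :
    y ∈ imA α P ↔ ∃ x : P, ((α ⟨x, hP x.2⟩ : S) : Ω) = y := by
  constructor
  · rintro ⟨x, hx, rfl⟩
    rw [SetLike.mem_coe, Subgroup.mem_subgroupOf] at hx
    exact ⟨⟨x, hx⟩, rfl⟩
  · rintro ⟨x, rfl⟩
    exact ⟨⟨x, hP x.2⟩, by
      rw [SetLike.mem_coe, Subgroup.mem_subgroupOf]
      exact x.2, rfl⟩

theorem apply_mem_imA (α : MulAut S) {P : Subgroup Ω} (hP : P ≤ S) (x : P) :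
    ((α ⟨x, hP x.2⟩ : S) : Ω) ∈ imA α P := (mem_imA hP).mpr ⟨x, rfl⟩

theorem inv_apply_mem (α : MulAut S) {P : Subgroup Ω} (y : ↥(imA α P)) :
    (((α⁻¹ : MulAut S) ⟨y, imA_le α P y.2⟩ : S) : Ω) ∈ P := by
  obtain ⟨_, x, hx, rfl⟩ := y
  rw [SetLike.mem_coe, Subgroup.mem_subgroupOf] at hx
  have h1 : (⟨(S.subtype.comp α.toMonoidHom) x, imA_le α P ⟨x, by
      rw [SetLike.mem_coe, Subgroup.mem_subgroupOf]
      exact hx, rfl⟩⟩ : S) = α x := Subtype.ext rfl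
  rw [h1, MulAut.inv_apply_self]
  exact hx

/-- `α⁻¹ : α(P) → P` -/
def backHom (α : MulAut S) (P : Subgroup Ω) : ↥(imA α P) →* P :=
  ((S.subtype.comp (α⁻¹ : MulAut S).toMonoidHom).comp
    (Subgroup.inclusion (imA_le α P))).codRestrict P (fun y => inv_apply_mem α y)

theorem backHom_coe (α : MulAut S) (P : Subgroup Ω) (y : ↥(imA α P)) :
    ((backHom α P y : P) : Ω) = (((α⁻¹ : MulAut S) ⟨y, imA_le α P y.2⟩ : S) : Ω) := rfl

theorem backHom_apply (α : MulAut S) {P : Subgroup Ω} (hP : P ≤ S) (x : P)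
    (hx : ((α ⟨x, hP x.2⟩ : S) : Ω) ∈ imA α P) :
    backHom α P ⟨α ⟨x, hP x.2⟩, hx⟩ = x := by
  apply Subtype.ext
  rw [backHom_coe]
  have h1 : (⟨((α ⟨x, hP x.2⟩ : S) : Ω), imA_le α P hx⟩ : S) = α ⟨x, hP x.2⟩ := Subtype.ext rfl
  rw [h1, MulAut.inv_apply_self]

/-- the transport `α φ α⁻¹ : α(P) → Ω` -/
def trHom (α : MulAut S) {P : Subgroup Ω} (φ : P →* Ω) (hφ : ∀ x, φ x ∈ S) :
    ↥(imA α P) →* Ω :=
  (S.subtype.comp α.toMonoidHom).comp ((φ.codRestrict S hφ).comp (backHom α P))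

theorem trHom_apply (α : MulAut S) {P : Subgroup Ω} (hP : P ≤ S) (φ : P →* Ω)
    (hφ : ∀ x, φ x ∈ S) (x : P) (hx : ((α ⟨x, hP x.2⟩ : S) : Ω) ∈ imA α P) :
    trHom α φ hφ ⟨α ⟨x, hP x.2⟩, hx⟩ = ((α ⟨φ x, hφ x⟩ : S) : Ω) := by
  have h1 : (⟨φ (backHom α P ⟨α ⟨x, hP x.2⟩, hx⟩), hφ _⟩ : S) = ⟨φ x, hφ x⟩ :=
    Subtype.ext (congrArg φ (backHom_apply α hP x hx))
  show ((α ⟨φ (backHom α P ⟨α ⟨x, hP x.2⟩, hx⟩), hφ _⟩ : S) : Ω) = _
  rw [h1]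

/-- every element of `α(P)` is `α x` for some `x ∈ P` -/
theorem exists_eq_apply (α : MulAut S) {P : Subgroup Ω} (hP : P ≤ S) (y : ↥(imA α P)) :
    ∃ x : P, y = ⟨α ⟨x, hP x.2⟩, apply_mem_imA α hP x⟩ := by
  obtain ⟨x, hx⟩ := (mem_imA hP).mp y.2
  exact ⟨x, Subtype.ext hx.symm⟩

/-- the largest subsystem of `E` invariant under the group `A` of automorphisms of `S` -/
def coreSys (E : FusionSystem S) (A : Subgroup (MulAut S)) : FusionSystem S where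
  Hom P := {φ | φ ∈ E.Hom P ∧ ∀ α ∈ A, ∀ (hφ : ∀ x, φ x ∈ S), trHom α φ hφ ∈ E.Hom (imA α P)}
  le_of_mem h := E.le_of_mem h.1
  injective_of_mem h := E.injective_of_mem h.1
  conj_mem := by
    intro P g hP hg
    refine ⟨E.conj_mem hP hg, fun α hα hφ => ?_⟩
    have e1 : trHom α (conjHom P g) hφ = conjHom (imA α P) ((α ⟨g, hg⟩ : S) : Ω) := by
      ext y
      obtain ⟨x, rfl⟩ := exists_eq_apply α hP y
      rw [trHom_apply α hP]
      have h2 : (⟨conjHom P g x, hφ x⟩ : S) = ⟨g, hg⟩ * ⟨x, hP x.2⟩ * ⟨g, hg⟩⁻¹ :=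
        Subtype.ext rfl
      rw [h2, map_mul, map_mul, map_inv]
      rfl
    rw [e1]
    exact E.conj_mem (imA_le α P) (α ⟨g, hg⟩).2
  comp_mem := by
    rintro P Q φ ψ ⟨hφ, hφ'⟩ ⟨hψ, hψ'⟩ h
    refine ⟨E.comp_mem hφ hψ h, fun α hα hχ => ?_⟩
    have hP : P ≤ S := (E.le_of_mem hφ).1
    have hQ : Q ≤ S := (E.le_of_mem hψ).1
    have hφS := (E.le_of_mem hφ).2
    have hψS := (E.le_of_mem hψ).2
    have h1 := hφ' α hα hφS
    have h2 := hψ' α hα hψS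
    have hval : ∀ y, trHom α φ hφS y ∈ imA α Q := by
      intro y
      obtain ⟨x, rfl⟩ := exists_eq_apply α hP y
      rw [trHom_apply α hP]
      exact apply_mem_imA α hQ ⟨φ x, h x⟩
    have h3 := E.comp_mem h1 h2 hval
    have e1 : trHom α (ψ.comp (φ.codRestrict Q h)) hχ =
        (trHom α ψ hψS).comp ((trHom α φ hφS).codRestrict (imA α Q) hval) := by
      ext y
      obtain ⟨x, rfl⟩ := exists_eq_apply α hP y
      rw [trHom_apply α hP]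
      have h4 : ((trHom α φ hφS).codRestrict (imA α Q) hval)
          ⟨α ⟨x, hP x.2⟩, apply_mem_imA α hP x⟩ =
          ⟨α ⟨(⟨φ x, h x⟩ : Q), hQ (h x)⟩, apply_mem_imA α hQ ⟨φ x, h x⟩⟩ :=
        Subtype.ext (trHom_apply α hP φ hφS x _)
      show _ = trHom α ψ hψS (((trHom α φ hφS).codRestrict (imA α Q) hval)
        ⟨α ⟨x, hP x.2⟩, apply_mem_imA α hP x⟩)
      rw [h4, trHom_apply α hQ]
      rfl
    rw [e1]
    exact h3
  inv_mem := by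
    rintro P φ ⟨hφ, hφ'⟩
    obtain ⟨ψ, hψ, hψφ⟩ := E.inv_mem hφ
    refine ⟨ψ, ⟨hψ, fun α hα hψS => ?_⟩, hψφ⟩
    have hP : P ≤ S := (E.le_of_mem hφ).1
    have hR : φ.range ≤ S := (E.le_of_mem hψ).1
    have hφS := (E.le_of_mem hφ).2
    have h1 := hφ' α hα hφS
    have hr : (trHom α φ hφS).range = imA α φ.range := by
      ext z
      constructor
      · rintro ⟨y, rfl⟩
        obtain ⟨x, rfl⟩ := exists_eq_apply α hP y
        rw [trHom_apply α hP]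
        exact apply_mem_imA α hR ⟨φ x, ⟨x, rfl⟩⟩
      · intro hz
        obtain ⟨⟨_, x, rfl⟩, rfl⟩ := (mem_imA hR).mp hz
        exact ⟨⟨α ⟨x, hP x.2⟩, apply_mem_imA α hP x⟩, trHom_apply α hP φ hφS x _⟩
    refine inv_mem'' E h1 hr _ (fun y hy => ?_)
    obtain ⟨x, rfl⟩ := exists_eq_apply α hP y
    have hxr : φ x ∈ φ.range := ⟨x, rfl⟩
    have h5 : (⟨trHom α φ hφS ⟨α ⟨x, hP x.2⟩, apply_mem_imA α hP x⟩, hy⟩ :
        ↥(imA α φ.range)) =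
        ⟨α ⟨(⟨φ x, hxr⟩ : φ.range), hR hxr⟩, apply_mem_imA α hR ⟨φ x, hxr⟩⟩ :=
      Subtype.ext (trHom_apply α hP φ hφS x _)
    rw [h5, trHom_apply α hR]
    have h6 : (⟨ψ ⟨φ x, hxr⟩, hψS _⟩ : S) = ⟨x, hP x.2⟩ := Subtype.ext (hψφ x)
    rw [h6]

theorem coreSys_le (E : FusionSystem S) (A : Subgroup (MulAut S)) (P : Subgroup Ω) :
    (coreSys E A).Hom P ⊆ E.Hom P := fun _ h => h.1

end Cfsg.Agent.Helper26
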