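import Mathlib
import Cfsg.Agent.Helper26.CoreSys

set_option autoImplicit false

namespace Cfsg.Agent.Helper26

open Cfsg Cfsg.FusionSystem

variable {Ω : Type*} [Group Ω] {S : Subgroup Ω}

/-- invariance of `E` under `Aut_F(T)` -/
def AutInv (F : FusionSystem S) {T : Subgroup Ω} (E : FusionSystem T) : Prop :=
  ∀ (P : Subgroup Ω) (hPT : P ≤ T) (φ : P →* Ω) (_ : φ ∈ E.Hom P) (hφT : ∀ x : P, φ x ∈ T)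
    (α : MulAut T) (_ : α ∈ F.autGroup T),
    ∃ χ ∈ E.Hom ((P.subgroupOf T).map (T.subtype.comp α.toMonoidHom)),
      ∀ (x : P) (hx : (T.subtype.comp α.toMonoidHom) (Subgroup.inclusion hPT x) ∈
          (P.subgroupOf T).map (T.subtype.comp α.toMonoidHom)),
        χ ⟨(T.subtype.comp α.toMonoidHom) (Subgroup.inclusion hPT x), hx⟩ =
          (T.subtype.comp α.toMonoidHom) ⟨φ x, hφT x⟩

theorem autInv_of_strongInv {F : FusionSystem S} {T : Subgroup Ω} {E : FusionSystem T}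
    (hTS : T ≤ S) (hSI : StrongInv F E) : AutInv F E :=
  fun P hPT φ hφ hφT α hα => hSI P T hPT le_rfl φ hφ hφT _ ((mem_autGroup_iff F hTS).mp hα)

theorem FratX.comp' {F : FusionSystem S} {T : Subgroup Ω} {E : FusionSystem T} (hTS : T ≤ S)
    (hAI : AutInv F E) {P Q : Subgroup Ω} {φ : P →* Ω} {ψ : Q →* Ω}
    (hφ : FratX F E P φ) (hψ : FratX F E Q ψ) (hQT : Q ≤ T) (h : ∀ x : P, φ x ∈ Q) :
    FratX F E P (ψ.comp (φ.codRestrict Q h)) := by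
  obtain ⟨α, hα, φ₀, hφ₀, eφ⟩ := hφ
  obtain ⟨β, hβ, ψ₀, hψ₀, eψ⟩ := hψ
  have hψ₀T : ∀ q : Q, ψ₀ q ∈ T := (E.le_of_mem hψ₀).2
  have hφ₀T : ∀ x : P, φ₀ x ∈ T := (E.le_of_mem hφ₀).2
  have hαinv : (α⁻¹ : MulAut T) ∈ F.autGroup T := inv_mem hα
  have hαF := (mem_autGroup_iff F hTS).mp hαinv
  obtain ⟨χ, hχ, eχ⟩ := hAI Q hQT ψ₀ hψ₀ hψ₀T α⁻¹ hαinv
  have hkey : ∀ x : P, ((α⁻¹ ⟨φ x, hQT (h x)⟩ : T) : Ω) = φ₀ x := by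
    intro x
    have h1 : (⟨φ x, hQT (h x)⟩ : T) = α ⟨φ₀ x, hφ₀T x⟩ := Subtype.ext (eφ x (hφ₀T x))
    rw [h1, MulAut.inv_apply_self]
  have hmem : ∀ x : P, φ₀ x ∈
      (Q.subgroupOf T).map (T.subtype.comp (α⁻¹ : MulAut T).toMonoidHom) := by
    intro x
    refine ⟨⟨φ x, hQT (h x)⟩, ?_, hkey x⟩
    rw [SetLike.mem_coe, Subgroup.mem_subgroupOf]
    exact h x
  refine ⟨β * α, mul_mem hβ hα, χ.comp (φ₀.codRestrict _ hmem), E.comp_mem hφ₀ hχ hmem,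
    fun x hx => ?_⟩
  have hx' : (T.subtype.comp (α⁻¹ : MulAut T).toMonoidHom)
      (Subgroup.inclusion hQT ⟨φ x, h x⟩) ∈
      (Q.subgroupOf T).map (T.subtype.comp (α⁻¹ : MulAut T).toMonoidHom) :=
    ⟨_, by
      rw [SetLike.mem_coe, Subgroup.mem_subgroupOf]
      exact h x, rfl⟩
  have h1 := eχ ⟨φ x, h x⟩ hx'
  have h2 : (⟨φ₀ x, hmem x⟩ :
      ↥((Q.subgroupOf T).map (T.subtype.comp (α⁻¹ : MulAut T).toMonoidHom))) =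
      ⟨(T.subtype.comp (α⁻¹ : MulAut T).toMonoidHom) (Subgroup.inclusion hQT ⟨φ x, h x⟩),
        hx'⟩ := Subtype.ext (hkey x).symm
  have h3 : χ ⟨φ₀ x, hmem x⟩ = ((α⁻¹ ⟨ψ₀ ⟨φ x, h x⟩, hψ₀T _⟩ : T) : Ω) := by
    rw [h2]
    exact h1
  have h4 : (⟨χ ⟨φ₀ x, hmem x⟩, hx⟩ : T) = α⁻¹ ⟨ψ₀ ⟨φ x, h x⟩, hψ₀T _⟩ := Subtype.ext h3
  show ψ ⟨φ x, h x⟩ = ((β (α ⟨χ ⟨φ₀ x, hmem x⟩, hx⟩) : T) : Ω)
  rw [h4, MulAut.apply_inv_self]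
  exact eψ _ _

theorem FratX.inv' {F : FusionSystem S} {T : Subgroup Ω} {E : FusionSystem T} (hTS : T ≤ S)
    (hAI : AutInv F E) {P : Subgroup Ω} {φ : P →* Ω} (hφ : FratX F E P φ) (hPT : P ≤ T)
    {R : Subgroup Ω} (hr : φ.range = R) (ψ : R →* Ω)
    (hψ : ∀ (x : P) (hx : φ x ∈ R), ψ ⟨φ x, hx⟩ = x) : FratX F E R ψ := by
  subst hr
  obtain ⟨α, hα, φ₀, hφ₀, eφ⟩ := hφ
  have hφ₀T : ∀ x : P, φ₀ x ∈ T := (E.le_of_mem hφ₀).2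
  obtain ⟨ι, hι, eι⟩ := E.inv_mem hφ₀
  have hr₀ : φ₀.range ≤ T := by
    rintro _ ⟨x, rfl⟩
    exact hφ₀T x
  have hιT : ∀ y, ι y ∈ T := (E.le_of_mem hι).2
  have hαF := (mem_autGroup_iff F hTS).mp hα
  obtain ⟨χ, hχ, eχ⟩ := hAI φ₀.range hr₀ ι hι hιT α hα
  have hdom : (φ₀.range.subgroupOf T).map (T.subtype.comp α.toMonoidHom) = φ.range := by
    ext y
    constructor
    · rintro ⟨⟨z, ht⟩, hz, rfl⟩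
      rw [SetLike.mem_coe, Subgroup.mem_subgroupOf] at hz
      obtain ⟨x, hx⟩ := hz
      refine ⟨x, ?_⟩
      rw [eφ x (hφ₀T x)]
      have h1 : (⟨φ₀ x, hφ₀T x⟩ : T) = ⟨z, ht⟩ := Subtype.ext hx
      rw [h1]
      rfl
    · rintro ⟨x, rfl⟩
      refine ⟨⟨φ₀ x, hφ₀T x⟩, ?_, (eφ x (hφ₀T x)).symm⟩
      rw [SetLike.mem_coe, Subgroup.mem_subgroupOf]
      exact ⟨x, rfl⟩
  obtain ⟨χ', hχ', eχ'⟩ := hom_of_eq E hdom hχ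
  refine ⟨α⁻¹, inv_mem hα, χ', hχ', fun y hy => ?_⟩
  obtain ⟨_, x, rfl⟩ := y
  have hxr : φ x ∈ φ.range := ⟨x, rfl⟩
  have hx₀ : φ₀ x ∈ φ₀.range := ⟨x, rfl⟩
  have hA : φ x ∈ (φ₀.range.subgroupOf T).map (T.subtype.comp α.toMonoidHom) := by
    rw [hdom]
    exact hxr
  have hx' : (T.subtype.comp α.toMonoidHom) (Subgroup.inclusion hr₀ ⟨φ₀ x, hx₀⟩) ∈
      (φ₀.range.subgroupOf T).map (T.subtype.comp α.toMonoidHom) :=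
    ⟨_, by
      rw [SetLike.mem_coe, Subgroup.mem_subgroupOf]
      exact hx₀, rfl⟩
  have h1 := eχ ⟨φ₀ x, hx₀⟩ hx'
  have h2 : (⟨φ x, hA⟩ : ↥((φ₀.range.subgroupOf T).map (T.subtype.comp α.toMonoidHom))) =
      ⟨(T.subtype.comp α.toMonoidHom) (Subgroup.inclusion hr₀ ⟨φ₀ x, hx₀⟩), hx'⟩ :=
    Subtype.ext (eφ x (hφ₀T x))
  have h3 : χ' ⟨φ x, hxr⟩ = ((α ⟨x, hPT x.2⟩ : T) : Ω) := by
    rw [eχ' _ hA hxr, h2, h1]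
    have h5 : (⟨ι ⟨φ₀ x, hx₀⟩, hιT _⟩ : T) = ⟨x, hPT x.2⟩ := Subtype.ext (eι x)
    show ((α ⟨ι ⟨φ₀ x, hx₀⟩, hιT _⟩ : T) : Ω) = _
    rw [h5]
  have hy' : χ' ⟨φ x, hxr⟩ ∈ T := hy
  have h4 : (⟨χ' ⟨φ x, hxr⟩, hy'⟩ : T) = α ⟨x, hPT x.2⟩ := Subtype.ext h3
  show ψ ⟨φ x, hxr⟩ = ((α⁻¹ ⟨χ' ⟨φ x, hxr⟩, hy'⟩ : T) : Ω)
  rw [hψ x hxr, h4, MulAut.inv_apply_self]

end Cfsg.Agent.Helper26
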