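import Mathlib
import Cfsg.Prelude.Def_FusionSystem
import Cfsg.Agent.Helper26.Stancu

set_option autoImplicit false

namespace Cfsg.Agent.Helper26

open Cfsg Cfsg.FusionSystem

variable {Ω : Type*} [Group Ω] {S : Subgroup Ω}

theorem centric_of_isConj (F : FusionSystem S) {Q Q' : Subgroup Ω} (hQ : F.IsCentric Q)
    (h : F.IsConj Q Q') : F.IsCentric Q' :=
  ⟨isConj_le_right F h, fun Q'' h' => hQ.2 Q'' (isConj_trans F h h')⟩

theorem centric_of_le (F : FusionSystem S) {Q R : Subgroup Ω} (hQ : F.IsCentric Q)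
    (hQR : Q ≤ R) (hRS : R ≤ S) : F.IsCentric R := by
  refine ⟨hRS, ?_⟩
  rintro R' ⟨ψ, hψ, rfl⟩
  have hconj : F.IsConj Q (ψ.comp (Subgroup.inclusion hQR)).range :=
    ⟨_, restrict_mem F hψ hQR, rfl⟩
  have h1 := hQ.2 _ hconj
  intro x hx
  have hx' : x ∈ centralizerIn S (ψ.comp (Subgroup.inclusion hQR)).range := by
    refine ⟨hx.1, Subgroup.mem_centralizer_iff.mpr ?_⟩
    rintro _ ⟨q, rfl⟩
    exact Subgroup.mem_centralizer_iff.mp hx.2 _ ⟨Subgroup.inclusion hQR q, rfl⟩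
  obtain ⟨q, hq⟩ := h1 hx'
  exact ⟨Subgroup.inclusion hQR q, hq⟩

/-- a `p`-element of `Aut_F(R)` becomes conjugation by an element of `S` after transport along
a suitable map of the system -/
theorem exists_conj_into_S [Finite S] (p : ℕ) [Fact p.Prime] (F : FusionSystem S)
    (hF : F.IsSaturated p) {R : Subgroup Ω} (hRS : R ≤ S) {β : MulAut R}
    (hβ : β ∈ F.autGroup R) {a : ℕ} (hβp : β ^ p ^ a = 1) :
    ∃ θ ∈ F.Hom R, ∃ h ∈ S, ∀ y : R, θ (β y) = h * θ y * h⁻¹ := by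
  have hp : p.Prime := Fact.out
  obtain ⟨R', ⟨χ, hχ, rfl⟩, hfa, -⟩ := hF R hRS
  haveI : Finite ↥χ.range := finite_of_le (range_le_of_mem F hχ)
  have hsyl := (sylow_iff_cardSyl p (autInducedBy_le_autGroup F hfa.1)).mp hfa.2
  have hψ' : MulAut.congr (rangeIso χ (F.injective_of_mem hχ)) β ∈ F.autGroup χ.range :=
    congr_mem_autGroup F hχ hβ
  have hTp : IsPGroup p (Subgroup.zpowers
      (MulAut.congr (rangeIso χ (F.injective_of_mem hχ)) β)) := by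
    have h1 : (MulAut.congr (rangeIso χ (F.injective_of_mem hχ)) β) ^ p ^ a = 1 := by
      rw [← map_pow, hβp, map_one]
    obtain ⟨j, -, hj⟩ := (Nat.dvd_prime_pow hp).mp (orderOf_dvd_of_pow_eq_one h1)
    exact IsPGroup.of_card (n := j) (by rw [Nat.card_zpowers, hj])
  obtain ⟨γ, hγ, hγT⟩ := exists_conj_le_of_cardSyl p hsyl hTp ((Subgroup.zpowers_le).mpr hψ')
  obtain ⟨g, hgS, hg⟩ := mem_autInducedBy_iff.mp (hγT _ (Subgroup.mem_zpowers _))
  have hγ' := (mem_autGroup_iff F (range_le_of_mem F hχ)).mp hγ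
  have hχr : ∀ x : R, χ x ∈ χ.range := fun x => ⟨x, rfl⟩
  refine ⟨_, F.comp_mem hχ hγ' hχr, g, hgS, ?_⟩
  intro x
  have h3 := hg (γ (rangeIso χ (F.injective_of_mem hχ) x))
  rw [MulAut.mul_apply, MulAut.mul_apply, MulAut.inv_apply_self] at h3
  have h4 : MulAut.congr (rangeIso χ (F.injective_of_mem hχ)) β
      (rangeIso χ (F.injective_of_mem hχ) x) =
      rangeIso χ (F.injective_of_mem hχ) (β x) := by
    show rangeIso χ (F.injective_of_mem hχ) (β ((rangeIso χ (F.injective_of_mem hχ)).symm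
      (rangeIso χ (F.injective_of_mem hχ) x))) = _
    rw [MulEquiv.symm_apply_apply]
  rw [h4] at h3
  exact h3

/-- an automorphism in the system of `R` fixing a normal centric subgroup `Q` elementwise is
conjugation by an element of `Z(Q)` -/
theorem aut_fixing_centric_normal [Finite S] (p : ℕ) [Fact p.Prime] (hS : IsPGroup p S)
    (F : FusionSystem S) (hF : F.IsSaturated p) {R Q : Subgroup Ω} (hQR : Q ≤ R) (hRS : R ≤ S)
    (hRN : R ≤ Subgroup.normalizer (Q : Set Ω)) (hQ : F.IsCentric Q)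
    (β : MulAut R) (hβ : β ∈ F.autGroup R) (hβQ : ∀ x : R, (x : Ω) ∈ Q → β x = x) :
    ∃ w : R, (w : Ω) ∈ Q ∧ (w : Ω) ∈ Subgroup.centralizer (Q : Set Ω) ∧
      ∀ y : R, β y = w * y * w⁻¹ := by
  have hQS : Q ≤ S := hQR.trans hRS
  haveI : Finite Q := finite_of_le hQS
  -- (i)
  have hz : ∀ g : R, ((g⁻¹ * β g : R) : Ω) ∈ Q := by
    intro g
    apply hQ.2 Q (isConj_refl F hQS)
    refine ⟨hRS (g⁻¹ * β g).2, Subgroup.mem_centralizer_iff.mpr ?_⟩
    intro x hx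
    have hx' : (g : Ω) * x * (g : Ω)⁻¹ ∈ Q := (Subgroup.mem_normalizer_iff.mp (hRN g.2) x).mp hx
    have h1 := hβQ ⟨_, hQR hx'⟩ hx'
    have h2 : (⟨(g : Ω) * x * (g : Ω)⁻¹, hQR hx'⟩ : R) = g * ⟨x, hQR hx⟩ * g⁻¹ := Subtype.ext rfl
    rw [h2, map_mul, map_mul, map_inv, hβQ ⟨x, hQR hx⟩ hx] at h1
    have h3 := congrArg Subtype.val h1
    have h4 : ((β g : R) : Ω) * x * ((β g : R) : Ω)⁻¹ = (g : Ω) * x * (g : Ω)⁻¹ := h3
    show x * ((g : Ω)⁻¹ * ((β g : R) : Ω)) = (g : Ω)⁻¹ * ((β g : R) : Ω) * x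
    calc x * ((g : Ω)⁻¹ * ((β g : R) : Ω))
        = (g : Ω)⁻¹ * ((g : Ω) * x * (g : Ω)⁻¹) * ((β g : R) : Ω) := by group
      _ = (g : Ω)⁻¹ * (((β g : R) : Ω) * x * ((β g : R) : Ω)⁻¹) * ((β g : R) : Ω) := by rw [h4]
      _ = (g : Ω)⁻¹ * ((β g : R) : Ω) * x := by group
  -- (ii)
  have hfix : ∀ (n : ℕ) (x : R), (x : Ω) ∈ Q → (β ^ n) x = x := by
    intro n
    induction n with
    | zero => intro x _; simp
    | succ n ih =>
      intro x hx
      rw [pow_succ, MulAut.mul_apply, hβQ x hx, ih x hx]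
  have hpow : ∀ (n : ℕ) (g : R), (β ^ n) g = g * (g⁻¹ * β g) ^ n := by
    intro n
    induction n with
    | zero => intro g; simp
    | succ n ih =>
      intro g
      have e : β g = g * (g⁻¹ * β g) := by group
      rw [pow_succ, MulAut.mul_apply]
      conv_lhs => rw [e]
      rw [map_mul, ih g, hfix n _ (hz g), pow_succ]
      group
  obtain ⟨k, hk⟩ := IsPGroup.iff_card.mp (hS.to_le hQS)
  have hβp : β ^ p ^ k = 1 := by
    ext g
    rw [hpow, ← hk]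
    have h1 : (⟨_, hz g⟩ : Q) ^ Nat.card Q = 1 := pow_card_eq_one'
    have h2 : (g⁻¹ * β g) ^ Nat.card Q = 1 := by
      apply Subtype.ext
      have h3 := congrArg Subtype.val h1
      exact h3
    rw [h2, mul_one]
    rfl
  -- (iv)
  obtain ⟨θ, hθ, h, hhS, hθβ⟩ := exists_conj_into_S p F hF hRS hβ hβp
  have hθinj := F.injective_of_mem hθ
  have hconj : F.IsConj Q (θ.comp (Subgroup.inclusion hQR)).range :=
    ⟨_, restrict_mem F hθ hQR, rfl⟩
  have hh : h ∈ (θ.comp (Subgroup.inclusion hQR)).range := by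
    apply hQ.2 _ hconj
    refine ⟨hhS, Subgroup.mem_centralizer_iff.mpr ?_⟩
    rintro _ ⟨x, rfl⟩
    have h1 := hθβ (Subgroup.inclusion hQR x)
    rw [hβQ _ x.2] at h1
    show θ (Subgroup.inclusion hQR x) * h = h * θ (Subgroup.inclusion hQR x)
    calc θ (Subgroup.inclusion hQR x) * h
        = h * θ (Subgroup.inclusion hQR x) * h⁻¹ * h := by rw [← h1]
      _ = h * θ (Subgroup.inclusion hQR x) := by group
  obtain ⟨w₀, hw₀⟩ := hh
  have hw : ∀ y : R, β y = Subgroup.inclusion hQR w₀ * y * (Subgroup.inclusion hQR w₀)⁻¹ := by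
    intro y
    apply hθinj
    rw [hθβ, map_mul, map_mul, map_inv]
    have : θ (Subgroup.inclusion hQR w₀) = h := hw₀
    rw [this]
  refine ⟨Subgroup.inclusion hQR w₀, w₀.2, Subgroup.mem_centralizer_iff.mpr ?_, hw⟩
  intro x hx
  have h1 := hw ⟨x, hQR hx⟩
  rw [hβQ _ hx] at h1
  have h2 := congrArg Subtype.val h1
  have h3 : x = (w₀ : Ω) * x * (w₀ : Ω)⁻¹ := h2
  show x * (w₀ : Ω) = (w₀ : Ω) * x
  calc x * (w₀ : Ω) = (w₀ : Ω) * x * (w₀ : Ω)⁻¹ * (w₀ : Ω) := by rw [← h3]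
    _ = (w₀ : Ω) * x := by group

/-- normal case: two maps on `P` agreeing on a normal centric subgroup `Q` -/
theorem maps_agree_centric_normal [Finite S] (p : ℕ) [Fact p.Prime] (hS : IsPGroup p S)
    (F : FusionSystem S) (hF : F.IsSaturated p) {P Q : Subgroup Ω} (hQP : Q ≤ P)
    (hPN : P ≤ Subgroup.normalizer (Q : Set Ω)) (hQ : F.IsCentric Q)
    (φ φ' : P →* Ω) (hφ : φ ∈ F.Hom P) (hφ' : φ' ∈ F.Hom P)
    (h : ∀ x : P, (x : Ω) ∈ Q → φ x = φ' x) :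
    ∃ z : P, (z : Ω) ∈ Q ∧ (z : Ω) ∈ Subgroup.centralizer (Q : Set Ω) ∧
      ∀ y : P, φ' y = φ (z * y * z⁻¹) := by
  have hPS : P ≤ S := (F.le_of_mem hφ).1
  haveI : Finite P := finite_of_le hPS
  have hφinj := F.injective_of_mem hφ
  have hconj : F.IsConj Q (φ.comp (Subgroup.inclusion hQP)).range :=
    ⟨_, restrict_mem F hφ hQP, rfl⟩
  have hQR := centric_of_isConj F hQ hconj
  have hQRle : (φ.comp (Subgroup.inclusion hQP)).range ≤ φ.range := by
    rintro _ ⟨x, rfl⟩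
    exact ⟨_, rfl⟩
  -- step 1
  have hstep : ∀ g : P, φ' g ∈ φ.range := by
    intro g
    have hw : (φ g)⁻¹ * φ' g ∈ (φ.comp (Subgroup.inclusion hQP)).range := by
      apply hQR.2 _ (isConj_refl F hQR.1)
      refine ⟨S.mul_mem (S.inv_mem ((F.le_of_mem hφ).2 g)) ((F.le_of_mem hφ').2 g),
        Subgroup.mem_centralizer_iff.mpr ?_⟩
      rintro _ ⟨x, rfl⟩
      have hx' : (g : Ω) * (x : Ω) * (g : Ω)⁻¹ ∈ Q :=
        (Subgroup.mem_normalizer_iff.mp (hPN g.2) x).mp x.2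
      have h1 := h ⟨_, hQP hx'⟩ hx'
      have h2 : (⟨(g : Ω) * (x : Ω) * (g : Ω)⁻¹, hQP hx'⟩ : P) =
          g * Subgroup.inclusion hQP x * g⁻¹ := Subtype.ext rfl
      rw [h2, map_mul, map_mul, map_inv, map_mul, map_mul, map_inv,
        ← h (Subgroup.inclusion hQP x) x.2] at h1
      show φ (Subgroup.inclusion hQP x) * ((φ g)⁻¹ * φ' g) =
        (φ g)⁻¹ * φ' g * φ (Subgroup.inclusion hQP x)
      calc φ (Subgroup.inclusion hQP x) * ((φ g)⁻¹ * φ' g)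
          = (φ g)⁻¹ * (φ g * φ (Subgroup.inclusion hQP x) * (φ g)⁻¹) * φ' g := by group
        _ = (φ g)⁻¹ * (φ' g * φ (Subgroup.inclusion hQP x) * (φ' g)⁻¹) * φ' g := by rw [h1]
        _ = (φ g)⁻¹ * φ' g * φ (Subgroup.inclusion hQP x) := by group
    have e : φ' g = φ g * ((φ g)⁻¹ * φ' g) := by group
    rw [e]
    exact φ.range.mul_mem ⟨g, rfl⟩ (hQRle hw)
  have hRS : φ.range ≤ S := range_le_of_mem F hφ
  haveI : Finite ↥φ.range := finite_of_le hRS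
  have hr : φ'.range = φ.range := by
    apply Subgroup.eq_of_le_of_card_ge
    · rintro _ ⟨g, rfl⟩
      exact hstep g
    · rw [card_range_eq F hφ, card_range_eq F hφ']
  obtain ⟨β, hβ, hβφ⟩ := exists_aut_of_two_isos F hRS φ φ' hφ hφ' rfl hr
  have hRN : φ.range ≤ Subgroup.normalizer
      (((φ.comp (Subgroup.inclusion hQP)).range : Subgroup Ω) : Set Ω) := by
    have key : ∀ m : P, ∀ y ∈ (φ.comp (Subgroup.inclusion hQP)).range,
        φ m * y * (φ m)⁻¹ ∈ (φ.comp (Subgroup.inclusion hQP)).range := by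
      rintro m _ ⟨x, rfl⟩
      have hm : (m : Ω) * (x : Ω) * (m : Ω)⁻¹ ∈ Q :=
        (Subgroup.mem_normalizer_iff.mp (hPN m.2) _).mp x.2
      refine ⟨⟨_, hm⟩, ?_⟩
      have e4 : (Subgroup.inclusion hQP ⟨(m : Ω) * (x : Ω) * (m : Ω)⁻¹, hm⟩ : P) =
          m * Subgroup.inclusion hQP x * m⁻¹ := Subtype.ext rfl
      show φ (Subgroup.inclusion hQP ⟨(m : Ω) * (x : Ω) * (m : Ω)⁻¹, hm⟩) = _
      rw [e4, map_mul, map_mul, map_inv]
      rfl
    rintro _ ⟨m, rfl⟩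
    refine mem_normalizer_of_conj_mem (key m) ?_
    intro y hy
    have := key m⁻¹ y hy
    rwa [map_inv, inv_inv] at this
  have hβQ : ∀ x : ↥φ.range, (x : Ω) ∈ (φ.comp (Subgroup.inclusion hQP)).range → β x = x := by
    rintro ⟨_, hx⟩ ⟨q, rfl⟩
    apply Subtype.ext
    exact (hβφ (Subgroup.inclusion hQP q) hx).trans (h _ q.2).symm
  obtain ⟨w, hwQ, hwC, hw⟩ := aut_fixing_centric_normal p hS F hF hQRle hRS hRN hQR β hβ hβQ
  obtain ⟨z₀, hz₀⟩ := hwQ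
  have hz₀' : φ (Subgroup.inclusion hQP z₀) = (w : Ω) := hz₀
  have hmain : ∀ y : P, φ' y = φ (Subgroup.inclusion hQP z₀ * y * (Subgroup.inclusion hQP z₀)⁻¹) := by
    intro y
    rw [← hβφ y ⟨y, rfl⟩, hw, map_mul, map_mul, map_inv, hz₀']
    rfl
  refine ⟨Subgroup.inclusion hQP z₀, z₀.2, Subgroup.mem_centralizer_iff.mpr ?_, hmain⟩
  intro x hx
  have h1 := hmain ⟨x, hQP hx⟩
  rw [← h _ hx] at h1
  have h2 := hφinj h1
  have h3 := congrArg Subtype.val h2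
  have h4 : x = (z₀ : Ω) * x * (z₀ : Ω)⁻¹ := h3
  show x * (z₀ : Ω) = (z₀ : Ω) * x
  calc x * (z₀ : Ω) = (z₀ : Ω) * x * (z₀ : Ω)⁻¹ * (z₀ : Ω) := by rw [← h4]
    _ = (z₀ : Ω) * x := by group

/-- general case -/
theorem maps_agree_centric [Finite S] (p : ℕ) [Fact p.Prime] (hS : IsPGroup p S)
    (F : FusionSystem S) (hF : F.IsSaturated p) :
    ∀ (n : ℕ) (P Q : Subgroup Ω), Q ≤ P → F.IsCentric Q → Nat.card P - Nat.card Q = n →
    ∀ (φ φ' : P →* Ω), φ ∈ F.Hom P → φ' ∈ F.Hom P →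
    (∀ x : P, (x : Ω) ∈ Q → φ x = φ' x) →
    ∃ z : P, (z : Ω) ∈ Q ∧ (z : Ω) ∈ Subgroup.centralizer (Q : Set Ω) ∧
      ∀ y : P, φ' y = φ (z * y * z⁻¹) := by
  intro n
  induction n using Nat.strong_induction_on with
  | _ n ih =>
    intro P Q hQP hQ hn φ φ' hφ hφ' h
    have hPS : P ≤ S := (F.le_of_mem hφ).1
    haveI : Finite P := finite_of_le hPS
    by_cases hQeq : Q = P
    · refine ⟨1, Q.one_mem, Subgroup.one_mem _, fun y => ?_⟩
      rw [one_mul, inv_one, mul_one]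
      exact (h y (by rw [hQeq]; exact y.2)).symm
    · have hlt := card_lt_card_normalizerIn (S := P) (hS.to_le hPS) hQP hQeq
      have hQ₁P : normalizerIn P Q ≤ P := normalizerIn_le_left P Q
      have hQQ₁ : Q ≤ normalizerIn P Q := le_normalizerIn hQP
      have hQ₁N : normalizerIn P Q ≤ Subgroup.normalizer (Q : Set Ω) := inf_le_right
      obtain ⟨z, hzQ, hzC, hz⟩ := maps_agree_centric_normal p hS F hF hQQ₁ hQ₁N hQ
        (φ.comp (Subgroup.inclusion hQ₁P)) (φ'.comp (Subgroup.inclusion hQ₁P))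
        (restrict_mem F hφ hQ₁P) (restrict_mem F hφ' hQ₁P)
        (fun x hx => h (Subgroup.inclusion hQ₁P x) hx)
      have hzP : (z : Ω) ∈ P := hQP hzQ
      have hcz : ∀ x : P, conjHom P (z : Ω) x ∈ P := fun x =>
        P.mul_mem (P.mul_mem hzP x.2) (P.inv_mem hzP)
      have hφ₂ := F.comp_mem (F.conj_mem hPS (hPS hzP)) hφ hcz
      have hQ₁c := centric_of_le F hQ hQQ₁ (hQ₁P.trans hPS)
      have hc1 : Nat.card (normalizerIn P Q) ≤ Nat.card P := Subgroup.card_le_of_le hQ₁P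
      have hagree : ∀ x : P, (x : Ω) ∈ normalizerIn P Q →
          (φ.comp ((conjHom P (z : Ω)).codRestrict P hcz)) x = φ' x := by
        intro x hx
        have h1 := hz ⟨x, hx⟩
        have h2 : φ' x = φ (Subgroup.inclusion hQ₁P (z * ⟨x, hx⟩ * z⁻¹)) := h1
        rw [h2]
        rfl
      obtain ⟨z', hz'Q, hz'C, hz'⟩ := ih (Nat.card P - Nat.card (normalizerIn P Q)) (by omega)
        P (normalizerIn P Q) hQ₁P hQ₁c rfl _ φ' hφ₂ hφ' hagree
      have hz'CQ : (z' : Ω) ∈ Subgroup.centralizer (Q : Set Ω) :=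
        Subgroup.centralizer_le (by exact_mod_cast hQQ₁) hz'C
      have hz'Q' : (z' : Ω) ∈ Q := hQ.2 Q (isConj_refl F hQ.1) ⟨hPS z'.2, hz'CQ⟩
      refine ⟨⟨z, hzP⟩ * z', Q.mul_mem hzQ hz'Q', Subgroup.mul_mem _ hzC hz'CQ, fun y => ?_⟩
      rw [hz' y]
      show φ ⟨(z : Ω) * ((z' : Ω) * y * (z' : Ω)⁻¹) * (z : Ω)⁻¹, _⟩ = _
      congr 1
      apply Subtype.ext
      show (z : Ω) * ((z' : Ω) * y * (z' : Ω)⁻¹) * (z : Ω)⁻¹ =
        (z : Ω) * (z' : Ω) * y * ((z : Ω) * (z' : Ω))⁻¹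
      group

end Cfsg.Agent.Helper26
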