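import Mathlib

set_option autoImplicit false

namespace Cfsg.Agent.Helper26

section abstract

variable {A : Type*} [Group A] [Finite A]

/-- for an automorphism `α` of order prime to the order of the abelian group `A`, the
fixed points of `α` meet the image of `w ↦ w α(w)⁻¹` trivially -/
theorem coprime_delta_fix (hA : ∀ a b : A, a * b = b * a) (α : MulAut A) (n : ℕ)
    (hα : α ^ n = 1) (hcop : Nat.Coprime n (Nat.card A)) (w : A)
    (h : α (w * (α w)⁻¹) = w * (α w)⁻¹) : w * (α w)⁻¹ = 1 := by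
  letI : CommGroup A := { ‹Group A› with mul_comm := hA }
  have hshift : ∀ x : A, ∏ i ∈ Finset.range n, (α ^ (i + 1)) x =
      ∏ i ∈ Finset.range n, (α ^ i) x := by
    intro x
    have h1 := Finset.prod_range_succ' (fun i => (α ^ i) x) n
    have h2 := Finset.prod_range_succ (fun i => (α ^ i) x) n
    rw [h1] at h2
    simp only [pow_zero, MulAut.one_apply, hα] at h2
    exact mul_right_cancel h2
  have hfix : ∀ i : ℕ, (α ^ i) (w * (α w)⁻¹) = w * (α w)⁻¹ := by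
    intro i
    induction i with
    | zero => simp
    | succ i ih => rw [pow_succ', MulAut.mul_apply, ih, h]
  have h1 : ∏ i ∈ Finset.range n, (α ^ i) (w * (α w)⁻¹) = (w * (α w)⁻¹) ^ n := by
    rw [Finset.prod_congr rfl (fun i _ => hfix i)]
    simp
  have h2 : ∏ i ∈ Finset.range n, (α ^ i) (w * (α w)⁻¹) = 1 := by
    have : ∀ i, (α ^ i) (w * (α w)⁻¹) = (α ^ i) w * ((α ^ (i + 1)) w)⁻¹ := by
      intro i
      rw [map_mul, map_inv, pow_succ, MulAut.mul_apply]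
    rw [Finset.prod_congr rfl (fun i _ => this i), Finset.prod_mul_distrib,
      Finset.prod_inv_distrib, hshift]
    exact mul_inv_cancel _
  rw [h1] at h2
  have h3 : orderOf (w * (α w)⁻¹) ∣ n := orderOf_dvd_of_pow_eq_one h2
  have h4 : orderOf (w * (α w)⁻¹) ∣ Nat.card A := orderOf_dvd_natCard _
  have h5 : orderOf (w * (α w)⁻¹) = 1 :=
    Nat.Coprime.eq_one_of_dvd (Nat.Coprime.coprime_dvd_left h3 hcop) h4
  exact orderOf_eq_one_iff.mp h5

/-- for an automorphism `α` of order prime to the order of the abelian group `A`, every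
element is a fixed point times an element `w α(w)⁻¹` -/
theorem coprime_delta_exists (hA : ∀ a b : A, a * b = b * a) (α : MulAut A) (n : ℕ)
    (hα : α ^ n = 1) (hcop : Nat.Coprime n (Nat.card A)) (u : A) :
    ∃ w : A, α (u * (w * (α w)⁻¹)) = u * (w * (α w)⁻¹) := by
  have hδmul : ∀ a b : A, (a * b) * (α (a * b))⁻¹ = (a * (α a)⁻¹) * (b * (α b)⁻¹) := by
    intro a b
    rw [map_mul, mul_inv_rev, hA (α b)⁻¹ (α a)⁻¹, mul_assoc, mul_assoc, ← mul_assoc b,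
      hA b (α a)⁻¹, mul_assoc]
  have hδinv : ∀ a : A, a⁻¹ * (α a⁻¹)⁻¹ = (a * (α a)⁻¹)⁻¹ := by
    intro a
    rw [map_inv, mul_inv_rev, hA]
  have hker : ∀ x : A, x * (α x)⁻¹ = 1 → α x = x := by
    intro x hx
    exact (mul_inv_eq_one.mp hx).symm
  let R : Set A := Set.range (fun w : A => w * (α w)⁻¹)
  let f : R → R := fun x => ⟨(x : A) * (α (x : A))⁻¹, ⟨(x : A), rfl⟩⟩
  have hinj : Function.Injective f := by
    intro x y hxy
    obtain ⟨wx, hwx⟩ := x.2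
    obtain ⟨wy, hwy⟩ := y.2
    have h0 : (x : A) * (α (x : A))⁻¹ = (y : A) * (α (y : A))⁻¹ := congrArg Subtype.val hxy
    have h1 : ((x : A) * (y : A)⁻¹) * (α ((x : A) * (y : A)⁻¹))⁻¹ = 1 := by
      rw [hδmul, hδinv, h0]
      exact mul_inv_cancel _
    have h2 : (x : A) * (y : A)⁻¹ = (wx * wy⁻¹) * (α (wx * wy⁻¹))⁻¹ := by
      rw [hδmul, hδinv]
      show (x : A) * (y : A)⁻¹ = (fun w : A => w * (α w)⁻¹) wx * ((fun w : A => w * (α w)⁻¹) wy)⁻¹
      rw [hwx, hwy]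
    have h3 := hker _ h1
    rw [h2] at h3
    have h4 := coprime_delta_fix hA α n hα hcop (wx * wy⁻¹) h3
    rw [← h2] at h4
    exact Subtype.ext (mul_inv_eq_one.mp h4)
  haveI : Finite R := Finite.of_injective (fun x : R => (x : A)) Subtype.val_injective
  have hsurj := Finite.injective_iff_surjective.mp hinj
  obtain ⟨v, hv⟩ := hsurj ⟨u * (α u)⁻¹, ⟨u, rfl⟩⟩
  have hv' : (v : A) * (α (v : A))⁻¹ = u * (α u)⁻¹ := congrArg Subtype.val hv
  obtain ⟨w₀, hw₀⟩ := v.2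
  refine ⟨w₀⁻¹, ?_⟩
  have e1 : w₀⁻¹ * (α w₀⁻¹)⁻¹ = (v : A)⁻¹ := by
    rw [hδinv]
    exact congrArg _ hw₀
  rw [e1]
  apply hker
  rw [hδmul, hδinv, hv']
  exact mul_inv_cancel _

end abstract

variable {X : Type*} [Group X] [Finite X]

theorem conj_delta_fix (V : Subgroup X) [V.Normal] (hab : ∀ a ∈ V, ∀ b ∈ V, a * b = b * a)
    {g : X} (hg : Nat.Coprime (orderOf g) (Nat.card V)) {w : X} (hw : w ∈ V)
    (h : g * (w * (g * w * g⁻¹)⁻¹) * g⁻¹ = w * (g * w * g⁻¹)⁻¹) :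
    w * (g * w * g⁻¹)⁻¹ = 1 := by
  have hA : ∀ a b : V, a * b = b * a := fun a b => Subtype.ext (hab a a.2 b b.2)
  have hα : (MulAut.conjNormal g : MulAut V) ^ orderOf g = 1 := by
    rw [← map_pow, pow_orderOf_eq_one, map_one]
  have h1 := coprime_delta_fix hA (MulAut.conjNormal g : MulAut V) (orderOf g) hα hg ⟨w, hw⟩
    (Subtype.ext h)
  exact congrArg Subtype.val h1

theorem conj_delta_exists (V : Subgroup X) [V.Normal] (hab : ∀ a ∈ V, ∀ b ∈ V, a * b = b * a)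
    {g : X} (hg : Nat.Coprime (orderOf g) (Nat.card V)) {u : X} (hu : u ∈ V) :
    ∃ w ∈ V, g * (u * (w * (g * w * g⁻¹)⁻¹)) * g⁻¹ = u * (w * (g * w * g⁻¹)⁻¹) := by
  have hA : ∀ a b : V, a * b = b * a := fun a b => Subtype.ext (hab a a.2 b b.2)
  have hα : (MulAut.conjNormal g : MulAut V) ^ orderOf g = 1 := by
    rw [← map_pow, pow_orderOf_eq_one, map_one]
  obtain ⟨w, hw⟩ := coprime_delta_exists hA (MulAut.conjNormal g : MulAut V) (orderOf g) hα hg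
    ⟨u, hu⟩
  exact ⟨w, w.2, congrArg Subtype.val hw⟩

/-- conjugacy in a coprime split extension `V G` with `V` abelian, for elements `s c` with
`s ∈ V`, `c ∈ C_G(s)` -/
theorem fibre_conj (V : Subgroup X) [V.Normal] (hab : ∀ a ∈ V, ∀ b ∈ V, a * b = b * a)
    (G : Subgroup X) (hGV : Subgroup.IsComplement' V G)
    (hcop : (Nat.card V).Coprime (Nat.card G)) {s s' c c' x : X} (hs : s ∈ V) (hs' : s' ∈ V)
    (hc : c ∈ G) (hc' : c' ∈ G) (hcs : c * s = s * c) (hcs' : c' * s' = s' * c')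
    (hx : x * (s * c) * x⁻¹ = s' * c') : ∃ h ∈ G, h * s * h⁻¹ = s' ∧ h * c * h⁻¹ = c' := by
  obtain ⟨⟨⟨w, hw⟩, ⟨h, hh⟩⟩, hwh, -⟩ := hGV.existsUnique x
  have hwh' : w * h = x := hwh
  have hs₁ : h * s * h⁻¹ ∈ V := ‹V.Normal›.conj_mem s hs h
  have hc₁ : h * c * h⁻¹ ∈ G := G.mul_mem (G.mul_mem hh hc) (G.inv_mem hh)
  have hcw : (h * c * h⁻¹) * w * (h * c * h⁻¹)⁻¹ ∈ V := ‹V.Normal›.conj_mem w hw _
  have hd : w * ((h * c * h⁻¹) * w * (h * c * h⁻¹)⁻¹)⁻¹ ∈ V := V.mul_mem hw (V.inv_mem hcw)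
  have e1 : x * (s * c) * x⁻¹ =
      ((h * s * h⁻¹) * (w * ((h * c * h⁻¹) * w * (h * c * h⁻¹)⁻¹)⁻¹)) * (h * c * h⁻¹) := by
    rw [← hwh']
    have : w * (h * s * h⁻¹) = (h * s * h⁻¹) * w := hab w hw _ hs₁
    calc w * h * (s * c) * (w * h)⁻¹ = (w * (h * s * h⁻¹)) * (h * c * h⁻¹) * w⁻¹ := by group
      _ = ((h * s * h⁻¹) * w) * (h * c * h⁻¹) * w⁻¹ := by rw [this]
      _ = _ := by group
  rw [e1] at hx
  have huniq := hGV.1 (a₁ := (⟨(h * s * h⁻¹) * (w * ((h * c * h⁻¹) * w * (h * c * h⁻¹)⁻¹)⁻¹),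
    V.mul_mem hs₁ hd⟩, ⟨h * c * h⁻¹, hc₁⟩)) (a₂ := (⟨s', hs'⟩, ⟨c', hc'⟩)) hx
  have h1 : (h * s * h⁻¹) * (w * ((h * c * h⁻¹) * w * (h * c * h⁻¹)⁻¹)⁻¹) = s' :=
    congrArg (fun p : V × G => (p.1 : X)) huniq
  have h2 : h * c * h⁻¹ = c' := congrArg (fun p : V × G => (p.2 : X)) huniq
  have hord : Nat.Coprime (orderOf (h * c * h⁻¹)) (Nat.card V) := by
    have h3 : orderOf (h * c * h⁻¹) ∣ Nat.card G := by
      have := orderOf_dvd_natCard (⟨h * c * h⁻¹, hc₁⟩ : G)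
      rwa [← Subgroup.orderOf_coe] at this
    exact (Nat.Coprime.coprime_dvd_left h3 hcop.symm)
  have h4 : (h * c * h⁻¹) * (h * s * h⁻¹) = (h * s * h⁻¹) * (h * c * h⁻¹) := by
    calc (h * c * h⁻¹) * (h * s * h⁻¹) = h * (c * s) * h⁻¹ := by group
      _ = h * (s * c) * h⁻¹ := by rw [hcs]
      _ = _ := by group
  have h5 : (h * c * h⁻¹) * s' = s' * (h * c * h⁻¹) := by rw [h2]; exact hcs'
  have h6 : w * ((h * c * h⁻¹) * w * (h * c * h⁻¹)⁻¹)⁻¹ = (h * s * h⁻¹)⁻¹ * s' := by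
    rw [← h1]; group
  have h7 : (h * c * h⁻¹) * (w * ((h * c * h⁻¹) * w * (h * c * h⁻¹)⁻¹)⁻¹) * (h * c * h⁻¹)⁻¹ =
      w * ((h * c * h⁻¹) * w * (h * c * h⁻¹)⁻¹)⁻¹ := by
    rw [h6]
    have h8 : (h * c * h⁻¹) * (h * s * h⁻¹)⁻¹ = (h * s * h⁻¹)⁻¹ * (h * c * h⁻¹) := by
      rw [eq_inv_mul_iff_mul_eq, ← mul_assoc, ← h4, mul_assoc, mul_inv_cancel, mul_one]
    calc (h * c * h⁻¹) * ((h * s * h⁻¹)⁻¹ * s') * (h * c * h⁻¹)⁻¹
        = ((h * c * h⁻¹) * (h * s * h⁻¹)⁻¹) * s' * (h * c * h⁻¹)⁻¹ := by group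
      _ = ((h * s * h⁻¹)⁻¹ * (h * c * h⁻¹)) * s' * (h * c * h⁻¹)⁻¹ := by rw [h8]
      _ = (h * s * h⁻¹)⁻¹ * ((h * c * h⁻¹) * s') * (h * c * h⁻¹)⁻¹ := by group
      _ = (h * s * h⁻¹)⁻¹ * (s' * (h * c * h⁻¹)) * (h * c * h⁻¹)⁻¹ := by rw [h5]
      _ = _ := by group
  have h9 := conj_delta_fix V hab hord hw h7
  rw [h9, mul_one] at h1
  exact ⟨h, hh, h1, h2⟩

/-- every element of a coprime split extension `V G` with `V` abelian is conjugate to some
`v g` with `v ∈ V`, `g ∈ G` commuting -/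
theorem exists_conj_comm (V : Subgroup X) [V.Normal] (hab : ∀ a ∈ V, ∀ b ∈ V, a * b = b * a)
    (G : Subgroup X) (hGV : Subgroup.IsComplement' V G)
    (hcop : (Nat.card V).Coprime (Nat.card G)) (x : X) :
    ∃ v ∈ V, ∃ g ∈ G, g * v = v * g ∧ ∃ y : X, y * x * y⁻¹ = v * g := by
  obtain ⟨⟨⟨u, hu⟩, ⟨g, hg⟩⟩, hug, -⟩ := hGV.existsUnique x
  have hug' : u * g = x := hug
  have hord : Nat.Coprime (orderOf g) (Nat.card V) := by
    have h3 : orderOf g ∣ Nat.card G := by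
      have := orderOf_dvd_natCard (⟨g, hg⟩ : G)
      rwa [← Subgroup.orderOf_coe] at this
    exact (Nat.Coprime.coprime_dvd_left h3 hcop.symm)
  obtain ⟨w, hw, hfix⟩ := conj_delta_exists V hab hord hu
  have hgw : g * w * g⁻¹ ∈ V := ‹V.Normal›.conj_mem w hw g
  refine ⟨u * (w * (g * w * g⁻¹)⁻¹), V.mul_mem hu (V.mul_mem hw (V.inv_mem hgw)), g, hg, ?_,
    w, ?_⟩
  · calc g * (u * (w * (g * w * g⁻¹)⁻¹)) = (g * (u * (w * (g * w * g⁻¹)⁻¹)) * g⁻¹) * g := by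
          group
      _ = (u * (w * (g * w * g⁻¹)⁻¹)) * g := by rw [hfix]
  · rw [← hug']
    have : w * u = u * w := hab w hw u hu
    calc w * (u * g) * w⁻¹ = (w * u) * g * w⁻¹ := by group
      _ = (u * w) * g * w⁻¹ := by rw [this]
      _ = _ := by group

/-- the map `[c] ↦ [s c]` from classes of `C_G(s)` to classes of `X` -/
noncomputable def classMap (G : Subgroup X) (s : X) :
    ConjClasses ↥(G ⊓ Subgroup.centralizer ({s} : Set X)) → ConjClasses X :=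
  Quotient.lift (fun c => ConjClasses.mk (s * (c : X))) (by
    intro c c' h
    obtain ⟨d, hd⟩ := isConj_iff.mp h
    apply ConjClasses.mk_eq_mk_iff_isConj.mpr
    rw [isConj_iff]
    refine ⟨(d : X), ?_⟩
    have h1 : (d : X) * s = s * (d : X) := Subgroup.mem_centralizer_singleton_iff.mp d.2.2
    have h2 : (d : X) * (c : X) * (d : X)⁻¹ = (c' : X) := congrArg Subtype.val hd
    rw [← h2]
    calc (d : X) * (s * (c : X)) * (d : X)⁻¹ = ((d : X) * s) * (c : X) * (d : X)⁻¹ := by group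
      _ = (s * (d : X)) * (c : X) * (d : X)⁻¹ := by rw [h1]
      _ = _ := by group)

theorem classMap_mk (G : Subgroup X) (s : X) (c : ↥(G ⊓ Subgroup.centralizer ({s} : Set X))) :
    classMap G s (ConjClasses.mk c) = ConjClasses.mk (s * (c : X)) := rfl

/-- `k(V G) = ∑ₛ k(C_G(s))` over representatives `s` of the `G`-orbits on `V`, for a coprime
split extension with `V` abelian -/
theorem card_conjClasses_split (V : Subgroup X) [V.Normal] (hab : ∀ a ∈ V, ∀ b ∈ V, a * b = b * a)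
    (G : Subgroup X) (hGV : Subgroup.IsComplement' V G)
    (hcop : (Nat.card V).Coprime (Nat.card G)) (S : Finset X) (hSV : ∀ s ∈ S, s ∈ V)
    (hrep : ∀ v ∈ V, ∃! s, s ∈ S ∧ ∃ g ∈ G, g * v * g⁻¹ = s) :
    Nat.card (ConjClasses X) =
      ∑ s ∈ S, Nat.card (ConjClasses ↥(G ⊓ Subgroup.centralizer ({s} : Set X))) := by
  classical
  let Φ : (Σ s : ↥S, ConjClasses ↥(G ⊓ Subgroup.centralizer ({(s : X)} : Set X))) →
      ConjClasses X := fun p => classMap G (p.1 : X) p.2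
  have hinj : Function.Injective Φ := by
    rintro ⟨⟨s, hs⟩, q⟩ ⟨⟨s', hs'⟩, q'⟩ h
    obtain ⟨c, rfl⟩ := ConjClasses.mk_surjective q
    obtain ⟨c', rfl⟩ := ConjClasses.mk_surjective q'
    have h1 : ConjClasses.mk (s * (c : X)) = ConjClasses.mk (s' * (c' : X)) := h
    obtain ⟨x, hx⟩ := isConj_iff.mp (ConjClasses.mk_eq_mk_iff_isConj.mp h1)
    obtain ⟨k, hk, hks, hkc⟩ := fibre_conj V hab G hGV hcop (hSV s hs) (hSV s' hs') c.2.1 c'.2.1
      (Subgroup.mem_centralizer_singleton_iff.mp c.2.2)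
      (Subgroup.mem_centralizer_singleton_iff.mp c'.2.2) hx
    obtain ⟨s₀, -, huniq⟩ := hrep s (hSV s hs)
    have e1 : s = s₀ := huniq s ⟨hs, 1, G.one_mem, by group⟩
    have e2 : s' = s₀ := huniq s' ⟨hs', k, hk, hks⟩
    have e3 : s = s' := e1.trans e2.symm
    subst e3
    have hkC : k ∈ G ⊓ Subgroup.centralizer ({s} : Set X) := by
      refine ⟨hk, Subgroup.mem_centralizer_singleton_iff.mpr ?_⟩
      calc k * s = (k * s * k⁻¹) * k := by group
        _ = s * k := by rw [hks]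
    have h2 : ConjClasses.mk c = ConjClasses.mk c' := by
      apply ConjClasses.mk_eq_mk_iff_isConj.mpr
      rw [isConj_iff]
      exact ⟨⟨k, hkC⟩, Subtype.ext hkc⟩
    rw [h2]
  have hsurj : Function.Surjective Φ := by
    intro q
    obtain ⟨x, rfl⟩ := ConjClasses.mk_surjective q
    obtain ⟨v, hv, g, hg, hgv, y, hy⟩ := exists_conj_comm V hab G hGV hcop x
    obtain ⟨s, ⟨hs, k, hk, hks⟩, -⟩ := hrep v hv
    have hc : k * g * k⁻¹ ∈ G ⊓ Subgroup.centralizer ({s} : Set X) := by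
      refine ⟨G.mul_mem (G.mul_mem hk hg) (G.inv_mem hk),
        Subgroup.mem_centralizer_singleton_iff.mpr ?_⟩
      rw [← hks]
      calc k * g * k⁻¹ * (k * v * k⁻¹) = k * (g * v) * k⁻¹ := by group
        _ = k * (v * g) * k⁻¹ := by rw [hgv]
        _ = _ := by group
    refine ⟨⟨⟨s, hs⟩, ConjClasses.mk ⟨k * g * k⁻¹, hc⟩⟩, ?_⟩
    show ConjClasses.mk (s * (k * g * k⁻¹)) = ConjClasses.mk x
    apply ConjClasses.mk_eq_mk_iff_isConj.mpr
    rw [isConj_iff]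
    refine ⟨(k * y)⁻¹, ?_⟩
    rw [← hks]
    have : x = y⁻¹ * (v * g) * y := by rw [← hy]; group
    rw [this]
    group
  rw [← Nat.card_congr (Equiv.ofBijective Φ ⟨hinj, hsurj⟩), Nat.card_sigma]
  exact Finset.sum_coe_sort S
    (fun s => Nat.card (ConjClasses ↥(G ⊓ Subgroup.centralizer ({s} : Set X))))

end Cfsg.Agent.Helper26
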