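import Mathlib
import Cfsg.Prelude.Def_FusionSystem
import Cfsg.Agent.Helper26.Stancu
import Cfsg.Agent.Helper17.Basic

set_option autoImplicit false

namespace Cfsg.Agent.Helper26

open Cfsg Cfsg.FusionSystem

/-- element form: a strongly `p`-embedded subgroup contains every element conjugating one of its
nontrivial `p`-elements into it -/
theorem spe_mem_of_conj_mem {X : Type*} [Group X] [Finite X] {p : ℕ} [Fact p.Prime]
    {M : Subgroup X} (hM : IsStronglyPEmbedded p M) {b g : X} (hb : b ∈ M) (hb1 : b ≠ 1) {k : ℕ}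
    (hbp : b ^ p ^ k = 1) (hg : g * b * g⁻¹ ∈ M) : g ∈ M := by
  have hp : p.Prime := Fact.out
  have hA : IsPGroup p (Subgroup.zpowers b) := by
    obtain ⟨j, -, hj⟩ := (Nat.dvd_prime_pow hp).mp (orderOf_dvd_of_pow_eq_one hbp)
    exact IsPGroup.of_card (n := j) (by rw [Nat.card_zpowers, hj])
  have hne : Subgroup.zpowers b ≠ ⊥ := by
    intro h
    apply hb1
    have : b ∈ Subgroup.zpowers b := Subgroup.mem_zpowers b
    rw [h, Subgroup.mem_bot] at this
    exact this
  have h2 : Cfsg.Agent.Helper17.cj g (Subgroup.zpowers b) ≤ M := by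
    show (Subgroup.zpowers b).map (MulAut.conj g).toMonoidHom ≤ M
    rw [MonoidHom.map_zpowers, Subgroup.zpowers_le]
    exact hg
  have h3 := Cfsg.Agent.Helper17.spe_mem_of_cj_le hM hA hne ((Subgroup.zpowers_le).mpr hb) h2
  simpa using M.inv_mem h3

variable {Ω : Type*} [Group Ω] {S : Subgroup Ω}

/-- For a fully normalized centric proper subgroup `P` of a saturated system such that `Out_F(P)`
has a strongly `p`-embedded subgroup, the image in `Out_F(P)` of the group generated by the
automorphisms extending to larger subgroups is strongly `p`-embedded. -/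
theorem extAut_image_spe [Finite S] (p : ℕ) [Fact p.Prime] (hS : IsPGroup p S)
    (F : FusionSystem S) (hF : F.IsSaturated p) {P : Subgroup Ω}
    (hfn : F.IsFullyNormalized P) (hne : P ≠ S) (hC : centralizerIn S P ≤ P)
    (E : Subgroup (F.autGroup P ⧸ (Inn P).subgroupOf (F.autGroup P)))
    (hE : IsStronglyPEmbedded p E) :
    IsStronglyPEmbedded p (((extAut F P).subgroupOf (F.autGroup P)).map
      (QuotientGroup.mk' ((Inn P).subgroupOf (F.autGroup P)))) := by
  have hP := hfn.1
  obtain ⟨hfc, hfa⟩ := fullyNormalized_props p hS F hF P hfn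
  have hrec := fullyCentralized_receptive p hS F hF P hfc
  have : Finite P := finite_of_le hP
  have hAutSle : autInducedBy S P ≤ F.autGroup P := autInducedBy_le_autGroup F hP
  obtain ⟨R₀, hR₀⟩ := hfa.2
  refine ⟨hE.1, ?_,
    R₀.mapSurjective (QuotientGroup.mk'_surjective ((Inn P).subgroupOf (F.autGroup P))), ?_⟩
  · -- the image is proper
    intro htop
    obtain ⟨T₀, hT₀E, -, -⟩ := Cfsg.Agent.Helper17.spe_exists_sylow hE
    obtain ⟨x, hx⟩ := Cfsg.Agent.Helper17.sylow_conj
      (R₀.mapSurjective (QuotientGroup.mk'_surjective ((Inn P).subgroupOf (F.autGroup P)))) T₀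
    have hmemT : ∀ (c : F.autGroup P), (c : MulAut P) ∈ autInducedBy S P →
        QuotientGroup.mk' ((Inn P).subgroupOf (F.autGroup P)) c ∈
          ((R₀.mapSurjective (QuotientGroup.mk'_surjective
            ((Inn P).subgroupOf (F.autGroup P))) : Sylow p _) : Subgroup _) := by
      intro c hc
      rw [Sylow.coe_mapSurjective]
      refine ⟨c, ?_, rfl⟩
      rw [SetLike.mem_coe, hR₀, Subgroup.mem_subgroupOf]
      exact hc
    have hTE : ∀ t ∈ ((R₀.mapSurjective (QuotientGroup.mk'_surjective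
            ((Inn P).subgroupOf (F.autGroup P))) : Sylow p _) : Subgroup _),
        x * t * x⁻¹ ∈ E := by
      intro t ht
      apply hT₀E
      rw [hx]
      exact Cfsg.Agent.Helper17.conj_mem_cj ht
    have hgen : extAut F P ≤ ((Subgroup.map (MulAut.conj x⁻¹).toMonoidHom E).comap
        (QuotientGroup.mk' ((Inn P).subgroupOf (F.autGroup P)))).map (F.autGroup P).subtype := by
      unfold extAut
      rw [Subgroup.closure_le]
      rintro α ⟨Q, hPQ, φ, hφ, hα⟩
      have hαF : α ∈ F.autGroup P :=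
        extAut_le_autGroup F hP (Subgroup.subset_closure ⟨Q, hPQ, φ, hφ, hα⟩)
      refine ⟨⟨α, hαF⟩, ?_, rfl⟩
      show QuotientGroup.mk' _ ⟨α, hαF⟩ ∈ Cfsg.Agent.Helper17.cj x⁻¹ E
      rw [Cfsg.Agent.Helper17.mem_cj, inv_inv]
      have hQS : Q ≤ S := (F.le_of_mem hφ).1
      haveI : Finite Q := finite_of_le hQS
      obtain ⟨g, hgN, hgP⟩ := SetLike.exists_of_lt
        (lt_normalizerIn (S := Q) (hS.to_le hQS) hPQ.le hPQ.ne)
      have hgS : g ∈ S := hQS hgN.1
      have hcg : P.normalizerMonoidHom ⟨g, hgN.2⟩ ∈ autInducedBy S P :=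
        Subgroup.subset_closure ⟨g, hgS, fun _ => rfl⟩
      have hbT := hmemT ⟨P.normalizerMonoidHom ⟨g, hgN.2⟩, hAutSle hcg⟩ hcg
      have hb1 : QuotientGroup.mk' ((Inn P).subgroupOf (F.autGroup P))
          ⟨P.normalizerMonoidHom ⟨g, hgN.2⟩, hAutSle hcg⟩ ≠ 1 := by
        intro h1
        rw [QuotientGroup.mk'_apply, QuotientGroup.eq_one_iff, Subgroup.mem_subgroupOf] at h1
        exact hgP (mem_of_conj_mem_inn hP hC hgS (fun x => rfl) h1)
      have habT : QuotientGroup.mk' ((Inn P).subgroupOf (F.autGroup P))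
          ((⟨α, hαF⟩ : F.autGroup P) * ⟨P.normalizerMonoidHom ⟨g, hgN.2⟩, hAutSle hcg⟩ *
            (⟨α, hαF⟩ : F.autGroup P)⁻¹) ∈
          ((R₀.mapSurjective (QuotientGroup.mk'_surjective
            ((Inn P).subgroupOf (F.autGroup P))) : Sylow p _) : Subgroup _) := by
        apply hmemT
        rw [mem_autInducedBy_iff]
        refine ⟨φ ⟨g, hgN.1⟩, (F.le_of_mem hφ).2 _, fun y => ?_⟩
        have h1 := hα (P.normalizerMonoidHom ⟨g, hgN.2⟩ (α⁻¹ y))
        have h2 := hα (α⁻¹ y)
        have h3 : ((α (α⁻¹ y) : P) : Ω) = y := by simp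
        rw [h3] at h2
        have e2 : Subgroup.inclusion hPQ.le (P.normalizerMonoidHom ⟨g, hgN.2⟩ (α⁻¹ y)) =
            (⟨g, hgN.1⟩ : Q) * Subgroup.inclusion hPQ.le (α⁻¹ y) * (⟨g, hgN.1⟩ : Q)⁻¹ :=
          Subtype.ext rfl
        rw [e2, map_mul, map_mul, map_inv, h2] at h1
        exact h1.symm
      rw [map_mul, map_mul, map_inv] at habT
      obtain ⟨k, hk⟩ := (R₀.mapSurjective (QuotientGroup.mk'_surjective
            ((Inn P).subgroupOf (F.autGroup P)))).isPGroup' ⟨_, hbT⟩
      have hk' := congrArg Subtype.val hk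
      have hk'' : (QuotientGroup.mk' ((Inn P).subgroupOf (F.autGroup P))
          ⟨P.normalizerMonoidHom ⟨g, hgN.2⟩, hAutSle hcg⟩) ^ p ^ k = 1 := hk'
      have hE1 := hTE _ hbT
      have hE2 := hTE _ habT
      refine spe_mem_of_conj_mem hE hE1 ?_ (k := k) ?_ ?_
      · intro h1
        exact hb1 (conj_eq_one_iff.mp h1)
      · rw [conj_pow, hk'']
        group
      · have e3 : x * (QuotientGroup.mk' ((Inn P).subgroupOf (F.autGroup P)) ⟨α, hαF⟩) * x⁻¹ *
            (x * (QuotientGroup.mk' ((Inn P).subgroupOf (F.autGroup P))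
              ⟨P.normalizerMonoidHom ⟨g, hgN.2⟩, hAutSle hcg⟩) * x⁻¹) *
            (x * (QuotientGroup.mk' ((Inn P).subgroupOf (F.autGroup P)) ⟨α, hαF⟩) * x⁻¹)⁻¹ =
            x * ((QuotientGroup.mk' ((Inn P).subgroupOf (F.autGroup P)) ⟨α, hαF⟩) *
              (QuotientGroup.mk' ((Inn P).subgroupOf (F.autGroup P))
              ⟨P.normalizerMonoidHom ⟨g, hgN.2⟩, hAutSle hcg⟩) *
              (QuotientGroup.mk' ((Inn P).subgroupOf (F.autGroup P)) ⟨α, hαF⟩)⁻¹) * x⁻¹ := by
          group
        rw [e3]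
        exact hE2
    have hYle : ((extAut F P).subgroupOf (F.autGroup P)).map
        (QuotientGroup.mk' ((Inn P).subgroupOf (F.autGroup P))) ≤
        Cfsg.Agent.Helper17.cj x⁻¹ E := by
      rintro _ ⟨a', ha', rfl⟩
      rw [SetLike.mem_coe, Subgroup.mem_subgroupOf] at ha'
      obtain ⟨a'', ha'', he⟩ := hgen ha'
      have : a'' = a' := Subtype.ext he
      rw [← this]
      exact ha''
    rw [htop] at hYle
    apply hE.2.1
    rw [eq_top_iff]
    intro e _
    have h1 := hYle (Subgroup.mem_top (x⁻¹ * e * x))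
    rw [Cfsg.Agent.Helper17.mem_cj] at h1
    have e2 : x⁻¹⁻¹ * (x⁻¹ * e * x) * x⁻¹ = e := by group
    rw [e2] at h1
    exact h1
  · -- the normalizers of the nontrivial subgroups of the Sylow subgroup
    unfold kGeneratedCore
    apply iSup_le
    rintro ⟨Qb, hQT, hQr⟩
    intro ab hab
    obtain ⟨a, rfl⟩ := QuotientGroup.mk'_surjective ((Inn P).subgroupOf (F.autGroup P)) ab
    have hQne : Qb ≠ ⊥ := by
      rintro rfl
      exact hQr (pRankLE_zero_bot p)
    obtain ⟨qb, hqb1⟩ := (Subgroup.ne_bot_iff_exists_ne_one).mp hQne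
    have hqbT := hQT qb.2
    rw [Sylow.coe_mapSurjective] at hqbT
    obtain ⟨b, hb, hbq⟩ := hqbT
    rw [SetLike.mem_coe, hR₀, Subgroup.mem_subgroupOf] at hb
    obtain ⟨g, hgS, hg⟩ := mem_autInducedBy_iff.mp hb
    have hgN := mem_normalizer_of_conj_aut hg
    have hgP : g ∉ P := by
      intro hgP
      apply hqb1
      have h1 : (b : MulAut P) ∈ Inn P := ⟨⟨g, hgP⟩, by
        ext x
        exact (hg x).symm⟩
      have h2 : QuotientGroup.mk' ((Inn P).subgroupOf (F.autGroup P)) b = 1 := by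
        rw [QuotientGroup.mk'_apply, QuotientGroup.eq_one_iff, Subgroup.mem_subgroupOf]
        exact h1
      rw [h2] at hbq
      exact Subtype.ext hbq.symm
    have hconj := hQT ((Subgroup.mem_normalizer_iff.mp hab (qb : _)).mp qb.2)
    rw [← hbq, ← map_inv, ← map_mul, ← map_mul, Sylow.coe_mapSurjective] at hconj
    obtain ⟨c, hc, hcq⟩ := hconj
    rw [SetLike.mem_coe, hR₀, Subgroup.mem_subgroupOf] at hc
    have h3 : c⁻¹ * (a * b * a⁻¹) ∈ (Inn P).subgroupOf (F.autGroup P) := QuotientGroup.eq.mp hcq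
    rw [Subgroup.mem_subgroupOf] at h3
    have h4 : ((a * b * a⁻¹ : F.autGroup P) : MulAut P) ∈ autInducedBy S P := by
      have e : ((a * b * a⁻¹ : F.autGroup P) : MulAut P) =
          (c : MulAut P) * ((c⁻¹ * (a * b * a⁻¹) : F.autGroup P) : MulAut P) := by
        push_cast
        group
      rw [e]
      exact Subgroup.mul_mem _ hc (inn_le_autInducedBy hP h3)
    obtain ⟨h, hhS, hh⟩ := mem_autInducedBy_iff.mp h4
    have hgext : g ∈ extender S P (P.subtype.comp (a : MulAut P).toMonoidHom) := by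
      apply Subgroup.subset_closure
      refine ⟨hgS, hgN, h, hhS, fun y hy => ?_⟩
      have h5 := hh ((a : MulAut P) y)
      have e5 : ((a * b * a⁻¹ : F.autGroup P) : MulAut P) ((a : MulAut P) y) =
          (a : MulAut P) ((b : MulAut P) y) := by
        push_cast
        simp
      rw [e5] at h5
      have e6 : (b : MulAut P) y = ⟨g * y * g⁻¹, hy⟩ := Subtype.ext (hg y)
      rw [e6] at h5
      exact h5
    have h7 := mem_extAut_of_extender F hrec a.2 hgext hgP
    exact ⟨a, Subgroup.mem_subgroupOf.mpr h7, rfl⟩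

/-- the dichotomy for fully normalized proper subgroups -/
theorem extAut_dichotomy [Finite S] (p : ℕ) [Fact p.Prime] (hS : IsPGroup p S)
    (F : FusionSystem S) (hF : F.IsSaturated p) (P : Subgroup Ω) (hPS : P < S)
    (hPn : F.IsFullyNormalized P) :
    (¬ F.IsEssential p P ∧ extAut F P = F.autGroup P) ∨
    (F.IsEssential p P ∧ ∃ _ : ((Inn P).subgroupOf (F.autGroup P)).Normal,
      IsStronglyPEmbedded p (((extAut F P).subgroupOf (F.autGroup P)).map
        (QuotientGroup.mk' ((Inn P).subgroupOf (F.autGroup P))))) := by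
  by_cases hess : F.IsEssential p P
  · right
    obtain ⟨hcen, -, hn, E, hE⟩ := hess
    refine ⟨⟨hcen, hPn, hn, E, hE⟩, hn, ?_⟩
    exact extAut_image_spe p hS F hF hPn hPS.ne (hcen.2 P (isConj_refl F hPn.1)) E hE
  · left
    exact ⟨hess, le_antisymm (extAut_le_autGroup F hPn.1)
      (autGroup_le_extAut_of_not_essential p hS F hF hPn hPS.ne hess)⟩

end Cfsg.Agent.Helper26
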