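import Mathlib
import Cfsg.Agent.Helper26.SatEquiv
import Cfsg.Agent.Helper26.Alperin

set_option autoImplicit false

namespace Cfsg.Agent.Helper26

open Cfsg Cfsg.FusionSystem

section abstract

variable {G : Type*} [Group G] {N : ℕ} (ρ : Multiplicative (ZMod N) →* G) (s : G)

theorem rho_apply_eq_pow [NeZero N] (a : ZMod N) :
    ρ (Multiplicative.ofAdd a) = ρ (Multiplicative.ofAdd 1) ^ a.val := by
  rw [← map_pow, ← ofAdd_nsmul]
  congr 2
  simp

theorem aut_rho_formula [NeZero N] (α : MulAut G) (j : ZMod N)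
    (h1 : α (ρ (Multiplicative.ofAdd 1)) = ρ (Multiplicative.ofAdd j)) (a : ZMod N) :
    α (ρ (Multiplicative.ofAdd a)) = ρ (Multiplicative.ofAdd (j * a)) := by
  rw [rho_apply_eq_pow ρ a, map_pow, h1, ← map_pow, ← ofAdd_nsmul]
  congr 2
  simp [mul_comm]

theorem aut_pow_formula [NeZero N] (α : MulAut G) (j i : ZMod N)
    (h1 : α (ρ (Multiplicative.ofAdd 1)) = ρ (Multiplicative.ofAdd j))
    (h2 : α s = s * ρ (Multiplicative.ofAdd i)) (n : ℕ) :
    (α ^ n) (ρ (Multiplicative.ofAdd 1)) = ρ (Multiplicative.ofAdd (j ^ n)) ∧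
      ∃ c : ZMod N, (α ^ n) s = s * ρ (Multiplicative.ofAdd c) := by
  induction n with
  | zero =>
    refine ⟨by simp, 0, ?_⟩
    simp
  | succ n ih =>
    obtain ⟨ih1, c, ih2⟩ := ih
    refine ⟨?_, i + j * c, ?_⟩
    · rw [pow_succ', MulAut.mul_apply, ih1, aut_rho_formula ρ α j h1, pow_succ']
    · rw [pow_succ', MulAut.mul_apply, ih2, map_mul, h2, aut_rho_formula ρ α j h1, mul_assoc,
        ← map_mul]
      rfl

theorem aut_pow_formula_one [NeZero N] (α : MulAut G) (c : ZMod N)
    (h1 : α (ρ (Multiplicative.ofAdd 1)) = ρ (Multiplicative.ofAdd 1))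
    (h2 : α s = s * ρ (Multiplicative.ofAdd c)) (n : ℕ) :
    (α ^ n) (ρ (Multiplicative.ofAdd 1)) = ρ (Multiplicative.ofAdd 1) ∧
      (α ^ n) s = s * ρ (Multiplicative.ofAdd (n • c)) := by
  induction n with
  | zero =>
    refine ⟨by simp, ?_⟩
    simp
  | succ n ih =>
    obtain ⟨ih1, ih2⟩ := ih
    refine ⟨?_, ?_⟩
    · rw [pow_succ', MulAut.mul_apply, ih1, h1]
    · rw [pow_succ', MulAut.mul_apply, ih2, map_mul, h2, aut_rho_formula ρ α 1 h1, mul_assoc,
        ← map_mul, one_mul, succ_nsmul, add_comm]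
      rfl

theorem aut_eq_one_of_fix [NeZero N]
    (hcover : ∀ x : G, ∃ a : ZMod N, x = ρ (Multiplicative.ofAdd a) ∨
      x = s * ρ (Multiplicative.ofAdd a))
    (α : MulAut G) (h1 : α (ρ (Multiplicative.ofAdd 1)) = ρ (Multiplicative.ofAdd 1))
    (h2 : α s = s) : α = 1 := by
  ext x
  obtain ⟨a, rfl | rfl⟩ := hcover x
  · rw [aut_rho_formula ρ α 1 h1, one_mul]
    rfl
  · rw [map_mul, h2, aut_rho_formula ρ α 1 h1, one_mul]
    rfl

/-- an automorphism of a group covered by `ρ(ZMod 2^k)` and `s ρ(ZMod 2^k)` which maps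
`ρ(1)` to `ρ(j)` with `j` a unit and `s` to `s ρ(i)` has `2`-power order -/
theorem aut_two_pow (k : ℕ) (hN : N = 2 ^ k)
    (hcover : ∀ x : G, ∃ a : ZMod N, x = ρ (Multiplicative.ofAdd a) ∨
      x = s * ρ (Multiplicative.ofAdd a))
    (α : MulAut G) (j i : ZMod N) (hj : IsUnit j)
    (h1 : α (ρ (Multiplicative.ofAdd 1)) = ρ (Multiplicative.ofAdd j))
    (h2 : α s = s * ρ (Multiplicative.ofAdd i)) : α ^ 2 ^ (k + k) = 1 := by
  subst hN
  haveI : NeZero (2 ^ k) := ⟨by positivity⟩
  have hjp : j ^ 2 ^ k = 1 := by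
    obtain ⟨u, rfl⟩ := hj
    have hcard : Nat.card (ZMod (2 ^ k))ˣ ∣ 2 ^ k := by
      rw [Nat.card_eq_fintype_card, ZMod.card_units_eq_totient]
      rcases Nat.eq_zero_or_pos k with rfl | hk
      · simp
      · rw [Nat.totient_prime_pow Nat.prime_two hk]
        simpa using Nat.pow_dvd_pow 2 (Nat.sub_le k 1)
    have h3 : u ^ 2 ^ k = 1 :=
      orderOf_dvd_iff_pow_eq_one.mp ((orderOf_dvd_natCard u).trans hcard)
    rw [← Units.val_pow_eq_pow_val, h3]
    rfl
  obtain ⟨e1, c, e2⟩ := aut_pow_formula ρ s α j i h1 h2 (2 ^ k)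
  rw [hjp] at e1
  obtain ⟨f1, f2⟩ := aut_pow_formula_one ρ s (α ^ 2 ^ k) c e1 e2 (2 ^ k)
  have hz : (2 ^ k) • c = 0 := by
    rw [nsmul_eq_mul]
    have : ((2 ^ k : ℕ) : ZMod (2 ^ k)) = 0 := ZMod.natCast_self _
    rw [this, zero_mul]
  rw [hz] at f2
  have f3 : ((α ^ 2 ^ k) ^ 2 ^ k) s = s := by
    rw [f2]
    simp
  have := aut_eq_one_of_fix ρ s hcover _ f1 f3
  rw [← pow_mul, ← pow_add] at this
  exact this

end abstract

/-- the rotation homomorphism of the dihedral group -/
def dihRho (m : ℕ) : Multiplicative (ZMod m) →* DihedralGroup m where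
  toFun a := DihedralGroup.r (Multiplicative.toAdd a)
  map_one' := rfl
  map_mul' _ _ := rfl

theorem isPGroup_mulAut_dihedral (k : ℕ) (hk : 2 ≤ k) :
    IsPGroup 2 (MulAut (DihedralGroup (2 ^ k))) := by
  haveI : NeZero (2 ^ k) := ⟨by positivity⟩
  have h4 : 4 ≤ 2 ^ k := by
    calc 4 = 2 ^ 2 := by norm_num
      _ ≤ 2 ^ k := Nat.pow_le_pow_right (by norm_num) hk
  intro α
  refine ⟨k + k, ?_⟩
  have hcover : ∀ x : DihedralGroup (2 ^ k), ∃ a : ZMod (2 ^ k),
      x = dihRho (2 ^ k) (Multiplicative.ofAdd a) ∨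
      x = DihedralGroup.sr 0 * dihRho (2 ^ k) (Multiplicative.ofAdd a) := by
    intro x
    cases x with
    | r a => exact ⟨a, Or.inl rfl⟩
    | sr a => exact ⟨a, Or.inr (by
        show DihedralGroup.sr a = DihedralGroup.sr 0 * DihedralGroup.r a
        rw [DihedralGroup.sr_mul_r, zero_add])⟩
  -- the image of `r 1`
  obtain ⟨j, hj⟩ : ∃ j, α (DihedralGroup.r 1) = DihedralGroup.r j := by
    have ho : orderOf (α (DihedralGroup.r 1)) = 2 ^ k := by
      exact (MulEquiv.orderOf_eq α _).trans DihedralGroup.orderOf_r_one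
    cases hx : α (DihedralGroup.r 1) with
    | r j => exact ⟨j, rfl⟩
    | sr j =>
      rw [hx, DihedralGroup.orderOf_sr] at ho
      omega
  have hform : ∀ a : ZMod (2 ^ k), α (DihedralGroup.r a) = DihedralGroup.r (j * a) :=
    fun a => aut_rho_formula (dihRho (2 ^ k)) α j hj a
  obtain ⟨i, hi⟩ : ∃ i, α (DihedralGroup.sr 0) = DihedralGroup.sr i := by
    cases hx : α (DihedralGroup.sr 0) with
    | sr i => exact ⟨i, rfl⟩
    | r i =>
      exfalso
      obtain ⟨y, hy⟩ := α.surjective (DihedralGroup.sr 0)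
      cases y with
      | r a =>
        rw [hform] at hy
        cases hy
      | sr a =>
        have e : (DihedralGroup.sr a : DihedralGroup (2 ^ k)) =
            DihedralGroup.sr 0 * DihedralGroup.r a := by
          rw [DihedralGroup.sr_mul_r, zero_add]
        rw [e, map_mul, hx, hform, DihedralGroup.r_mul_r] at hy
        cases hy
  have hju : IsUnit j := by
    obtain ⟨y, hy⟩ := α.surjective (DihedralGroup.r 1)
    cases y with
    | r a =>
      rw [hform] at hy
      have : j * a = 1 := DihedralGroup.r.inj hy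
      exact IsUnit.of_mul_eq_one _ this
    | sr a =>
      exfalso
      have e : (DihedralGroup.sr a : DihedralGroup (2 ^ k)) =
          DihedralGroup.sr 0 * DihedralGroup.r a := by
        rw [DihedralGroup.sr_mul_r, zero_add]
      rw [e, map_mul, hi, hform, DihedralGroup.sr_mul_r] at hy
      cases hy
  exact aut_two_pow (dihRho (2 ^ k)) (DihedralGroup.sr 0) k rfl hcover α j i hju hj (by
    rw [hi]
    show _ = DihedralGroup.sr 0 * DihedralGroup.r i
    rw [DihedralGroup.sr_mul_r, zero_add])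

/-- the cyclic homomorphism of the quaternion group -/
def quatRho (m : ℕ) : Multiplicative (ZMod (2 * m)) →* QuaternionGroup m where
  toFun a := QuaternionGroup.a (Multiplicative.toAdd a)
  map_one' := rfl
  map_mul' _ _ := rfl

theorem isPGroup_mulAut_quaternion (k : ℕ) (hk : 2 ≤ k) :
    IsPGroup 2 (MulAut (QuaternionGroup (2 ^ k))) := by
  haveI : NeZero (2 ^ k) := ⟨by positivity⟩
  haveI : NeZero (2 * 2 ^ k) := ⟨by positivity⟩
  have h4 : 4 ≤ 2 ^ k := by
    calc 4 = 2 ^ 2 := by norm_num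
      _ ≤ 2 ^ k := Nat.pow_le_pow_right (by norm_num) hk
  intro α
  refine ⟨(k + 1) + (k + 1), ?_⟩
  have hcover : ∀ x : QuaternionGroup (2 ^ k), ∃ a : ZMod (2 * 2 ^ k),
      x = quatRho (2 ^ k) (Multiplicative.ofAdd a) ∨
      x = QuaternionGroup.xa 0 * quatRho (2 ^ k) (Multiplicative.ofAdd a) := by
    intro x
    cases x with
    | a a => exact ⟨a, Or.inl rfl⟩
    | xa a => exact ⟨a, Or.inr (by
        show QuaternionGroup.xa a = QuaternionGroup.xa 0 * QuaternionGroup.a a
        rw [QuaternionGroup.xa_mul_a, zero_add])⟩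
  obtain ⟨j, hj⟩ : ∃ j, α (QuaternionGroup.a 1) = QuaternionGroup.a j := by
    have ho : orderOf (α (QuaternionGroup.a 1)) = 2 * 2 ^ k := by
      exact (MulEquiv.orderOf_eq α _).trans QuaternionGroup.orderOf_a_one
    cases hx : α (QuaternionGroup.a 1) with
    | a j => exact ⟨j, rfl⟩
    | xa j =>
      rw [hx, QuaternionGroup.orderOf_xa] at ho
      omega
  have hform : ∀ a : ZMod (2 * 2 ^ k), α (QuaternionGroup.a a) = QuaternionGroup.a (j * a) :=
    fun a => aut_rho_formula (quatRho (2 ^ k)) α j hj a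
  obtain ⟨i, hi⟩ : ∃ i, α (QuaternionGroup.xa 0) = QuaternionGroup.xa i := by
    cases hx : α (QuaternionGroup.xa 0) with
    | xa i => exact ⟨i, rfl⟩
    | a i =>
      exfalso
      obtain ⟨y, hy⟩ := α.surjective (QuaternionGroup.xa 0)
      cases y with
      | a a =>
        rw [hform] at hy
        cases hy
      | xa a =>
        have e : (QuaternionGroup.xa a : QuaternionGroup (2 ^ k)) =
            QuaternionGroup.xa 0 * QuaternionGroup.a a := by
          rw [QuaternionGroup.xa_mul_a, zero_add]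
        rw [e, map_mul, hx, hform, QuaternionGroup.a_mul_a] at hy
        cases hy
  have hju : IsUnit j := by
    obtain ⟨y, hy⟩ := α.surjective (QuaternionGroup.a 1)
    cases y with
    | a a =>
      rw [hform] at hy
      have : j * a = 1 := QuaternionGroup.a.inj hy
      exact IsUnit.of_mul_eq_one _ this
    | xa a =>
      exfalso
      have e : (QuaternionGroup.xa a : QuaternionGroup (2 ^ k)) =
          QuaternionGroup.xa 0 * QuaternionGroup.a a := by
        rw [QuaternionGroup.xa_mul_a, zero_add]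
      rw [e, map_mul, hi, hform, QuaternionGroup.xa_mul_a] at hy
      cases hy
  exact aut_two_pow (quatRho (2 ^ k)) (QuaternionGroup.xa 0) (k + 1) (by ring) hcover α j i hju
    hj (by
    rw [hi]
    show _ = QuaternionGroup.xa 0 * QuaternionGroup.a i
    rw [QuaternionGroup.xa_mul_a, zero_add])

variable {Ω : Type*} [Group Ω] {S : Subgroup Ω}

/-- if `Aut(S)` is a `p`-group then `Aut_F(S) = Inn(S)` in a saturated fusion system -/
theorem autGroup_eq_inn_of_isPGroup [Finite S] (p : ℕ) [Fact p.Prime] (hS : IsPGroup p S)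
    (F : FusionSystem S) (hF : F.IsSaturated p) (hA : IsPGroup p (MulAut S)) :
    F.autGroup S = Inn S := by
  have hfn : F.IsFullyNormalized S := by
    refine ⟨le_rfl, fun Q _ => ?_⟩
    have h1 : normalizerIn S S = S := by
      apply le_antisymm inf_le_left
      exact le_inf le_rfl Subgroup.le_normalizer
    rw [h1]
    exact Subgroup.card_le_of_le (normalizerIn_le_left S Q)
  obtain ⟨-, hfa⟩ := fullyNormalized_props p hS F hF S hfn
  have hSy : CardSyl p (autInducedBy S S) (F.autGroup S) :=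
    (sylow_iff_cardSyl p (autInducedBy_le_autGroup F le_rfl)).mp hfa.2
  have h2 : autInducedBy S S = F.autGroup S :=
    hSy.eq_of_le (hA.to_subgroup _) le_rfl hSy.1
  apply le_antisymm
  · rw [← h2]
    intro α hα
    obtain ⟨g, hg, e⟩ := mem_autInducedBy_iff.mp hα
    refine ⟨⟨g, hg⟩, ?_⟩
    ext x
    exact (e x).symm
  · rw [← h2]
    exact inn_le_autInducedBy le_rfl

end Cfsg.Agent.Helper26

namespace Cfsg.Agent.Helper26

open Cfsg Cfsg.FusionSystem

theorem autGroup_eq_inn_dihedral_quaternion {Ω : Type*} [Group Ω] {S : Subgroup Ω} [Finite S]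
    (n : ℕ) (hn : 4 ≤ n)
    (hshape : Nonempty (S ≃* DihedralGroup (2 ^ (n - 1))) ∨
      Nonempty (S ≃* QuaternionGroup (2 ^ (n - 2))))
    (F : FusionSystem S) (hF : F.IsSaturated 2) : F.autGroup S = Inn S := by
  haveI : Fact (Nat.Prime 2) := ⟨Nat.prime_two⟩
  rcases hshape with ⟨⟨e⟩⟩ | ⟨⟨e⟩⟩
  · have hS : IsPGroup 2 S := by
      apply IsPGroup.of_card (n := n)
      rw [Nat.card_congr e.toEquiv, DihedralGroup.nat_card, ← pow_succ']
      congr 1
      omega
    have hA : IsPGroup 2 (MulAut S) :=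
      (isPGroup_mulAut_dihedral (n - 1) (by omega)).of_equiv (MulAut.congr e).symm
    exact autGroup_eq_inn_of_isPGroup 2 hS F hF hA
  · have hS : IsPGroup 2 S := by
      apply IsPGroup.of_card (n := n)
      rw [Nat.card_congr e.toEquiv, Nat.card_eq_fintype_card, QuaternionGroup.card]
      have : n = (n - 2) + 2 := by omega
      rw [this, pow_add]
      simp
      ring
    have hA : IsPGroup 2 (MulAut S) :=
      (isPGroup_mulAut_quaternion (n - 2) (by omega)).of_equiv (MulAut.congr e).symm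
    exact autGroup_eq_inn_of_isPGroup 2 hS F hF hA

end Cfsg.Agent.Helper26
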