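import Mathlib

set_option autoImplicit false

namespace Cfsg.Agent.Helper26

open Module

section SelfDual

variable {F : Type*} [Field F] {G : Type*} [Group G]

theorem rep_apply_inv {V : Type*} [AddCommGroup V] [Module F V] (ρ : Representation F G V)
    (g : G) (x : V) : ρ g (ρ g⁻¹ x) = x := by
  rw [← Module.End.mul_apply, ← map_mul, mul_inv_cancel, map_one, Module.End.one_apply]

theorem rep_inv_apply {V : Type*} [AddCommGroup V] [Module F V] (ρ : Representation F G V)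
    (g : G) (x : V) : ρ g⁻¹ (ρ g x) = x := by
  rw [← Module.End.mul_apply, ← map_mul, inv_mul_cancel, map_one, Module.End.one_apply]

/-- Maschke: an equivariant projection onto an invariant subspace -/
theorem exists_equivariant_proj [Finite G] {V : Type*} [AddCommGroup V] [Module F V]
    (ρ : Representation F G V) (hG : (Nat.card G : F) ≠ 0)
    (P : Submodule F V) (hP : ∀ g, ∀ x ∈ P, ρ g x ∈ P) :
    ∃ e : V →ₗ[F] V, (∀ g x, e (ρ g x) = ρ g (e x)) ∧ (∀ x, e x ∈ P) ∧ (∀ x ∈ P, e x = x) := by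
  classical
  haveI : Fintype G := Fintype.ofFinite G
  obtain ⟨Q, hQ⟩ := Submodule.exists_isCompl P
  obtain ⟨π, hπ⟩ : ∃ π : V →ₗ[F] V, π = P.subtype ∘ₗ (P.projectionOnto Q hQ) := ⟨_, rfl⟩
  have hπP : ∀ x, π x ∈ P := by intro x; rw [hπ]; exact Submodule.coe_mem _
  have hπid : ∀ x ∈ P, π x = x := by
    intro x hx
    rw [hπ]
    show ((P.projectionOnto Q hQ x : P) : V) = x
    rw [Submodule.projectionOnto_apply_of_mem_left hQ hx]
  refine ⟨(Nat.card G : F)⁻¹ • ∑ g : G, (ρ g) ∘ₗ π ∘ₗ (ρ g⁻¹), ?_, ?_, ?_⟩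
  · intro h x
    simp only [LinearMap.smul_apply, LinearMap.sum_apply, LinearMap.comp_apply, map_smul, map_sum]
    congr 1
    rw [← Equiv.sum_comp (Equiv.mulLeft h)]
    apply Finset.sum_congr rfl
    intro g _
    simp only [Equiv.coe_mulLeft, mul_inv_rev, map_mul, Module.End.mul_apply]
    rw [rep_inv_apply]
  · intro x
    apply P.smul_mem
    simp only [LinearMap.sum_apply, LinearMap.comp_apply]
    exact P.sum_mem (fun g _ => hP g _ (hπP _))
  · intro x hx
    simp only [LinearMap.smul_apply, LinearMap.sum_apply, LinearMap.comp_apply]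
    have h1 : ∀ g : G, ρ g (π (ρ g⁻¹ x)) = x := by
      intro g
      rw [hπid _ (hP g⁻¹ x hx), rep_apply_inv]
    simp only [h1, Finset.sum_const, Finset.card_univ, ← Nat.card_eq_fintype_card]
    rw [← Nat.cast_smul_eq_nsmul F, smul_smul, inv_mul_cancel₀ hG, one_smul]

/-- the odd characteristic case: Fitting decomposition of the asymmetry -/
theorem selfdual_odd {V : Type*} [AddCommGroup V] [Module F V] [FiniteDimensional F V]
    (h2 : (2 : F) ≠ 0) (ρ : Representation F G V)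
    (B : LinearMap.BilinForm F V) (hB : B.Nondegenerate)
    (hBinv : ∀ g x y, B (ρ g x) (ρ g y) = B x y) :
    ∃ U W : Submodule F V, IsCompl U W ∧ (∀ g, ∀ u ∈ U, ρ g u ∈ U) ∧ (∀ g, ∀ w ∈ W, ρ g w ∈ W) ∧
      (∃ A : LinearMap.BilinForm F V, (∀ x, A x x = 0) ∧
        (∀ g, ∀ x ∈ U, ∀ y ∈ U, A (ρ g x) (ρ g y) = A x y) ∧
        (∀ x ∈ U, (∀ y ∈ U, A x y = 0) → x = 0)) ∧
      (∃ S : LinearMap.BilinForm F V, (∀ x y, S x y = S y x) ∧
        (∀ g, ∀ x ∈ W, ∀ y ∈ W, S (ρ g x) (ρ g y) = S x y) ∧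
        (∀ x ∈ W, (∀ y ∈ W, S x y = 0) → x = 0)) := by
  obtain ⟨A, hA⟩ : ∃ A : LinearMap.BilinForm F V, ∀ x y, A x y = B x y - B y x :=
    ⟨B - B.flip, fun x y => rfl⟩
  obtain ⟨S, hS⟩ : ∃ S : LinearMap.BilinForm F V, ∀ x y, S x y = B x y + B y x :=
    ⟨B + B.flip, fun x y => rfl⟩
  obtain ⟨N, hN⟩ : ∃ N : V →ₗ[F] V, ∀ x y, B x (N y) = A x y := by
    refine ⟨LinearMap.BilinForm.symmCompOfNondegenerate A.flip B.flip hB.flip, ?_⟩
    intro x y
    exact LinearMap.BilinForm.symmCompOfNondegenerate_left_apply A.flip hB.flip x y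
  -- basic formulas
  have F1 : ∀ x y, B x (N y) = - B y (N x) := by
    intro x y; rw [hN, hN, hA, hA]; ring
  have F2 : ∀ x y, B y x = B x (y - N y) := by
    intro x y; rw [map_sub, hN, hA]; ring
  have hcomm : ∀ (n : ℕ) (y : V), (N ^ n) (y - N y) = (N ^ n) y - N ((N ^ n) y) := by
    intro n y
    rw [map_sub]
    congr 1
    rw [← Module.End.mul_apply, ← Module.End.mul_apply, ← pow_succ, ← pow_succ']
  have F3 : ∀ n : ℕ, ∃ Z : V →ₗ[F] V, ∀ x y, B x ((N ^ n) y) = B ((N ^ n) x) (Z y) := by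
    intro n
    induction n with
    | zero => exact ⟨LinearMap.id, fun x y => by simp⟩
    | succ n ih =>
      obtain ⟨Z, hZ⟩ := ih
      refine ⟨-(Z ∘ₗ (LinearMap.id - N)), ?_⟩
      intro x y
      have e1 : (N ^ (n + 1)) y = N ((N ^ n) y) := by
        rw [pow_succ', Module.End.mul_apply]
      have e2 : (N ^ (n + 1)) x = (N ^ n) (N x) := by
        rw [pow_succ, Module.End.mul_apply]
      rw [e1, e2, F1, F2 (N x) ((N ^ n) y), ← hcomm, hZ (N x) (y - N y)]
      simp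
  have O1 : ∀ n : ℕ, ∀ x, (N ^ n) x = 0 → ∀ y, B x ((N ^ n) y) = 0 := by
    intro n x hx y
    obtain ⟨Z, hZ⟩ := F3 n
    rw [hZ, hx]; simp
  have O2 : ∀ n : ℕ, ∀ x, (N ^ n) x = 0 → ∀ y, B ((N ^ n) y) x = 0 := by
    intro n x hx y
    rw [F2, ← hcomm]
    exact O1 n x hx _
  -- equivariance
  have hAinv : ∀ g x y, A (ρ g x) (ρ g y) = A x y := by
    intro g x y; rw [hA, hA, hBinv, hBinv]
  have hSinv : ∀ g x y, S (ρ g x) (ρ g y) = S x y := by
    intro g x y; rw [hS, hS, hBinv, hBinv]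
  have hNρ : ∀ g y, N (ρ g y) = ρ g (N y) := by
    intro g y
    have h1 : ∀ x, B x (N (ρ g y) - ρ g (N y)) = 0 := by
      intro x
      rw [map_sub, hN]
      have e1 : A x (ρ g y) = A (ρ g⁻¹ x) y := by
        rw [← hAinv g (ρ g⁻¹ x) y, rep_apply_inv]
      have e2 : B x (ρ g (N y)) = B (ρ g⁻¹ x) (N y) := by
        rw [← hBinv g (ρ g⁻¹ x) (N y), rep_apply_inv]
      rw [e1, e2, hN, sub_self]
    exact sub_eq_zero.mp (hB.2 _ h1)
  have hNnρ : ∀ (n : ℕ) g y, (N ^ n) (ρ g y) = ρ g ((N ^ n) y) := by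
    intro n
    induction n with
    | zero => intro g y; simp
    | succ n ih =>
      intro g y
      rw [pow_succ, Module.End.mul_apply, Module.End.mul_apply, hNρ, ih]
  -- Fitting decomposition
  obtain ⟨n₀, hn₀⟩ := Filter.eventually_atTop.mp
    (N.eventually_isCompl_ker_pow_range_pow.and N.eventually_iInf_range_pow_eq)
  obtain ⟨hc, hr⟩ := hn₀ n₀ le_rfl
  have hr1 := (hn₀ (n₀ + 1) (Nat.le_succ n₀)).2
  have hrange : LinearMap.range (N ^ (n₀ + 1)) = LinearMap.range (N ^ n₀) := by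
    rw [← hr, ← hr1]
  have hdecomp : ∀ v : V, ∃ w u : V, (N ^ n₀) w = 0 ∧ u ∈ LinearMap.range (N ^ n₀) ∧ v = w + u := by
    intro v
    have hv : v ∈ LinearMap.ker (N ^ n₀) ⊔ LinearMap.range (N ^ n₀) := by
      rw [hc.sup_eq_top]; trivial
    obtain ⟨w, hw, u, hu, rfl⟩ := Submodule.mem_sup.mp hv
    exact ⟨w, u, LinearMap.mem_ker.mp hw, hu, rfl⟩
  refine ⟨LinearMap.range (N ^ n₀), LinearMap.ker (N ^ n₀), hc.symm, ?_, ?_, ?_, ?_⟩
  · rintro g _ ⟨z, rfl⟩
    exact ⟨ρ g z, hNnρ n₀ g z⟩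
  · intro g w hw
    rw [LinearMap.mem_ker] at hw ⊢
    rw [hNnρ, hw, map_zero]
  · refine ⟨A, fun x => by rw [hA, sub_self], fun g x _ y _ => hAinv g x y, ?_⟩
    intro x hx hxy
    apply hB.1
    intro v
    obtain ⟨w, u, hw, hu, rfl⟩ := hdecomp v
    obtain ⟨x₀, rfl⟩ := hx
    rw [map_add, O2 n₀ w hw x₀, zero_add]
    rw [← hrange] at hu
    obtain ⟨z, rfl⟩ := hu
    have e1 : (N ^ (n₀ + 1)) z = N ((N ^ n₀) z) := by
      rw [pow_succ', Module.End.mul_apply]
    rw [e1, hN]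
    exact hxy _ ⟨z, rfl⟩
  · refine ⟨S, fun x y => by rw [hS, hS, add_comm], fun g x _ y _ => hSinv g x y, ?_⟩
    intro x hx hxy
    rw [LinearMap.mem_ker] at hx
    apply hB.1
    intro v
    obtain ⟨w, u, hw, hu, rfl⟩ := hdecomp v
    obtain ⟨z, rfl⟩ := hu
    rw [map_add, O1 n₀ x hx z, add_zero]
    -- `w = 2 w' - N w'` for some `w'` in the kernel
    obtain ⟨M2, hM2⟩ : ∃ M2 : V →ₗ[F] V, ∀ y, M2 y = (2 : F) • y - N y :=
      ⟨(2 : F) • (LinearMap.id : V →ₗ[F] V) - N, fun y => rfl⟩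
    have hmaps : ∀ y ∈ LinearMap.ker (N ^ n₀), M2 y ∈ LinearMap.ker (N ^ n₀) := by
      intro y hy
      rw [LinearMap.mem_ker] at hy ⊢
      have e1 : (N ^ n₀) (N y) = N ((N ^ n₀) y) := by
        rw [← Module.End.mul_apply, ← Module.End.mul_apply, ← pow_succ, ← pow_succ']
      rw [hM2, map_sub, map_smul, hy, e1, hy, smul_zero, map_zero, sub_zero]
    have hinj : Function.Injective (M2.restrict hmaps) := by
      rw [← LinearMap.ker_eq_bot, LinearMap.ker_eq_bot']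
      intro y hy
      have hy' : (2 : F) • (y : V) - N (y : V) = 0 := by
        have h5 := congrArg Subtype.val hy
        rw [LinearMap.coe_restrict_apply, hM2] at h5
        exact h5
      have hNy : N (y : V) = (2 : F) • (y : V) := (sub_eq_zero.mp hy').symm
      have hpow : ∀ k : ℕ, (N ^ k) (y : V) = (2 : F) ^ k • (y : V) := by
        intro k
        induction k with
        | zero => simp
        | succ k ih => rw [pow_succ, Module.End.mul_apply, hNy, map_smul, ih, smul_smul, ← pow_succ']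
      have h0 : (2 : F) ^ n₀ • (y : V) = 0 := by
        rw [← hpow]; exact LinearMap.mem_ker.mp y.2
      rcases smul_eq_zero.mp h0 with h3 | h3
      · exact absurd h3 (pow_ne_zero _ h2)
      · exact Subtype.ext h3
    have hsurj := LinearMap.injective_iff_surjective.mp hinj
    obtain ⟨w', hw'⟩ := hsurj ⟨w, LinearMap.mem_ker.mpr hw⟩
    have hw'' : (2 : F) • (w' : V) - N (w' : V) = w := by
      have h5 := congrArg Subtype.val hw'
      rw [LinearMap.coe_restrict_apply, hM2] at h5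
      exact h5
    have e3 : B x w = S x (w' : V) := by
      rw [hS, F2 x (w' : V), ← map_add, ← hw'']
      congr 1
      rw [two_smul]; abel
    rw [e3]
    exact hxy _ w'.2

section CharTwo

universe u

variable [Finite G] [CharP F 2]

theorem selfdual_two_q {V : Type*} [AddCommGroup V] [Module F V]
    (hG : (Nat.card G : F) ≠ 0) (ρ : Representation F G V) (B : LinearMap.BilinForm F V)
    (hBinv : ∀ g x y, B (ρ g x) (ρ g y) = B x y) (hfix : ∀ x, (∀ g, ρ g x = x) → x = 0)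
    (R : Submodule F V) (hR : ∀ g, ∀ x ∈ R, ρ g x ∈ R)
    (hsym : ∀ x ∈ R, ∀ y ∈ R, B x y = B y x) : ∀ x ∈ R, B x x = 0 := by
  classical
  haveI : Fintype G := Fintype.ofFinite G
  intro x hx
  have hs : ∑ g : G, ρ g x = 0 := by
    apply hfix
    intro h
    have e : ∑ g : G, ρ g x = ∑ g : G, ρ (h * g) x :=
      (Equiv.sum_comp (Equiv.mulLeft h) (fun g => ρ g x)).symm
    rw [map_sum]
    conv_rhs => rw [e]
    apply Finset.sum_congr rfl
    intro g _
    rw [map_mul, Module.End.mul_apply]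
  have hadd : ∀ t : Finset G,
      B (∑ g ∈ t, ρ g x) (∑ g ∈ t, ρ g x) = ∑ g ∈ t, B (ρ g x) (ρ g x) := by
    intro t
    induction t using Finset.induction_on with
    | empty => simp
    | insert a t ha ih =>
      rw [Finset.sum_insert ha, Finset.sum_insert ha]
      have h1 : ρ a x ∈ R := hR a x hx
      have h2 : ∑ g ∈ t, ρ g x ∈ R := R.sum_mem (fun g _ => hR g x hx)
      have h3 := CharTwo.add_self_eq_zero (B (ρ a x) (∑ g ∈ t, ρ g x))
      have e : B (ρ a x + ∑ g ∈ t, ρ g x) (ρ a x + ∑ g ∈ t, ρ g x) =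
          B (ρ a x) (ρ a x) + B (∑ g ∈ t, ρ g x) (∑ g ∈ t, ρ g x) +
            (B (ρ a x) (∑ g ∈ t, ρ g x) + B (∑ g ∈ t, ρ g x) (ρ a x)) := by
        simp only [map_add, LinearMap.add_apply]; ring
      rw [e, ih, hsym _ h2 _ h1, h3, add_zero]
  have h3 := hadd Finset.univ
  rw [hs] at h3
  simp only [map_zero, hBinv, Finset.sum_const, Finset.card_univ] at h3
  rw [← Nat.card_eq_fintype_card, nsmul_eq_mul] at h3
  rcases mul_eq_zero.mp h3.symm with h4 | h4
  · exact absurd h4 hG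
  · exact h4

theorem selfdual_two_alt (hG : (Nat.card G : F) ≠ 0) : ∀ n : ℕ, ∀ (V : Type u) [AddCommGroup V]
    [Module F V] [FiniteDimensional F V] (ρ : Representation F G V) (B : LinearMap.BilinForm F V),
    finrank F V = n → B.Nondegenerate →
    (∀ g x y, B (ρ g x) (ρ g y) = B x y) → (∀ x, (∀ g, ρ g x = x) → x = 0) →
    ∃ A : LinearMap.BilinForm F V, (∀ x, A x x = 0) ∧ (∀ g x y, A (ρ g x) (ρ g y) = A x y) ∧
      (∀ x, (∀ y, A x y = 0) → x = 0) := by
  intro n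
  induction n using Nat.strong_induction_on with
  | _ n ih =>
  intro V _ _ _ ρ B hn hB hBinv hfix
  have hadd0 : ∀ a : F, a + a = 0 := CharTwo.add_self_eq_zero
  obtain ⟨R₁, hR₁⟩ : ∃ R₁ : Submodule F V, ∀ x, x ∈ R₁ ↔ ∀ y, B x y = B y x := by
    refine ⟨{ carrier := {x | ∀ y, B x y = B y x}
              add_mem' := ?_
              zero_mem' := ?_
              smul_mem' := ?_ }, fun x => Iff.rfl⟩
    · intro a b ha hb y
      have ha' : ∀ y, B a y = B y a := ha
      have hb' : ∀ y, B b y = B y b := hb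
      rw [map_add, LinearMap.add_apply, map_add, ha' y, hb' y]
    · intro y; simp
    · intro c a ha y
      have ha' : ∀ y, B a y = B y a := ha
      rw [map_smul, LinearMap.smul_apply, map_smul, ha' y]
  have hR₁inv : ∀ g, ∀ x ∈ R₁, ρ g x ∈ R₁ := by
    intro g x hx
    rw [hR₁] at hx ⊢
    intro y
    have e1 : B (ρ g x) y = B x (ρ g⁻¹ y) := by rw [← hBinv g x (ρ g⁻¹ y), rep_apply_inv]
    have e2 : B y (ρ g x) = B (ρ g⁻¹ y) x := by rw [← hBinv g (ρ g⁻¹ y) x, rep_apply_inv]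
    rw [e1, e2, hx]
  have hq : ∀ x ∈ R₁, B x x = 0 :=
    selfdual_two_q hG ρ B hBinv hfix R₁ hR₁inv (fun x hx y _ => (hR₁ x).mp hx y)
  obtain ⟨R₀, hR₀⟩ : ∃ R₀ : Submodule F V, ∀ x, x ∈ R₀ ↔ x ∈ R₁ ∧ ∀ r ∈ R₁, B r x = 0 := by
    refine ⟨{ carrier := {x | x ∈ R₁ ∧ ∀ r ∈ R₁, B r x = 0}
              add_mem' := ?_
              zero_mem' := ?_
              smul_mem' := ?_ }, fun x => Iff.rfl⟩
    · rintro a b ⟨ha1, ha2⟩ ⟨hb1, hb2⟩
      exact ⟨R₁.add_mem ha1 hb1, fun r hr => by rw [map_add, ha2 r hr, hb2 r hr, add_zero]⟩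
    · exact ⟨R₁.zero_mem, fun r _ => by simp⟩
    · rintro c a ⟨ha1, ha2⟩
      exact ⟨R₁.smul_mem c ha1, fun r hr => by rw [map_smul, ha2 r hr, smul_zero]⟩
  by_cases hR₀bot : R₀ = ⊥
  · obtain ⟨e, he1, he2, he3⟩ := exists_equivariant_proj ρ hG R₁ hR₁inv
    obtain ⟨A₁, hA₁⟩ : ∃ A₁ : LinearMap.BilinForm F V,
        ∀ x y, A₁ x y = B x y + B y x + B (e x) (e y) :=
      ⟨B + B.flip + B.compl₁₂ e e, fun x y => rfl⟩
    refine ⟨A₁, ?_, ?_, ?_⟩
    · intro x
      rw [hA₁, hadd0, hq _ (he2 x), add_zero]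
    · intro g x y
      rw [hA₁, hA₁, he1, he1, hBinv, hBinv, hBinv]
    · intro x hx
      have hx' : ∀ y, B x y + B y x + B (e x) (e y) = 0 := by
        intro y
        rw [← hA₁]; exact hx y
      have hex : e x = 0 := by
        have h1 : e x ∈ R₀ := by
          rw [hR₀]
          refine ⟨he2 x, ?_⟩
          intro r hr
          have h2 := hx' r
          rw [he3 r hr, ← (hR₁ r).mp hr x, hadd0, zero_add] at h2
          rw [← (hR₁ _).mp (he2 x) r]; exact h2
        rw [hR₀bot] at h1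
        exact (Submodule.mem_bot F).mp h1
      have hxR : x ∈ R₁ := by
        rw [hR₁]
        intro y
        have h2 := hx' y
        rw [hex, map_zero, LinearMap.zero_apply, add_zero] at h2
        have h3 := hadd0 (B y x)
        linear_combination h2 - h3
      rw [← he3 x hxR]; exact hex
  · have hM1 : ∀ m ∈ R₀, ∀ y, B m y = B y m := fun m hm y => (hR₁ m).mp ((hR₀ m).mp hm).1 y
    have hM0 : ∀ m ∈ R₀, ∀ m' ∈ R₀, B m m' = 0 :=
      fun m hm m' hm' => ((hR₀ m').mp hm').2 m ((hR₀ m).mp hm).1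
    have hMinv : ∀ g, ∀ x ∈ R₀, ρ g x ∈ R₀ := by
      intro g x hx
      rw [hR₀] at hx ⊢
      refine ⟨hR₁inv g x hx.1, ?_⟩
      intro r hr
      have e1 : B r (ρ g x) = B (ρ g⁻¹ r) x := by rw [← hBinv g (ρ g⁻¹ r) x, rep_apply_inv]
      rw [e1]; exact hx.2 _ (hR₁inv g⁻¹ r hr)
    obtain ⟨e₁, he1, he2, he3⟩ := exists_equivariant_proj ρ hG R₀ hMinv
    obtain ⟨A₂, hA₂⟩ : ∃ A₂ : LinearMap.BilinForm F V,
        ∀ x y, A₂ x y = B (e₁ x) y + B (e₁ y) x :=
      ⟨B.compl₁₂ e₁ LinearMap.id + (B.compl₁₂ e₁ LinearMap.id).flip, fun x y => rfl⟩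
    obtain ⟨N₂, hN₂⟩ : ∃ N₂ : Submodule F V,
        ∀ x, x ∈ N₂ ↔ e₁ x = 0 ∧ ∀ m ∈ R₀, B m x = 0 := by
      refine ⟨{ carrier := {x | e₁ x = 0 ∧ ∀ m ∈ R₀, B m x = 0}
                add_mem' := ?_
                zero_mem' := ?_
                smul_mem' := ?_ }, fun x => Iff.rfl⟩
      · rintro a b ⟨ha1, ha2⟩ ⟨hb1, hb2⟩
        exact ⟨by rw [map_add, ha1, hb1, add_zero],
          fun r hr => by rw [map_add, ha2 r hr, hb2 r hr, add_zero]⟩
      · exact ⟨map_zero _, fun r _ => by simp⟩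
      · rintro c a ⟨ha1, ha2⟩
        exact ⟨by rw [map_smul, ha1, smul_zero], fun r hr => by rw [map_smul, ha2 r hr, smul_zero]⟩
    have hN₂inv : ∀ g, ∀ x ∈ N₂, ρ g x ∈ N₂ := by
      intro g x hx
      rw [hN₂] at hx ⊢
      refine ⟨by rw [he1, hx.1, map_zero], ?_⟩
      intro m hm
      have e1 : B m (ρ g x) = B (ρ g⁻¹ m) x := by rw [← hBinv g (ρ g⁻¹ m) x, rep_apply_inv]
      rw [e1]; exact hx.2 _ (hMinv g⁻¹ m hm)
    have hrad : ∀ x, (∀ y, A₂ x y = 0) → x ∈ N₂ := by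
      intro x hx
      have hxM : ∀ m ∈ R₀, B m x = 0 := by
        intro m hm
        have h1 := hx m
        rw [hA₂, he3 m hm, hM0 _ (he2 x) m hm, zero_add] at h1
        exact h1
      rw [hN₂]
      refine ⟨?_, hxM⟩
      apply hB.1
      intro y
      have e0 : e₁ (y - e₁ y) = 0 := by rw [map_sub, he3 _ (he2 y), sub_self]
      have h1 := hx (y - e₁ y)
      rw [hA₂, e0, map_zero, LinearMap.zero_apply, add_zero,
        map_sub, hM0 _ (he2 x) _ (he2 y), sub_zero] at h1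
      exact h1
    have hrad' : ∀ x ∈ N₂, ∀ y, A₂ x y = 0 ∧ A₂ y x = 0 := by
      intro x hx y
      rw [hN₂] at hx
      have h1 : A₂ x y = 0 := by
        rw [hA₂, hx.1, map_zero, LinearMap.zero_apply, zero_add]; exact hx.2 _ (he2 y)
      have h2 : A₂ y x = A₂ x y := by rw [hA₂, hA₂, add_comm]
      exact ⟨h1, by rw [h2, h1]⟩
    have hsepR : ∀ y ∈ N₂, (∀ z ∈ N₂, B z y = 0) → y = 0 := by
      intro y hy hyz
      have hy' := (hN₂ y).mp hy
      have hφ : B.flip y ∈ ((R₀.map B).dualCoannihilator).dualAnnihilator := by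
        rw [Submodule.mem_dualAnnihilator]
        intro z hz
        rw [Submodule.mem_dualCoannihilator] at hz
        have hz' : ∀ m ∈ R₀, B m z = 0 := fun m hm => hz (B m) (Submodule.mem_map_of_mem hm)
        have h1 : z - e₁ z ∈ N₂ := by
          rw [hN₂]
          refine ⟨by rw [map_sub, he3 _ (he2 z), sub_self], ?_⟩
          intro m hm
          rw [map_sub, hz' m hm, hM0 m hm _ (he2 z), sub_zero]
        have h2 := hyz _ h1
        rw [map_sub, LinearMap.sub_apply, hy'.2 _ (he2 z), sub_zero] at h2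
        exact h2
      rw [Subspace.dualCoannihilator_dualAnnihilator_eq] at hφ
      obtain ⟨m₀, hm₀, hm₀φ⟩ := Submodule.mem_map.mp hφ
      have h3 : ∀ k, B k (y - m₀) = 0 := by
        intro k
        have h4 : B m₀ k = B k y := by rw [hm₀φ]; rfl
        rw [map_sub, ← hM1 m₀ hm₀ k, h4, sub_self]
      have h5 : y = m₀ := sub_eq_zero.mp (hB.2 _ h3)
      have h6 : e₁ y = y := by rw [h5]; exact he3 m₀ hm₀
      rw [← h6]; exact hy'.1
    obtain ⟨ρ', hρ'⟩ : ∃ ρ' : Representation F G N₂,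
        ∀ g (x : N₂), ((ρ' g x : N₂) : V) = ρ g (x : V) := by
      refine ⟨{ toFun := fun g => (ρ g).restrict (hN₂inv g), map_one' := ?_, map_mul' := ?_ },
        fun g x => rfl⟩
      · ext x; simp
      · intro g h; ext x; simp
    obtain ⟨B', hB'⟩ : ∃ B' : LinearMap.BilinForm F N₂, ∀ x y : N₂, B' x y = B (x : V) (y : V) :=
      ⟨B.restrict N₂, fun x y => rfl⟩
    have hB'nd : B'.Nondegenerate := by
      apply LinearMap.BilinForm.Nondegenerate.ofSeparatingRight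
      intro y hy
      apply Subtype.ext
      apply hsepR y y.2
      intro z hz
      have h0 := hy ⟨z, hz⟩
      rwa [hB'] at h0
    have hB'inv : ∀ g x y, B' (ρ' g x) (ρ' g y) = B' x y := by
      intro g x y; rw [hB', hB', hρ', hρ', hBinv]
    have hfix' : ∀ x : N₂, (∀ g, ρ' g x = x) → x = 0 := by
      intro x hx
      apply Subtype.ext
      apply hfix
      intro g
      rw [← hρ', hx g]
    have hlt : finrank F N₂ < finrank F V := by
      apply Submodule.finrank_lt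
      intro htop
      apply hR₀bot
      rw [eq_bot_iff]
      intro m hm
      have h1 : m ∈ N₂ := by rw [htop]; trivial
      rw [Submodule.mem_bot, ← he3 m hm]
      exact ((hN₂ m).mp h1).1
    obtain ⟨A', hA'1, hA'2, hA'3⟩ :=
      ih (finrank F N₂) (by rw [← hn]; exact hlt) N₂ ρ' B' rfl hB'nd hB'inv hfix'
    obtain ⟨e₂, he21, he22, he23⟩ := exists_equivariant_proj ρ hG N₂ hN₂inv
    obtain ⟨e₂', he₂'⟩ : ∃ e₂' : V →ₗ[F] N₂, ∀ x, ((e₂' x : N₂) : V) = e₂ x :=
      ⟨e₂.codRestrict N₂ he22, fun x => rfl⟩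
    obtain ⟨A₃, hA₃⟩ : ∃ A₃ : LinearMap.BilinForm F V,
        ∀ x y, A₃ x y = A₂ x y + A' (e₂' x) (e₂' y) :=
      ⟨A₂ + A'.compl₁₂ e₂' e₂', fun x y => rfl⟩
    refine ⟨A₃, ?_, ?_, ?_⟩
    · intro x
      rw [hA₃, hA₂, hadd0, hA'1, add_zero]
    · intro g x y
      have e1 : ∀ z, e₂' (ρ g z) = ρ' g (e₂' z) := by
        intro z; apply Subtype.ext; rw [he₂', hρ', he₂', he21]
      rw [hA₃, hA₃, e1, e1, hA'2, hA₂, hA₂, he1, he1, hBinv, hBinv]
    · intro x hx
      have hx' : ∀ y, A₂ x y + A' (e₂' x) (e₂' y) = 0 := by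
        intro y
        rw [← hA₃]; exact hx y
      have h1 : e₂' x = 0 := by
        apply hA'3
        intro y
        have h2 := hx' (y : V)
        rw [(hrad' (y : V) y.2 x).2, zero_add] at h2
        have h3 : e₂' (y : V) = y := by apply Subtype.ext; rw [he₂', he23 _ y.2]
        rw [h3] at h2; exact h2
      have h2 : x ∈ N₂ := by
        apply hrad
        intro y
        have h3 := hx' y
        rw [h1, map_zero, LinearMap.zero_apply, add_zero] at h3
        exact h3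
      rw [← he23 x h2, ← he₂', h1]; rfl

omit [Finite G] [CharP F 2] in
theorem exists_symm_nondeg_form (W : Type*) [AddCommGroup W] [Module F W]
    [FiniteDimensional F W] :
    ∃ S₀ : LinearMap.BilinForm F W, (∀ x y, S₀ x y = S₀ y x) ∧
      (∀ x, (∀ y, S₀ x y = 0) → x = 0) := by
  classical
  obtain ⟨b⟩ : Nonempty (Basis (Fin (finrank F W)) F W) := ⟨Module.finBasis F W⟩
  obtain ⟨S₀, hS₀⟩ : ∃ S₀ : LinearMap.BilinForm F W,
      ∀ x y, S₀ x y = ∑ i, b.repr x i * b.repr y i := by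
    refine ⟨∑ i, (b.coord i).smulRight (b.coord i), ?_⟩
    intro x y
    simp only [LinearMap.sum_apply, LinearMap.smulRight_apply, LinearMap.smul_apply, smul_eq_mul,
      Basis.coord_apply]
  refine ⟨S₀, ?_, ?_⟩
  · intro x y
    rw [hS₀, hS₀]
    exact Finset.sum_congr rfl (fun i _ => mul_comm _ _)
  · intro x hx
    apply b.ext_elem
    intro j
    have h1 := hx (b j)
    rw [hS₀] at h1
    simp only [Basis.repr_self, Finsupp.single_apply] at h1
    simpa using h1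

theorem selfdual_two {V : Type u} [AddCommGroup V] [Module F V] [FiniteDimensional F V]
    (hG : (Nat.card G : F) ≠ 0) (ρ : Representation F G V)
    (B : LinearMap.BilinForm F V) (hB : B.Nondegenerate)
    (hBinv : ∀ g x y, B (ρ g x) (ρ g y) = B x y) :
    ∃ U W : Submodule F V, IsCompl U W ∧ (∀ g, ∀ u ∈ U, ρ g u ∈ U) ∧ (∀ g, ∀ w ∈ W, ρ g w ∈ W) ∧
      (∃ A : LinearMap.BilinForm F V, (∀ x, A x x = 0) ∧
        (∀ g, ∀ x ∈ U, ∀ y ∈ U, A (ρ g x) (ρ g y) = A x y) ∧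
        (∀ x ∈ U, (∀ y ∈ U, A x y = 0) → x = 0)) ∧
      (∃ S : LinearMap.BilinForm F V, (∀ x y, S x y = S y x) ∧
        (∀ g, ∀ x ∈ W, ∀ y ∈ W, S (ρ g x) (ρ g y) = S x y) ∧
        (∀ x ∈ W, (∀ y ∈ W, S x y = 0) → x = 0)) ∧
      (∀ g, ∀ w ∈ W, ρ g w = w) := by
  classical
  haveI : Fintype G := Fintype.ofFinite G
  obtain ⟨W, hW⟩ : ∃ W : Submodule F V, ∀ x, x ∈ W ↔ ∀ g, ρ g x = x := by
    refine ⟨{ carrier := {x | ∀ g, ρ g x = x}
              add_mem' := ?_
              zero_mem' := ?_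
              smul_mem' := ?_ }, fun x => Iff.rfl⟩
    · intro a b ha hb g
      have ha' : ∀ g, ρ g a = a := ha
      have hb' : ∀ g, ρ g b = b := hb
      rw [map_add, ha' g, hb' g]
    · intro g; simp
    · intro c a ha g
      have ha' : ∀ g, ρ g a = a := ha
      rw [map_smul, ha' g]
  have hWinv : ∀ g, ∀ x ∈ W, ρ g x ∈ W := by
    intro g x hx; rw [(hW x).mp hx g]; exact hx
  obtain ⟨e₀, he1, he2, he3⟩ := exists_equivariant_proj ρ hG W hWinv
  obtain ⟨L, hL⟩ : ∃ L : Submodule F V, ∀ x, x ∈ L ↔ e₀ x = 0 :=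
    ⟨LinearMap.ker e₀, fun x => LinearMap.mem_ker⟩
  have hLinv : ∀ g, ∀ x ∈ L, ρ g x ∈ L := by
    intro g x hx; rw [hL] at hx ⊢; rw [he1, hx, map_zero]
  have hLW : IsCompl L W := by
    constructor
    · rw [Submodule.disjoint_def]
      intro x hx hx'
      rw [← he3 x hx']; exact (hL x).mp hx
    · rw [codisjoint_iff, eq_top_iff]
      intro x _
      have h1 : x - e₀ x ∈ L := by rw [hL, map_sub, he3 _ (he2 x), sub_self]
      have h2 : x = (x - e₀ x) + e₀ x := by abel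
      rw [h2]
      exact Submodule.add_mem_sup h1 (he2 x)
  have hsum : ∀ x ∈ L, ∑ g : G, ρ g x = 0 := by
    intro x hx
    have h1 : ∑ g : G, ρ g x ∈ W := by
      rw [hW]
      intro h
      have e : ∑ g : G, ρ g x = ∑ g : G, ρ (h * g) x :=
        (Equiv.sum_comp (Equiv.mulLeft h) (fun g => ρ g x)).symm
      rw [map_sum]
      conv_rhs => rw [e]
      apply Finset.sum_congr rfl
      intro g _
      rw [map_mul, Module.End.mul_apply]
    have h2 : ∑ g : G, ρ g x ∈ L := L.sum_mem (fun g _ => hLinv g x hx)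
    rw [← he3 _ h1]; exact (hL _).mp h2
  have horth1 : ∀ w ∈ W, ∀ x ∈ L, B w x = 0 := by
    intro w hw x hx
    have h1 : B w (∑ g : G, ρ g x) = (Nat.card G : F) * B w x := by
      rw [map_sum]
      have h0 : ∀ g : G, B w (ρ g x) = B w x := by
        intro g
        conv_lhs => rw [← (hW w).mp hw g]
        exact hBinv g w x
      simp only [h0, Finset.sum_const, Finset.card_univ, nsmul_eq_mul, Nat.card_eq_fintype_card]
    rw [hsum x hx, map_zero] at h1
    rcases mul_eq_zero.mp h1.symm with h4 | h4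
    · exact absurd h4 hG
    · exact h4
  have horth2 : ∀ w ∈ W, ∀ x ∈ L, B x w = 0 := by
    intro w hw x hx
    have h1 : B (∑ g : G, ρ g x) w = (Nat.card G : F) * B x w := by
      rw [map_sum, LinearMap.sum_apply]
      have h0 : ∀ g : G, B (ρ g x) w = B x w := by
        intro g
        conv_lhs => rw [← (hW w).mp hw g]
        exact hBinv g x w
      simp only [h0, Finset.sum_const, Finset.card_univ, nsmul_eq_mul, Nat.card_eq_fintype_card]
    rw [hsum x hx, map_zero, LinearMap.zero_apply] at h1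
    rcases mul_eq_zero.mp h1.symm with h4 | h4
    · exact absurd h4 hG
    · exact h4
  obtain ⟨ρ', hρ'⟩ : ∃ ρ' : Representation F G L,
      ∀ g (x : L), ((ρ' g x : L) : V) = ρ g (x : V) := by
    refine ⟨{ toFun := fun g => (ρ g).restrict (hLinv g), map_one' := ?_, map_mul' := ?_ },
      fun g x => rfl⟩
    · ext x; simp
    · intro g h; ext x; simp
  obtain ⟨B', hB'⟩ : ∃ B' : LinearMap.BilinForm F L, ∀ x y : L, B' x y = B (x : V) (y : V) :=
    ⟨B.restrict L, fun x y => rfl⟩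
  have hB'nd : B'.Nondegenerate := by
    apply LinearMap.BilinForm.Nondegenerate.ofSeparatingLeft
    intro x hx
    apply Subtype.ext
    apply hB.1
    intro v
    have hv : v ∈ L ⊔ W := by rw [hLW.sup_eq_top]; trivial
    obtain ⟨l, hl, w, hw, rfl⟩ := Submodule.mem_sup.mp hv
    rw [map_add, horth2 w hw _ x.2, add_zero]
    have h0 := hx ⟨l, hl⟩
    rwa [hB'] at h0
  have hB'inv : ∀ g x y, B' (ρ' g x) (ρ' g y) = B' x y := by
    intro g x y; rw [hB', hB', hρ', hρ', hBinv]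
  have hfix' : ∀ x : L, (∀ g, ρ' g x = x) → x = 0 := by
    intro x hx
    apply Subtype.ext
    have h1 : (x : V) ∈ W := by
      rw [hW]; intro g; rw [← hρ', hx g]
    rw [← he3 _ h1]; exact (hL _).mp x.2
  obtain ⟨A', hA'1, hA'2, hA'3⟩ :=
    selfdual_two_alt hG (finrank F L) L ρ' B' rfl hB'nd hB'inv hfix'
  obtain ⟨πL, hπL⟩ : ∃ πL : V →ₗ[F] L, ∀ x, ((πL x : L) : V) = x - e₀ x := by
    refine ⟨((LinearMap.id : V →ₗ[F] V) - e₀).codRestrict L ?_, fun x => rfl⟩
    intro x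
    rw [hL]
    show e₀ (x - e₀ x) = 0
    rw [map_sub, he3 _ (he2 x), sub_self]
  have hπLid : ∀ x : L, πL (x : V) = x := by
    intro x
    apply Subtype.ext
    rw [hπL, (hL _).mp x.2, sub_zero]
  have hπLρ : ∀ g z, πL (ρ g z) = ρ' g (πL z) := by
    intro g z
    apply Subtype.ext
    rw [hπL, hρ', hπL, he1, map_sub]
  obtain ⟨S₀, hS₀sym, hS₀nd⟩ := exists_symm_nondeg_form (F := F) W
  obtain ⟨πW, hπW⟩ : ∃ πW : V →ₗ[F] W, ∀ x, ((πW x : W) : V) = e₀ x :=
    ⟨e₀.codRestrict W he2, fun x => rfl⟩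
  have hπWid : ∀ x : W, πW (x : V) = x := by
    intro x
    apply Subtype.ext
    rw [hπW, he3 _ x.2]
  obtain ⟨A, hA⟩ : ∃ A : LinearMap.BilinForm F V, ∀ x y, A x y = A' (πL x) (πL y) :=
    ⟨A'.compl₁₂ πL πL, fun x y => rfl⟩
  obtain ⟨S, hS⟩ : ∃ S : LinearMap.BilinForm F V, ∀ x y, S x y = S₀ (πW x) (πW y) :=
    ⟨S₀.compl₁₂ πW πW, fun x y => rfl⟩
  refine ⟨L, W, hLW, hLinv, hWinv, ⟨A, ?_, ?_, ?_⟩, ⟨S, ?_, ?_, ?_⟩,
    fun g w hw => (hW w).mp hw g⟩
  · intro x; rw [hA, hA'1]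
  · intro g x _ y _
    rw [hA, hA, hπLρ, hπLρ, hA'2]
  · intro x hx hxy
    have h1 : πL x = 0 := by
      apply hA'3
      intro y
      have h2 := hxy (y : V) y.2
      rw [hA, hπLid] at h2
      exact h2
    have h2 := hπLid ⟨x, hx⟩
    have h3 : (⟨x, hx⟩ : L) = 0 := by rw [← h2]; exact h1
    exact congrArg Subtype.val h3
  · intro x y; rw [hS, hS, hS₀sym]
  · intro g x hx y hy
    rw [(hW x).mp hx g, (hW y).mp hy g]
  · intro x hx hxy
    have h1 : πW x = 0 := by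
      apply hS₀nd
      intro y
      have h2 := hxy (y : V) y.2
      rw [hS, hπWid] at h2
      exact h2
    have h2 := hπWid ⟨x, hx⟩
    have h3 : (⟨x, hx⟩ : W) = 0 := by rw [← h2]; exact h1
    exact congrArg Subtype.val h3

end CharTwo

/-- a self-dual coprime module is the sum of a symplectic and an orthogonal module (`S4966`) -/
theorem selfdual_decomp [Finite G] (p : ℕ) [Fact p.Prime] [CharP F p]
    (hcop : ¬ p ∣ Nat.card G) {V : Type*} [AddCommGroup V] [Module F V] [FiniteDimensional F V]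
    (ρ : Representation F G V) (B : LinearMap.BilinForm F V) (hB : B.Nondegenerate)
    (hBinv : ∀ g : G, ∀ x y : V, B (ρ g x) (ρ g y) = B x y) :
    ∃ U W : Submodule F V, IsCompl U W ∧ (∀ g : G, ∀ u ∈ U, ρ g u ∈ U) ∧
      (∀ g : G, ∀ w ∈ W, ρ g w ∈ W) ∧
      (∃ A : LinearMap.BilinForm F V, (∀ x : V, A x x = 0) ∧
        (∀ g : G, ∀ x ∈ U, ∀ y ∈ U, A (ρ g x) (ρ g y) = A x y) ∧
        (∀ x ∈ U, (∀ y ∈ U, A x y = 0) → x = 0)) ∧
      (∃ S : LinearMap.BilinForm F V, (∀ x y : V, S x y = S y x) ∧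
        (∀ g : G, ∀ x ∈ W, ∀ y ∈ W, S (ρ g x) (ρ g y) = S x y) ∧
        (∀ x ∈ W, (∀ y ∈ W, S x y = 0) → x = 0)) ∧
      (p = 2 → ∀ g : G, ∀ w ∈ W, ρ g w = w) := by
  have hG : (Nat.card G : F) ≠ 0 := by
    rw [Ne, CharP.cast_eq_zero_iff F p]; exact hcop
  by_cases hp : p = 2
  · subst hp
    obtain ⟨U, W, h1, h2, h3, h4, h5, h6⟩ := selfdual_two hG ρ B hB hBinv
    exact ⟨U, W, h1, h2, h3, h4, h5, fun _ => h6⟩
  · have h2 : (2 : F) ≠ 0 := by
      intro h0
      have h1 : ((2 : ℕ) : F) = 0 := by exact_mod_cast h0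
      rw [CharP.cast_eq_zero_iff F p] at h1
      exact hp ((Nat.prime_dvd_prime_iff_eq Fact.out Nat.prime_two).mp h1)
    obtain ⟨U, W, h1, h3, h4, h5, h6⟩ := selfdual_odd h2 ρ B hB hBinv
    exact ⟨U, W, h1, h3, h4, h5, h6, fun h => absurd h hp⟩

end SelfDual

end Cfsg.Agent.Helper26
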