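import Mathlib
import Cfsg.Agent.Helper26.SelfDual

set_option autoImplicit false

namespace Cfsg.Agent.Helper26

open Module
open scoped IsMulCommutative

universe v

section IrrAbelian

variable {F : Type*} [Field F] [Finite F] {H : Type*} [CommGroup H]
  {V : Type v} [AddCommGroup V] [Module F V] [FiniteDimensional F V]

/-- an irreducible representation of an abelian group over a finite field: the algebra generated
by the group is a finite field acting regularly on the nonzero vectors -/
theorem irr_abelian_field (ρ : Representation F H V)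
    (hirr : ∀ U : Submodule F V, (∀ h : H, ∀ u ∈ U, ρ h u ∈ U) → U = ⊥ ∨ U = ⊤)
    (hV : Nontrivial V) :
    ∃ (L : Type v) (_ : Field L) (_ : Algebra F L) (_ : Finite L)
      (φ : L →ₐ[F] Module.End F V) (ρ' : H →* L),
      (∀ h, φ (ρ' h) = ρ h) ∧ Algebra.adjoin F (Set.range ρ') = ⊤ ∧
      (∀ v : V, v ≠ 0 → Function.Bijective (fun a : L => φ a v)) := by
  classical
  have hcomm : ∀ a ∈ Set.range ρ, ∀ b ∈ Set.range ρ, a * b = b * a := by
    rintro _ ⟨h, rfl⟩ _ ⟨h', rfl⟩
    rw [← map_mul, ← map_mul, mul_comm]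
  haveI := Algebra.isMulCommutative_adjoin F hcomm
  obtain ⟨A, hA⟩ : ∃ A : Subalgebra F (Module.End F V), A = Algebra.adjoin F (Set.range ρ) :=
    ⟨_, rfl⟩
  haveI : IsMulCommutative A := by rw [hA]; infer_instance
  have hρA : ∀ h, ρ h ∈ A := fun h => by rw [hA]; exact Algebra.subset_adjoin ⟨h, rfl⟩
  have hAc : ∀ a ∈ A, ∀ b ∈ A, a * b = b * a := by
    intro a ha b hb
    have := mul_comm (⟨a, ha⟩ : A) ⟨b, hb⟩
    exact congrArg Subtype.val this
  -- key: an element of `A` killing a nonzero vector is zero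
  have key : ∀ a ∈ A, ∀ v : V, v ≠ 0 → a v = 0 → a = 0 := by
    intro a ha v hv hav
    have hinv : ∀ h : H, ∀ u ∈ LinearMap.ker a, ρ h u ∈ LinearMap.ker a := by
      intro h u hu
      rw [LinearMap.mem_ker] at hu ⊢
      have e : a (ρ h u) = ρ h (a u) := by
        rw [← Module.End.mul_apply, ← Module.End.mul_apply, hAc a ha (ρ h) (hρA h)]
      rw [e, hu, map_zero]
    rcases hirr _ hinv with h0 | h0
    · exfalso
      have : v ∈ LinearMap.ker a := LinearMap.mem_ker.mpr hav
      rw [h0] at this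
      exact hv ((Submodule.mem_bot F).mp this)
    · exact LinearMap.ker_eq_top.mp h0
  haveI : Finite V := Module.finite_of_finite F
  haveI : Finite (Module.End F V) := Finite.of_injective (fun f : Module.End F V => (f : V → V))
    DFunLike.coe_injective
  haveI : Finite A := Subtype.finite
  haveI : Fintype A := Fintype.ofFinite A
  haveI : Nontrivial A := by
    obtain ⟨v, hv⟩ := exists_ne (0 : V)
    refine ⟨⟨1, 0, ?_⟩⟩
    intro h0
    have h1 := congrArg (fun a : A => (a : Module.End F V) v) h0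
    simp at h1
    exact hv h1
  haveI : NoZeroDivisors A := by
    refine ⟨?_⟩
    intro a b hab
    by_cases hb : b = 0
    · right; exact hb
    · left
      have hb' : (b : Module.End F V) ≠ 0 := fun h0 => hb (Subtype.ext h0)
      obtain ⟨v, hv⟩ : ∃ v, (b : Module.End F V) v ≠ 0 := by
        by_contra hne
        apply hb'
        ext v
        by_contra h1
        exact hne ⟨v, h1⟩
      have h1 : (a : Module.End F V) ((b : Module.End F V) v) = 0 := by
        have h2 := congrArg (fun c : A => (c : Module.End F V) v) hab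
        simpa using h2
      exact Subtype.ext (key a a.2 _ hv h1)
  haveI : IsDomain A := NoZeroDivisors.to_isDomain A
  letI : Field A := (Finite.isField_of_domain A).toField
  refine ⟨A, inferInstance, inferInstance, inferInstance, A.val,
    { toFun := fun h => ⟨ρ h, hρA h⟩, map_one' := ?_, map_mul' := ?_ }, ?_, ?_, ?_⟩
  · apply Subtype.ext; simp
  · intro h h'; apply Subtype.ext; simp
  · intro h; rfl
  · have e : Set.range (fun h : H => (⟨ρ h, hρA h⟩ : A)) =
        ((↑) : A → Module.End F V) ⁻¹' (Set.range ρ) := by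
      ext a
      constructor
      · rintro ⟨h, rfl⟩; exact ⟨h, rfl⟩
      · rintro ⟨h, hh⟩; exact ⟨h, Subtype.ext hh⟩
    show Algebra.adjoin F (Set.range (fun h : H => (⟨ρ h, hρA h⟩ : A))) = ⊤
    rw [e]
    subst hA
    exact Algebra.adjoin_adjoin_coe_preimage
  · intro v hv
    constructor
    · intro a b hab
      have h1 : ((a : Module.End F V) - (b : Module.End F V)) v = 0 := by
        rw [LinearMap.sub_apply]; exact sub_eq_zero.mpr hab
      have h2 := key _ (A.sub_mem a.2 b.2) v hv h1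
      exact Subtype.ext (sub_eq_zero.mp h2)
    · intro w
      obtain ⟨R, hR⟩ : ∃ R : Submodule F V, ∀ x, x ∈ R ↔ ∃ a : A, (a : Module.End F V) v = x := by
        refine ⟨LinearMap.range ((LinearMap.applyₗ v : Module.End F V →ₗ[F] V) ∘ₗ A.val.toLinearMap),
          fun x => ?_⟩
        rw [LinearMap.mem_range]
        rfl
      have hRinv : ∀ h : H, ∀ u ∈ R, ρ h u ∈ R := by
        intro h u hu
        rw [hR] at hu ⊢
        obtain ⟨a, rfl⟩ := hu
        exact ⟨⟨ρ h * a, A.mul_mem (hρA h) a.2⟩, rfl⟩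
      rcases hirr R hRinv with h0 | h0
      · exfalso
        have : v ∈ R := (hR v).mpr ⟨1, by simp⟩
        rw [h0] at this
        exact hv ((Submodule.mem_bot F).mp this)
      · have : w ∈ R := by rw [h0]; trivial
        exact (hR w).mp this

end IrrAbelian

section Main

variable {F : Type*} [Field F] [Fintype F] {H : Type*} [CommGroup H] [Finite H]
  {V : Type v} [AddCommGroup V] [Module F V] [FiniteDimensional F V]

omit [Fintype F] [Finite H] in
theorem irr_abelian_dim_one (ρ : Representation F H V) (hfaith : Function.Injective ρ)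
    (h1 : finrank F V = 1) (B : LinearMap.BilinForm F V) (hB : B.Nondegenerate)
    (hBinv : ∀ h x y, B (ρ h x) (ρ h y) = B x y) : Nat.card H ≤ 2 := by
  classical
  obtain ⟨v, hv, hspan⟩ := finrank_eq_one_iff'.mp h1
  have hBv : B v v ≠ 0 := by
    intro h0
    apply hv
    apply hB.1
    intro y
    obtain ⟨c, rfl⟩ := hspan y
    rw [map_smul, h0, smul_zero]
  have hlam : ∀ h : H, ∃ c : F, c • v = ρ h v := fun h => hspan (ρ h v)
  choose lam hlam' using hlam
  have hsq : ∀ h, lam h = 1 ∨ lam h = -1 := by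
    intro h
    have h2 := hBinv h v v
    rw [← hlam'] at h2
    simp only [map_smul, LinearMap.smul_apply, smul_eq_mul] at h2
    have h3 : (lam h * lam h - 1) * B v v = 0 := by linear_combination h2
    rcases mul_eq_zero.mp h3 with h4 | h4
    · have h5 : (lam h - 1) * (lam h + 1) = 0 := by linear_combination h4
      rcases mul_eq_zero.mp h5 with h6 | h6
      · left; exact sub_eq_zero.mp h6
      · right; exact eq_neg_of_add_eq_zero_left h6
    · exact absurd h4 hBv
  have hinj : Function.Injective (fun h : H => decide (lam h = 1)) := by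
    intro h h' hh
    have hh' : lam h = 1 ↔ lam h' = 1 := by simpa using hh
    have hl : lam h = lam h' := by
      rcases hsq h with e | e
      · rw [e]; exact (hh'.mp e).symm
      · rcases hsq h' with e' | e'
        · rw [hh'.mpr e', e']
        · rw [e, e']
    apply hfaith
    ext x
    obtain ⟨c, rfl⟩ := hspan x
    rw [map_smul, map_smul, ← hlam', ← hlam', hl]
  have h5 := Nat.card_le_card_of_injective _ hinj
  simpa using h5

theorem irr_abelian_selfdual_imp (ρ : Representation F H V) (hfaith : Function.Injective ρ)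
    (hirr : ∀ U : Submodule F V, (∀ h : H, ∀ u ∈ U, ρ h u ∈ U) → U = ⊥ ∨ U = ⊤)
    (h2 : 2 ≤ finrank F V) (B : LinearMap.BilinForm F V) (hB : B.Nondegenerate)
    (hBinv : ∀ h x y, B (ρ h x) (ρ h y) = B x y) :
    Even (finrank F V) ∧ Nat.card H ∣ Fintype.card F ^ (finrank F V / 2) + 1 := by
  have hV : Nontrivial V := Module.nontrivial_of_finrank_pos (R := F) (by omega)
  obtain ⟨L, _, _, _, φ, ρ', hφρ, hadj, hbij⟩ := irr_abelian_field ρ hirr hV
  obtain ⟨v₀, hv₀⟩ := exists_ne (0 : V)
  have hφinj : Function.Injective φ := by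
    intro a b hab
    exact (hbij v₀ hv₀).1 (by show φ a v₀ = φ b v₀; rw [hab])
  have hfr : finrank F L = finrank F V := by
    have e : L ≃ₗ[F] V := LinearEquiv.ofBijective
      ((LinearMap.applyₗ v₀ : Module.End F V →ₗ[F] V) ∘ₗ φ.toLinearMap) (hbij v₀ hv₀)
    exact e.finrank_eq
  have hP : ∀ a : L, ∃ a' : L, ∀ x y, B (φ a' x) y = B x (φ a y) := by
    intro a
    have ha : a ∈ Algebra.adjoin F (Set.range ρ') := by rw [hadj]; trivial
    induction ha using Algebra.adjoin_induction with
    | mem a ha =>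
      obtain ⟨h, rfl⟩ := ha
      refine ⟨ρ' h⁻¹, fun x y => ?_⟩
      rw [hφρ, hφρ, ← hBinv h (ρ h⁻¹ x) y, rep_apply_inv]
    | algebraMap c =>
      refine ⟨algebraMap F L c, fun x y => ?_⟩
      simp [AlgHom.commutes, Module.algebraMap_end_apply]
    | add a b _ _ iha ihb =>
      obtain ⟨a', ha'⟩ := iha
      obtain ⟨b', hb'⟩ := ihb
      refine ⟨a' + b', fun x y => ?_⟩
      simp only [map_add, LinearMap.add_apply, ha', hb']
    | mul a b _ _ iha ihb =>
      obtain ⟨a', ha'⟩ := iha
      obtain ⟨b', hb'⟩ := ihb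
      refine ⟨a' * b', fun x y => ?_⟩
      rw [map_mul, Module.End.mul_apply, ha', hb', ← Module.End.mul_apply, ← map_mul, mul_comm b a]
  have huniq : ∀ a a₁ a₂ : L, (∀ x y, B (φ a₁ x) y = B x (φ a y)) →
      (∀ x y, B (φ a₂ x) y = B x (φ a y)) → a₁ = a₂ := by
    intro a a₁ a₂ h1 h2
    apply hφinj
    ext x
    have h3 : ∀ y, B (φ a₁ x - φ a₂ x) y = 0 := by
      intro y; rw [map_sub, LinearMap.sub_apply, h1, h2, sub_self]
    exact sub_eq_zero.mp (hB.1 _ h3)
  choose σf hσf using hP
  obtain ⟨σ, hσ⟩ : ∃ σ : L →ₐ[F] L, ∀ a, σ a = σf a := by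
    refine ⟨{ toFun := σf
              map_one' := ?_
              map_mul' := ?_
              map_zero' := ?_
              map_add' := ?_
              commutes' := ?_ }, fun a => rfl⟩
    · exact huniq 1 _ _ (hσf 1) (fun x y => by simp)
    · intro a b
      apply huniq (a * b) _ _ (hσf (a * b))
      intro x y
      rw [map_mul, Module.End.mul_apply, hσf, hσf, ← Module.End.mul_apply, ← map_mul, mul_comm b a]
    · exact huniq 0 _ _ (hσf 0) (fun x y => by simp)
    · intro a b
      apply huniq (a + b) _ _ (hσf (a + b))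
      intro x y
      simp only [map_add, LinearMap.add_apply, hσf]
    · intro c
      apply huniq (algebraMap F L c) _ _ (hσf _)
      intro x y
      simp [AlgHom.commutes, Module.algebraMap_end_apply]
  have hσρ : ∀ h, σ (ρ' h) = ρ' h⁻¹ := by
    intro h
    rw [hσ]
    apply huniq (ρ' h) _ _ (hσf _)
    intro x y
    rw [hφρ, hφρ, ← hBinv h (ρ h⁻¹ x) y, rep_apply_inv]
  obtain ⟨⟨j, hjlt⟩, hj0⟩ := (FiniteField.bijective_frobeniusAlgHom_pow F L).2 σ
  have hj : FiniteField.frobeniusAlgHom F L ^ j = σ := hj0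
  clear hj0
  have hj' : ∀ a : L, σ a = a ^ (Fintype.card F ^ j) := by
    intro a
    have h0 := congrArg (fun τ : L →ₐ[F] L => τ a) hj
    simp only [AlgHom.coe_pow, FiniteField.coe_frobeniusAlgHom, pow_iterate] at h0
    exact h0.symm
  have hσσ : σ * σ = 1 := by
    apply AlgHom.ext_of_adjoin_eq_top hadj
    rintro _ ⟨h, rfl⟩
    rw [AlgHom.mul_apply, hσρ, hσρ, inv_inv, AlgHom.one_apply]
  have hord : finrank F L ∣ 2 * j := by
    rw [← FiniteField.orderOf_frobeniusAlgHom F L]
    apply orderOf_dvd_of_pow_eq_one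
    rw [mul_comm, pow_mul, hj, pow_two]
    exact hσσ
  have hρ'inj : Function.Injective ρ' := by
    intro h h' hh
    apply hfaith
    rw [← hφρ, ← hφρ, hh]
  by_cases hj0 : j = 0
  · exfalso
    have hsq : ∀ h, ρ h = 1 ∨ ρ h = -1 := by
      intro h
      have h1 := hσρ h
      rw [hj', hj0, pow_zero, pow_one] at h1
      have h2 : ρ' h * ρ' h = 1 := by
        have h3 : ρ' h * ρ' h⁻¹ = 1 := by rw [← map_mul, mul_inv_cancel, map_one]
        rw [← h1] at h3; exact h3
      have h3 : (ρ' h - 1) * (ρ' h + 1) = 0 := by linear_combination h2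
      rcases mul_eq_zero.mp h3 with h4 | h4
      · left; rw [← hφρ, sub_eq_zero.mp h4, map_one]
      · right; rw [← hφρ, eq_neg_of_add_eq_zero_left h4, map_neg, map_one]
    have hinv : ∀ h : H, ∀ u ∈ Submodule.span F {v₀}, ρ h u ∈ Submodule.span F {v₀} := by
      intro h u hu
      rcases hsq h with e | e
      · rw [e]; exact hu
      · rw [e]; simpa using hu
    rcases hirr _ hinv with h0 | h0
    · have h5 := Submodule.mem_span_singleton_self (R := F) v₀
      rw [h0] at h5
      exact hv₀ ((Submodule.mem_bot F).mp h5)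
    · have h5 : finrank F (Submodule.span F {v₀}) = 1 := finrank_span_singleton hv₀
      rw [h0, finrank_top] at h5
      omega
  · have hjpos : 0 < j := Nat.pos_of_ne_zero hj0
    have h2j : 2 * j = finrank F L := by
      obtain ⟨m, hm⟩ := hord
      have hm1 : m = 1 := by
        rcases Nat.lt_or_ge m 1 with h0 | h0
        · have : m = 0 := by omega
          rw [this] at hm; omega
        · rcases Nat.lt_or_ge 1 m with h1 | h1
          · nlinarith
          · omega
      rw [hm, hm1, mul_one]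
    refine ⟨⟨j, by rw [← hfr, ← h2j]; ring⟩, ?_⟩
    have hdiv : finrank F V / 2 = j := by rw [← hfr, ← h2j]; simp
    rw [hdiv]
    haveI : IsCyclic H := isCyclic_of_injective_ringHom ρ' hρ'inj
    obtain ⟨g, hg⟩ := IsCyclic.exists_ofOrder_eq_natCard (α := H)
    rw [← hg]
    apply orderOf_dvd_of_pow_eq_one
    apply hρ'inj
    rw [map_pow, map_one, pow_succ, ← hj', hσρ, ← map_mul, inv_mul_cancel, map_one]

omit [Finite H] in
theorem irr_abelian_selfdual_of (ρ : Representation F H V)
    (hirr : ∀ U : Submodule F V, (∀ h : H, ∀ u ∈ U, ρ h u ∈ U) → U = ⊥ ∨ U = ⊤)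
    (h2 : 2 ≤ finrank F V)
    (hdvd : Nat.card H ∣ Fintype.card F ^ (finrank F V / 2) + 1) :
    ∃ B : LinearMap.BilinForm F V, B.Nondegenerate ∧ ∀ h x y, B (ρ h x) (ρ h y) = B x y := by
  have hV : Nontrivial V := Module.nontrivial_of_finrank_pos (R := F) (by omega)
  obtain ⟨L, _, _, _, φ, ρ', hφρ, hadj, hbij⟩ := irr_abelian_field ρ hirr hV
  obtain ⟨v₀, hv₀⟩ := exists_ne (0 : V)
  obtain ⟨ev, hev⟩ : ∃ ev : L ≃ₗ[F] V, ∀ a, ev a = φ a v₀ :=
    ⟨LinearEquiv.ofBijective
      ((LinearMap.applyₗ v₀ : Module.End F V →ₗ[F] V) ∘ₗ φ.toLinearMap) (hbij v₀ hv₀),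
      fun a => rfl⟩
  obtain ⟨k, hk⟩ : ∃ k, k = finrank F V / 2 := ⟨_, rfl⟩
  rw [← hk] at hdvd
  obtain ⟨ψ, hψ⟩ : ∃ ψ : L →ₐ[F] L, ∀ a, ψ a = a ^ (Fintype.card F ^ k) := by
    refine ⟨(FiniteField.frobeniusAlgHom F L) ^ k, fun a => ?_⟩
    rw [AlgHom.coe_pow, FiniteField.coe_frobeniusAlgHom, pow_iterate]
  have hψbij : Function.Bijective ψ := by
    have hinj : Function.Injective ψ := ψ.toRingHom.injective
    exact ⟨hinj, Finite.surjective_of_injective hinj⟩
  obtain ⟨f, hf⟩ : ∃ f : Module.Dual F V, f v₀ ≠ 0 := by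
    by_contra hne
    apply hv₀
    apply (Module.forall_dual_apply_eq_zero_iff F v₀).mp
    intro f
    by_contra h0
    exact hne ⟨f, h0⟩
  obtain ⟨B, hBdef⟩ : ∃ B : LinearMap.BilinForm F V,
      ∀ x y, B x y = f (ev (ev.symm x * ψ (ev.symm y))) := by
    refine ⟨((LinearMap.mul F L).compl₁₂ ev.symm.toLinearMap
      (ψ.toLinearMap ∘ₗ ev.symm.toLinearMap)).compr₂ (f ∘ₗ ev.toLinearMap), fun x y => rfl⟩
  have hevρ : ∀ h x, ev.symm (ρ h x) = ρ' h * ev.symm x := by
    intro h x
    apply ev.injective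
    rw [LinearEquiv.apply_symm_apply, hev, map_mul, Module.End.mul_apply, hφρ, ← hev,
      LinearEquiv.apply_symm_apply]
  have hpow : ∀ h, ρ' h * ψ (ρ' h) = 1 := by
    intro h
    rw [hψ, ← pow_succ', ← map_pow]
    obtain ⟨m, hm⟩ := hdvd
    rw [hm, pow_mul, pow_card_eq_one', one_pow, map_one]
  refine ⟨B, ?_, ?_⟩
  · apply LinearMap.BilinForm.Nondegenerate.ofSeparatingLeft
    intro x hx
    by_contra hx0
    have ha : ev.symm x ≠ 0 := fun h0 => hx0 (by simpa using congrArg ev h0)
    apply hf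
    obtain ⟨b, hb⟩ := hψbij.2 ((ev.symm x)⁻¹ * ev.symm v₀)
    have h5 := hx (ev b)
    rw [hBdef, LinearEquiv.symm_apply_apply, hb, ← mul_assoc, mul_inv_cancel₀ ha, one_mul,
      LinearEquiv.apply_symm_apply] at h5
    exact h5
  · intro h x y
    rw [hBdef, hBdef, hevρ, hevρ, map_mul ψ]
    have e : ρ' h * ev.symm x * (ψ (ρ' h) * ψ (ev.symm y)) =
        (ρ' h * ψ (ρ' h)) * (ev.symm x * ψ (ev.symm y)) := by ring
    rw [e, hpow, one_mul]

/-- self-dual faithful irreducible modules of abelian groups over finite fields (`S4967`) -/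
theorem irr_abelian_selfdual (ρ : Representation F H V) (hfaith : Function.Injective ρ)
    (hirr : ∀ U : Submodule F V, (∀ h : H, ∀ u ∈ U, ρ h u ∈ U) → U = ⊥ ∨ U = ⊤) :
    (finrank F V = 1 → (∃ B : LinearMap.BilinForm F V, B.Nondegenerate ∧
        ∀ h : H, ∀ x y : V, B (ρ h x) (ρ h y) = B x y) → Nat.card H ≤ 2) ∧
    (2 ≤ finrank F V → ((∃ B : LinearMap.BilinForm F V, B.Nondegenerate ∧
        ∀ h : H, ∀ x y : V, B (ρ h x) (ρ h y) = B x y) ↔
      (Even (finrank F V) ∧ Nat.card H ∣ Fintype.card F ^ (finrank F V / 2) + 1))) := by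
  refine ⟨fun h1 ⟨B, hB, hBinv⟩ => irr_abelian_dim_one ρ hfaith h1 B hB hBinv, fun h2 =>
    ⟨fun ⟨B, hB, hBinv⟩ => irr_abelian_selfdual_imp ρ hfaith hirr h2 B hB hBinv,
      fun ⟨_, hd⟩ => irr_abelian_selfdual_of ρ hirr h2 hd⟩⟩

end Main

end Cfsg.Agent.Helper26
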