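import Mathlib

set_option autoImplicit false

namespace Cfsg.Agent.Helper26

open scoped commutatorElement

/-- the normal closure of an abelian subgroup of a non-abelian nilpotent group has smaller class -/
theorem normalClosure_class_lt {P : Type*} [Group P] [Group.IsNilpotent P]
    (hna : ¬ IsMulCommutative P) {E : Subgroup P} (hE : IsMulCommutative ↥E) :
    Group.nilpotencyClass ↥(Subgroup.normalClosure (E : Set P)) < Group.nilpotencyClass P := by
  classical
  -- class ≥ 2
  have hc2 : 2 ≤ Group.nilpotencyClass P := by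
    by_contra hlt
    have h1 : Group.nilpotencyClass P ≤ 1 := by omega
    rw [← Subgroup.lowerCentralSeries_eq_bot_iff_nilpotencyClass_le] at h1
    apply hna
    constructor
    constructor
    intro a b
    have h2 : ⁅a, b⁆ ∈ (⊤ : Subgroup P).lowerCentralSeries 1 := by
      show ⁅a, b⁆ ∈ ⁅(⊤ : Subgroup P), (⊤ : Subgroup P)⁆
      exact Subgroup.commutator_mem_commutator (Subgroup.mem_top a) (Subgroup.mem_top b)
    rw [h1, Subgroup.mem_bot] at h2
    exact commutatorElement_eq_one_iff_mul_comm.mp h2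
  obtain ⟨N, hN⟩ : ∃ N : Subgroup P, N = Subgroup.normalClosure (E : Set P) := ⟨_, rfl⟩
  rw [← hN]
  obtain ⟨K, hK⟩ : ∃ K : Subgroup P, K = (⊤ : Subgroup P).lowerCentralSeries 2 := ⟨_, rfl⟩
  haveI hKn : K.Normal := by rw [hK]; infer_instance
  obtain ⟨π, hπ⟩ : ∃ π : P →* P ⧸ K, π = QuotientGroup.mk' K := ⟨_, rfl⟩
  have hker : ∀ x : P, π x = 1 ↔ x ∈ K := by
    intro x
    rw [hπ]
    exact QuotientGroup.eq_one_iff x
  have hcen : ∀ a b z : P, π ⁅a, b⁆ * π z = π z * π ⁅a, b⁆ := by
    intro a b z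
    have h1 : ⁅⁅a, b⁆, z⁆ ∈ K := by
      rw [hK]
      show ⁅⁅a, b⁆, z⁆ ∈ ⁅⁅(⊤ : Subgroup P), (⊤ : Subgroup P)⁆, (⊤ : Subgroup P)⁆
      exact Subgroup.commutator_mem_commutator
        (Subgroup.commutator_mem_commutator (Subgroup.mem_top a) (Subgroup.mem_top b))
        (Subgroup.mem_top z)
    rw [← hker, map_commutatorElement] at h1
    exact commutatorElement_eq_one_iff_mul_comm.mp h1
  -- conjugates of elements of `E` commute modulo `K`
  have hA : ∀ s ∈ Group.conjugatesOfSet (E : Set P), ∀ t ∈ Group.conjugatesOfSet (E : Set P),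
      π s * π t = π t * π s := by
    intro s hs t ht
    rw [Group.mem_conjugatesOfSet_iff] at hs ht
    obtain ⟨e, he, hes⟩ := hs
    obtain ⟨e', he', het⟩ := ht
    obtain ⟨c, rfl⟩ := isConj_iff.mp hes
    obtain ⟨d, rfl⟩ := isConj_iff.mp het
    have e1 : c * e * c⁻¹ = ⁅c, e⁆ * e := by rw [commutatorElement_def]; group
    have e2 : d * e' * d⁻¹ = ⁅d, e'⁆ * e' := by rw [commutatorElement_def]; group
    have hee : e * e' = e' * e := by
      have := hE.is_comm.comm ⟨e, he⟩ ⟨e', he'⟩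
      exact congrArg Subtype.val this
    have hee' : π e * π e' = π e' * π e := by rw [← map_mul, ← map_mul, hee]
    rw [e1, e2, map_mul, map_mul]
    calc π ⁅c, e⁆ * π e * (π ⁅d, e'⁆ * π e')
        = π ⁅c, e⁆ * (π e * π ⁅d, e'⁆) * π e' := by group
      _ = π ⁅c, e⁆ * (π ⁅d, e'⁆ * π e) * π e' := by rw [hcen d e' e]
      _ = (π ⁅c, e⁆ * π ⁅d, e'⁆) * (π e * π e') := by group
      _ = (π ⁅d, e'⁆ * π ⁅c, e⁆) * (π e' * π e) := by rw [hcen c e ⁅d, e'⁆, hee']
      _ = π ⁅d, e'⁆ * (π ⁅c, e⁆ * π e') * π e := by group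
      _ = π ⁅d, e'⁆ * (π e' * π ⁅c, e⁆) * π e := by rw [hcen c e e']
      _ = π ⁅d, e'⁆ * π e' * (π ⁅c, e⁆ * π e) := by group
  have hNcl : N = Subgroup.closure (Group.conjugatesOfSet (E : Set P)) := by rw [hN]; rfl
  have hB : ∀ x ∈ N, ∀ t ∈ Group.conjugatesOfSet (E : Set P), π t * π x = π x * π t := by
    intro x hx
    have hle : N ≤ (Subgroup.centralizer (π '' Group.conjugatesOfSet (E : Set P))).comap π := by
      rw [hNcl, Subgroup.closure_le]
      intro s hs
      show π s ∈ Subgroup.centralizer (π '' Group.conjugatesOfSet (E : Set P))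
      rw [Subgroup.mem_centralizer_iff]
      rintro _ ⟨t, ht, rfl⟩
      exact hA t ht s hs
    intro t ht
    have h1 : π x ∈ Subgroup.centralizer (π '' Group.conjugatesOfSet (E : Set P)) := hle hx
    rw [Subgroup.mem_centralizer_iff] at h1
    exact h1 _ ⟨t, ht, rfl⟩
  have hC : ∀ x ∈ N, ∀ y ∈ N, π x * π y = π y * π x := by
    intro x hx
    have hle : N ≤ (Subgroup.centralizer ({π x} : Set (P ⧸ K))).comap π := by
      rw [hNcl, Subgroup.closure_le]
      intro s hs
      show π s ∈ Subgroup.centralizer ({π x} : Set (P ⧸ K))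
      rw [Subgroup.mem_centralizer_singleton_iff]
      exact hB x hx s hs
    intro y hy
    have h1 : π y ∈ Subgroup.centralizer ({π x} : Set (P ⧸ K)) := hle hy
    rw [Subgroup.mem_centralizer_singleton_iff] at h1
    exact h1.symm
  have hNN : ∀ x ∈ N, ∀ y ∈ N, ⁅x, y⁆ ∈ K := by
    intro x hx y hy
    rw [← hker, map_commutatorElement]
    exact commutatorElement_eq_one_iff_mul_comm.mpr (hC x hx y hy)
  -- the lower central series of `N` is one step ahead
  have hlcs : ∀ k : ℕ, ((⊤ : Subgroup ↥N).lowerCentralSeries (k + 1)).map N.subtype ≤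
      (⊤ : Subgroup P).lowerCentralSeries (k + 2) := by
    intro k
    induction k with
    | zero =>
      show (⁅(⊤ : Subgroup ↥N), (⊤ : Subgroup ↥N)⁆).map N.subtype ≤
        (⊤ : Subgroup P).lowerCentralSeries 2
      rw [Subgroup.map_commutator, ← hK, Subgroup.commutator_le]
      rintro _ ⟨x, -, rfl⟩ _ ⟨y, -, rfl⟩
      exact hNN _ x.2 _ y.2
    | succ k ih =>
      show (⁅(⊤ : Subgroup ↥N).lowerCentralSeries (k + 1), (⊤ : Subgroup ↥N)⁆).map N.subtype ≤
        ⁅(⊤ : Subgroup P).lowerCentralSeries (k + 2), (⊤ : Subgroup P)⁆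
      rw [Subgroup.map_commutator]
      exact Subgroup.commutator_mono ih le_top
  obtain ⟨c, hc⟩ : ∃ c : ℕ, Group.nilpotencyClass P = c + 2 := ⟨Group.nilpotencyClass P - 2, by omega⟩
  have h1 := hlcs c
  rw [← hc, Subgroup.lowerCentralSeries_nilpotencyClass, le_bot_iff,
    Subgroup.map_eq_bot_iff_of_injective _ N.subtype_injective,
    Subgroup.lowerCentralSeries_eq_bot_iff_nilpotencyClass_le] at h1
  omega

end Cfsg.Agent.Helper26
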