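import Mathlib
import Cfsg.Agent.Helper26.AutInv
import Cfsg.Agent.Helper26.CentricExt
import Cfsg.Agent.Helper27.FusAlperin

set_option autoImplicit false

namespace Cfsg.Agent.Helper26

open Cfsg Cfsg.FusionSystem

variable {Ω : Type*} [Group Ω] {S : Subgroup Ω}

/-- the induction proving the Frattini condition for a subsystem `E` invariant under
`Aut_F(T)`, given the case of automorphisms of fully normalized proper subgroups -/
theorem frat_induction [Finite S] (p : ℕ) [Fact p.Prime] (hS : IsPGroup p S)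
    (F : FusionSystem S) (hF : F.IsSaturated p) {T : Subgroup Ω} (E : FusionSystem T)
    (hT : F.StronglyClosed T) (hAI : AutInv F E)
    (key : ∀ U : Subgroup Ω, U ≤ T → U ≠ T → F.IsFullyNormalized U →
      (∀ R : Subgroup Ω, R ≤ T → Nat.card U < Nat.card R → ∀ ψ ∈ F.Hom R, FratX F E R ψ) →
      ∀ β ∈ F.autGroup U, FratX F E U (U.subtype.comp β.toMonoidHom)) :
    ∀ (n : ℕ) (P : Subgroup Ω), P ≤ T → Nat.card T - Nat.card P = n →
      ∀ φ ∈ F.Hom P, FratX F E P φ := by
  have hTS := hT.1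
  have hfinT : Finite T := finite_of_le hTS
  have hTp : IsPGroup p T := hS.to_le hTS
  intro n
  induction n using Nat.strong_induction_on with
  | _ n ih =>
  intro P hPT hn φ hφ
  by_cases hPeq : P = T
  · subst hPeq
    have hval : ∀ x : P, φ x ∈ P := fun x => hT.2 P le_rfl φ hφ x
    have hinj : Function.Injective (φ.codRestrict P hval) :=
      fun a b hab => F.injective_of_mem hφ (congrArg Subtype.val hab)
    obtain ⟨α, hα⟩ : ∃ α : MulAut P, ∀ x, ((α x : P) : Ω) = φ x :=
      ⟨MulEquiv.ofBijective (φ.codRestrict P hval)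
        ⟨hinj, Finite.injective_iff_surjective.mp hinj⟩, fun x => rfl⟩
    refine ⟨α, ?_, P.subtype, subtype_mem_hom E le_rfl, fun x hx => (hα x).symm⟩
    rw [mem_autGroup_iff F hTS]
    have e1 : P.subtype.comp α.toMonoidHom = φ := by
      ext x
      exact hα x
    rw [e1]
    exact hφ
  · have hPS : P ≤ S := hPT.trans hTS
    have ih' : ∀ R : Subgroup Ω, R ≤ T → Nat.card P < Nat.card R →
        ∀ ψ ∈ F.Hom R, FratX F E R ψ := by
      intro R hRT hlt ψ hψ
      have hRle : Nat.card R ≤ Nat.card T := Subgroup.card_le_of_le hRT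
      exact ih (Nat.card T - Nat.card R) (by omega) R hRT rfl ψ hψ
    obtain ⟨U, hconj, hUfn⟩ := exists_fullyNormalized F hPS
    obtain ⟨hUfc, hUfa⟩ := fullyNormalized_props p hS F hF U hUfn
    have hUrec := fullyCentralized_receptive p hS F hF U hUfc
    have hP'T : φ.range ≤ T := by
      rintro _ ⟨x, rfl⟩
      exact hT.2 P hPT φ hφ x
    have hUT : U ≤ T := by
      obtain ⟨θ, hθ, rfl⟩ := hconj
      rintro _ ⟨x, rfl⟩
      exact hT.2 P hPT θ hθ x
    have hcardU : Nat.card U = Nat.card P := by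
      obtain ⟨θ, hθ, rfl⟩ := hconj
      exact card_range_eq F hθ
    have hcardP' : Nat.card φ.range = Nat.card P := card_range_eq F hφ
    have hUne : U ≠ T := by
      intro h
      apply hPeq
      exact Subgroup.eq_of_le_of_card_ge hPT (by rw [← hcardU, h])
    have hP'ne : φ.range ≠ T := by
      intro h
      apply hPeq
      exact Subgroup.eq_of_le_of_card_ge hPT (by rw [← hcardP', h])
    have hconj' : F.IsConj φ.range U := isConj_trans F (isConj_symm F ⟨φ, hφ, rfl⟩) hconj
    obtain ⟨ν, hν, hνN, hνP⟩ := exists_normalizer_map p hS F U P hUfa hUrec hconj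
    obtain ⟨ν', hν', hν'N, hν'P⟩ := exists_normalizer_map p hS F U φ.range hUfa hUrec hconj'
    have hNle : normalizerIn T P ≤ normalizerIn S P := inf_le_inf_right _ hTS
    have hPN : P ≤ normalizerIn T P := le_normalizerIn hPT
    have hX1 : FratX F E (normalizerIn T P) (ν.comp (Subgroup.inclusion hNle)) :=
      ih' _ inf_le_left (card_lt_card_normalizerIn hTp hPT hPeq) _ (restrict_mem F hν hNle)
    have hX2 := hX1.restrict hPN
    have hN'le : normalizerIn T φ.range ≤ normalizerIn S φ.range := inf_le_inf_right _ hTS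
    have hP'N : φ.range ≤ normalizerIn T φ.range := le_normalizerIn hP'T
    have hX1' : FratX F E (normalizerIn T φ.range) (ν'.comp (Subgroup.inclusion hN'le)) :=
      ih' _ inf_le_left (by
        rw [← hcardP']
        exact card_lt_card_normalizerIn hTp hP'T hP'ne) _ (restrict_mem F hν' hN'le)
    have hX2' := hX1'.restrict hP'N
    have hν₁F : ((ν.comp (Subgroup.inclusion hNle)).comp (Subgroup.inclusion hPN)) ∈ F.Hom P :=
      restrict_mem F (restrict_mem F hν hNle) hPN
    have hν₁r : ((ν.comp (Subgroup.inclusion hNle)).comp (Subgroup.inclusion hPN)).range =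
        U := by
      rw [← hνP]
      ext y
      constructor
      · rintro ⟨x, rfl⟩
        exact ⟨⟨x, hNle (hPN x.2)⟩, by
          rw [SetLike.mem_coe, Subgroup.mem_subgroupOf]
          exact x.2, rfl⟩
      · rintro ⟨⟨z, hz⟩, hzP, rfl⟩
        rw [SetLike.mem_coe, Subgroup.mem_subgroupOf] at hzP
        exact ⟨⟨z, hzP⟩, rfl⟩
    have hν₁'F : ((ν'.comp (Subgroup.inclusion hN'le)).comp (Subgroup.inclusion hP'N)) ∈
        F.Hom φ.range := restrict_mem F (restrict_mem F hν' hN'le) hP'N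
    have hν₁'r : ((ν'.comp (Subgroup.inclusion hN'le)).comp (Subgroup.inclusion hP'N)).range =
        U := by
      rw [← hν'P]
      ext y
      constructor
      · rintro ⟨x, rfl⟩
        exact ⟨⟨x, hN'le (hP'N x.2)⟩, by
          rw [SetLike.mem_coe, Subgroup.mem_subgroupOf]
          exact x.2, rfl⟩
      · rintro ⟨⟨z, hz⟩, hzP, rfl⟩
        rw [SetLike.mem_coe, Subgroup.mem_subgroupOf] at hzP
        exact ⟨⟨z, hzP⟩, rfl⟩
    have hφ₂F := F.comp_mem hφ hν₁'F (fun x => ⟨x, rfl⟩)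
    have hφ₂r : (((ν'.comp (Subgroup.inclusion hN'le)).comp (Subgroup.inclusion hP'N)).comp
        (φ.codRestrict φ.range (fun x => ⟨x, rfl⟩))).range = U := by
      rw [← hν₁'r]
      ext y
      constructor
      · rintro ⟨x, rfl⟩
        exact ⟨_, rfl⟩
      · rintro ⟨⟨_, x, rfl⟩, rfl⟩
        exact ⟨x, rfl⟩
    obtain ⟨β, hβ, eβ⟩ := exists_aut_of_two_isos F hUfn.1 _ _ hν₁F hφ₂F hν₁r hφ₂r
    have hXβ := key U hUT hUne hUfn (fun R hRT hlt ψ hψ =>
      ih' R hRT (by rw [← hcardU]; exact hlt) ψ hψ) β hβ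
    have hν₁U : ∀ x : P,
        ((ν.comp (Subgroup.inclusion hNle)).comp (Subgroup.inclusion hPN)) x ∈ U :=
      fun x => (le_of_eq hν₁r) ⟨x, rfl⟩
    have hX3 := FratX.comp' hTS hAI hX2 hXβ hUT hν₁U
    obtain ⟨ι, hι, eι⟩ := F.inv_mem hν₁'F
    have hX4 : FratX F E ((ν'.comp (Subgroup.inclusion hN'le)).comp
        (Subgroup.inclusion hP'N)).range ι :=
      FratX.inv' hTS hAI hX2' hP'T rfl ι (fun y hy => eι y)
    have hval : ∀ x : P, ((U.subtype.comp β.toMonoidHom).comp
        (((ν.comp (Subgroup.inclusion hNle)).comp (Subgroup.inclusion hPN)).codRestrict U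
          hν₁U)) x ∈ ((ν'.comp (Subgroup.inclusion hN'le)).comp
            (Subgroup.inclusion hP'N)).range := by
      intro x
      rw [hν₁'r]
      exact (β _).2
    have hX5 := FratX.comp' hTS hAI hX3 hX4 ((le_of_eq hν₁'r).trans hUT) hval
    have e3 : ι.comp (((U.subtype.comp β.toMonoidHom).comp
        (((ν.comp (Subgroup.inclusion hNle)).comp (Subgroup.inclusion hPN)).codRestrict U
          hν₁U)).codRestrict _ hval) = φ := by
      ext x
      have h1 := eβ x (hν₁U x)
      have hxr : φ x ∈ φ.range := ⟨x, rfl⟩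
      have hmem : ((ν'.comp (Subgroup.inclusion hN'le)).comp (Subgroup.inclusion hP'N))
          ⟨φ x, hxr⟩ ∈ ((ν'.comp (Subgroup.inclusion hN'le)).comp
            (Subgroup.inclusion hP'N)).range := ⟨_, rfl⟩
      have h2 : (⟨((U.subtype.comp β.toMonoidHom).comp
          (((ν.comp (Subgroup.inclusion hNle)).comp (Subgroup.inclusion hPN)).codRestrict U
            hν₁U)) x, hval x⟩ : ↥((ν'.comp (Subgroup.inclusion hN'le)).comp
              (Subgroup.inclusion hP'N)).range) =
          ⟨((ν'.comp (Subgroup.inclusion hN'le)).comp (Subgroup.inclusion hP'N)) ⟨φ x, hxr⟩,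
            hmem⟩ := Subtype.ext h1
      show ι ⟨((U.subtype.comp β.toMonoidHom).comp
          (((ν.comp (Subgroup.inclusion hNle)).comp (Subgroup.inclusion hPN)).codRestrict U
            hν₁U)) x, hval x⟩ = φ x
      rw [h2]
      exact eι ⟨φ x, hxr⟩
    rw [← e3]
    exact hX5


theorem coreSys_trHom_mem (E : FusionSystem S) (A : Subgroup (MulAut S)) {P : Subgroup Ω}
    (hPT : P ≤ S) {φ : P →* Ω} (hφ : φ ∈ (coreSys E A).Hom P) (hφT : ∀ x : P, φ x ∈ S)
    {α : MulAut S} (hα : α ∈ A) :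
    trHom α φ hφT ∈ (coreSys E A).Hom (imA α P) := by
  refine ⟨hφ.2 α hα hφT, fun α₂ hα₂ hχS => ?_⟩
  have h1 := hφ.2 (α₂ * α) (mul_mem hα₂ hα) hφT
  have hdom : imA (α₂ * α) P = imA α₂ (imA α P) := by
    ext y
    rw [mem_imA hPT, mem_imA (imA_le α P)]
    constructor
    · rintro ⟨x, rfl⟩
      exact ⟨⟨α ⟨x, hPT x.2⟩, apply_mem_imA α hPT x⟩, rfl⟩
    · rintro ⟨z, rfl⟩
      obtain ⟨x, rfl⟩ := exists_eq_apply α hPT z
      exact ⟨x, rfl⟩
  obtain ⟨χ', hχ', eχ'⟩ := hom_of_eq E hdom h1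
  have e1 : trHom α₂ (trHom α φ hφT) hχS = χ' := by
    ext y
    obtain ⟨z, rfl⟩ := exists_eq_apply α₂ (imA_le α P) y
    obtain ⟨x, rfl⟩ := exists_eq_apply α hPT z
    rw [trHom_apply α₂ (imA_le α P)]
    have h2 : (⟨trHom α φ hφT ⟨α ⟨x, hPT x.2⟩, apply_mem_imA α hPT x⟩, hχS _⟩ : S) =
        α ⟨φ x, hφT x⟩ := Subtype.ext (trHom_apply α hPT φ hφT x _)
    rw [h2]
    exact ((eχ' _ (apply_mem_imA (α₂ * α) hPT x) _).trans
      (trHom_apply (α₂ * α) hPT φ hφT x _)).symm
  rw [e1]
  exact hχ'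

theorem coreSys_autInv (F E : FusionSystem S) : AutInv F (coreSys E (F.autGroup S)) := by
  intro P hPT φ hφ hφT α hα
  exact ⟨trHom α φ hφT, coreSys_trHom_mem E _ hPT hφ hφT hα,
    fun x hx => trHom_apply α hPT φ hφT x hx⟩

theorem ppow_map_le (p : ℕ) {A B : Type*} [Group A] [Group B] (f : A →* B)
    (hf : Function.Injective f) :
    (Subgroup.closure {a : A | ∃ k : ℕ, orderOf a = p ^ k}).map f ≤
      Subgroup.closure {b : B | ∃ k : ℕ, orderOf b = p ^ k} := by
  rw [MonoidHom.map_closure]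
  apply Subgroup.closure_mono
  rintro _ ⟨a, ⟨k, hk⟩, rfl⟩
  exact ⟨k, by rw [orderOf_injective f hf a]; exact hk⟩

/-- the invariant core still contains `O^{p'}(Aut_F(U))` for centric `U` -/
theorem coreSys_ppow (p : ℕ) (F E : FusionSystem S)
    (h : ∀ P : Subgroup Ω, F.IsCentric P →
      (Subgroup.closure {α : ↥(F.autGroup P) | ∃ k : ℕ, orderOf α = p ^ k}).map
        (F.autGroup P).subtype ≤ E.autGroup P)
    (U : Subgroup Ω) (hU : F.IsCentric U) :
    (Subgroup.closure {α : ↥(F.autGroup U) | ∃ k : ℕ, orderOf α = p ^ k}).map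
      (F.autGroup U).subtype ≤ (coreSys E (F.autGroup S)).autGroup U := by
  have hUS := hU.1
  rintro _ ⟨b, hb, rfl⟩
  rw [mem_autGroup_iff _ hUS]
  have hbE := h U hU ⟨b, hb, rfl⟩
  refine ⟨(mem_autGroup_iff E hUS).mp hbE, fun α hα hφS => ?_⟩
  have hαF := (mem_autGroup_iff F le_rfl).mp hα
  have hθ := restrict_mem F hαF hUS
  have hr : ((S.subtype.comp α.toMonoidHom).comp (Subgroup.inclusion hUS)).range =
      imA α U := by
    ext y
    rw [mem_imA hUS]
    constructor
    · rintro ⟨x, rfl⟩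
      exact ⟨x, rfl⟩
    · rintro ⟨x, rfl⟩
      exact ⟨x, rfl⟩
  have hU' : F.IsCentric (imA α U) := centric_of_isConj F hU ⟨_, hθ, hr⟩
  obtain ⟨e, he⟩ : ∃ e : U ≃* ↥(imA α U), ∀ x : U,
      ((e x : ↥(imA α U)) : Ω) = ((α ⟨x, hUS x.2⟩ : S) : Ω) := by
    have hinj : Function.Injective (((S.subtype.comp α.toMonoidHom).comp
        (Subgroup.inclusion hUS)).codRestrict (imA α U) (fun x => apply_mem_imA α hUS x)) :=
      fun a b hab => F.injective_of_mem hθ (show ((S.subtype.comp α.toMonoidHom).comp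
        (Subgroup.inclusion hUS)) a = ((S.subtype.comp α.toMonoidHom).comp
        (Subgroup.inclusion hUS)) b from
          congrArg (fun z : ↥(imA α U) => (z : Ω)) hab)
    have hsurj : Function.Surjective (((S.subtype.comp α.toMonoidHom).comp
        (Subgroup.inclusion hUS)).codRestrict (imA α U) (fun x => apply_mem_imA α hUS x)) := by
      intro y
      obtain ⟨x, rfl⟩ := exists_eq_apply α hUS y
      exact ⟨x, rfl⟩
    exact ⟨MulEquiv.ofBijective _ ⟨hinj, hsurj⟩, fun x => rfl⟩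
  have heF : (imA α U).subtype.comp e.toMonoidHom ∈ F.Hom U := by
    have e0 : (imA α U).subtype.comp e.toMonoidHom =
        (S.subtype.comp α.toMonoidHom).comp (Subgroup.inclusion hUS) := by
      ext x
      exact he x
    rw [e0]
    exact hθ
  obtain ⟨c, hc, hcv⟩ : ∃ c : ↥(F.autGroup U) →* ↥(F.autGroup (imA α U)),
      Function.Injective c ∧ ∀ γ : ↥(F.autGroup U),
        ((c γ : ↥(F.autGroup (imA α U))) : MulAut ↥(imA α U)) =
          MulAut.congr e (γ : MulAut U) := by
    refine ⟨((MulAut.congr e).toMonoidHom.comp (F.autGroup U).subtype).codRestrict _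
      (fun γ => map_congr_autGroup_le F hUS (imA_le α U) e heF ⟨γ, γ.2, rfl⟩), ?_,
      fun γ => rfl⟩
    intro a b hab
    apply Subtype.ext
    exact (MulAut.congr e).injective (congrArg Subtype.val hab)
  have h1 := ppow_map_le p c hc ⟨b, hb, rfl⟩
  have h2 := h (imA α U) hU' ⟨c b, h1, rfl⟩
  have h3 := (mem_autGroup_iff E (imA_le α U)).mp h2
  have e2 : trHom α (U.subtype.comp ((F.autGroup U).subtype b).toMonoidHom) hφS =
      (imA α U).subtype.comp
        (((F.autGroup (imA α U)).subtype (c b)) : MulAut ↥(imA α U)).toMonoidHom := by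
    ext y
    obtain ⟨x, rfl⟩ := exists_eq_apply α hUS y
    rw [trHom_apply α hUS]
    have h4 : e.symm ⟨α ⟨x, hUS x.2⟩, apply_mem_imA α hUS x⟩ = x := by
      rw [MulEquiv.symm_apply_eq]
      exact Subtype.ext (he x).symm
    have h5 : ((F.autGroup (imA α U)).subtype (c b)) = MulAut.congr e (b : MulAut U) := hcv b
    rw [h5]
    show _ = ((e ((b : MulAut U) (e.symm ⟨α ⟨x, hUS x.2⟩, apply_mem_imA α hUS x⟩)) :
      ↥(imA α U)) : Ω)
    rw [h4, he]
    rfl
  rw [e2]
  exact h3

end Cfsg.Agent.Helper26
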