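import Mathlib
import Cfsg.Agent.Helper26.PrimeIndex

set_option autoImplicit false

namespace Cfsg.Agent.Helper26

open Cfsg Cfsg.FusionSystem

variable {Ω : Type*} [Group Ω] {S : Subgroup Ω}

/-- the subgroup generated by the elements of `p`-power order is normal -/
theorem ppow_conj_mem (p : ℕ) {A : Type*} [Group A] (a x : A)
    (hx : x ∈ Subgroup.closure {b : A | ∃ k : ℕ, orderOf b = p ^ k}) :
    a * x * a⁻¹ ∈ Subgroup.closure {b : A | ∃ k : ℕ, orderOf b = p ^ k} := by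
  induction hx using Subgroup.closure_induction with
  | mem y hy =>
    obtain ⟨k, hk⟩ := hy
    apply Subgroup.subset_closure
    refine ⟨k, ?_⟩
    have h1 := orderOf_injective (MulAut.conj a).toMonoidHom (MulAut.conj a).injective y
    rw [← hk, ← h1]
    rfl
  | one => simp
  | mul y z _ _ hy hz =>
    have e : a * (y * z) * a⁻¹ = (a * y * a⁻¹) * (a * z * a⁻¹) := by group
    rw [e]
    exact mul_mem hy hz
  | inv y _ hy =>
    have e : a * y⁻¹ * a⁻¹ = (a * y * a⁻¹)⁻¹ := by group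
    rw [e]
    exact Subgroup.inv_mem _ hy

/-- the key step of the Frattini induction for a subsystem containing `O^{p'}(Aut_F(U))`
for centric `U` -/
theorem ppow_key [Finite S] (p : ℕ) [Fact p.Prime] (hS : IsPGroup p S) (F : FusionSystem S)
    (hF : F.IsSaturated p) (E : FusionSystem S) (hAI : AutInv F E)
    (hO : ∀ U : Subgroup Ω, F.IsCentric U →
      (Subgroup.closure {α : ↥(F.autGroup U) | ∃ k : ℕ, orderOf α = p ^ k}).map
        (F.autGroup U).subtype ≤ E.autGroup U)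
    (U : Subgroup Ω) (hUS : U ≤ S) (hUne : U ≠ S) (hUfn : F.IsFullyNormalized U)
    (ih : ∀ R : Subgroup Ω, R ≤ S → Nat.card U < Nat.card R → ∀ ψ ∈ F.Hom R, FratX F E R ψ)
    (β : MulAut U) (hβ : β ∈ F.autGroup U) : FratX F E U (U.subtype.comp β.toMonoidHom) := by
  have hfinU : Finite U := finite_of_le hUS
  obtain ⟨hUfc, hUfa⟩ := fullyNormalized_props p hS F hF U hUfn
  have hUrec := fullyCentralized_receptive p hS F hF U hUfc
  have hβF := (mem_autGroup_iff F hUS).mp hβ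
  have hrange : ∀ γ : MulAut U, (U.subtype.comp γ.toMonoidHom).range = U := by
    intro γ
    ext y
    constructor
    · rintro ⟨u, rfl⟩
      exact (γ u).2
    · intro hy
      refine ⟨γ⁻¹ ⟨y, hy⟩, ?_⟩
      show ((γ (γ⁻¹ ⟨y, hy⟩) : U) : Ω) = y
      rw [MulAut.apply_inv_self]
  by_cases hcen : F.IsCentric U
  · -- centric case
    have hSy : CardSyl p (autInducedBy S U) (F.autGroup U) :=
      (sylow_iff_cardSyl p (autInducedBy_le_autGroup F hUS)).mp hUfa.2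
    have hΘp : IsPGroup p (autInducedBy S U) := isPGroup_autInducedBy hS U
    have hOA : (Subgroup.closure {α : ↥(F.autGroup U) | ∃ k : ℕ, orderOf α = p ^ k}).map
        (F.autGroup U).subtype ≤ F.autGroup U := by
      rintro _ ⟨b, -, rfl⟩
      exact b.2
    have hΘO : autInducedBy S U ≤
        (Subgroup.closure {α : ↥(F.autGroup U) | ∃ k : ℕ, orderOf α = p ^ k}).map
        (F.autGroup U).subtype := by
      intro σ hσ
      have hσA : σ ∈ F.autGroup U := autInducedBy_le_autGroup F hUS hσ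
      refine ⟨⟨σ, hσA⟩, Subgroup.subset_closure ?_, rfl⟩
      obtain ⟨k, hk⟩ := (IsPGroup.iff_orderOf.mp hΘp) ⟨σ, hσ⟩
      refine ⟨k, ?_⟩
      rw [← hk, Subgroup.orderOf_mk, Subgroup.orderOf_mk]
    have hnorm : ∀ a ∈ F.autGroup U, ∀ x ∈
        (Subgroup.closure {α : ↥(F.autGroup U) | ∃ k : ℕ, orderOf α = p ^ k}).map
        (F.autGroup U).subtype, a * x * a⁻¹ ∈
        (Subgroup.closure {α : ↥(F.autGroup U) | ∃ k : ℕ, orderOf α = p ^ k}).map
        (F.autGroup U).subtype := by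
      rintro a ha _ ⟨b, hb, rfl⟩
      exact ⟨⟨a, ha⟩ * b * ⟨a, ha⟩⁻¹, ppow_conj_mem p ⟨a, ha⟩ b hb, rfl⟩
    have hSy0 := hSy.of_le hΘO hOA
    have hβΘ : (autInducedBy S U).map (MulAut.conj β).toMonoidHom ≤
        (Subgroup.closure {α : ↥(F.autGroup U) | ∃ k : ℕ, orderOf α = p ^ k}).map
        (F.autGroup U).subtype := by
      rw [map_conj_le_iff]
      intro x hx
      exact hnorm β hβ x (hΘO hx)
    obtain ⟨a, ha, haΘ⟩ := exists_conj_le_of_cardSyl p hSy0 (hΘp.map _) hβΘ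
    have haE : a ∈ E.autGroup U := hO U hcen ha
    have hγ : a * β ∈ F.autGroup U := mul_mem (hOA ha) hβ
    have hγF := (mem_autGroup_iff F hUS).mp hγ
    obtain ⟨γ', hγ', eγ'⟩ := hUrec.2 U _ hγF (hrange (a * β))
    have hNW : normalizerIn S U ≤ extender S U (U.subtype.comp (a * β).toMonoidHom) := by
      intro g hg
      rw [mem_extender_iff]
      refine ⟨hg.1, hg.2, ?_⟩
      have ht : U.normalizerMonoidHom ⟨g, hg.2⟩ ∈ autInducedBy S U :=
        mem_autInducedBy_iff.mpr ⟨g, hg.1, fun x => rfl⟩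
      have h1 := haΘ _ ⟨_, ht, rfl⟩
      obtain ⟨h, hh, e⟩ := mem_autInducedBy_iff.mp h1
      refine ⟨h, hh, fun x hx => ?_⟩
      have h2 := e ((a * β) x)
      have h3 : (a * (MulAut.conj β).toMonoidHom (U.normalizerMonoidHom ⟨g, hg.2⟩) * a⁻¹)
          ((a * β) x) = (a * β) ⟨g * x * g⁻¹, hx⟩ := by
        show a (β ((U.normalizerMonoidHom ⟨g, hg.2⟩) (β⁻¹ (a⁻¹ (a (β x)))))) =
          a (β ⟨g * x * g⁻¹, hx⟩)
        rw [MulAut.inv_apply_self, MulAut.inv_apply_self]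
        rfl
      rw [h3] at h2
      exact h2
    have hUW : U ≤ normalizerIn S U := le_normalizerIn hUS
    have hXγ' := ih _ inf_le_left (card_lt_card_normalizerIn hS hUS hUne) _
      (restrict_mem F hγ' hNW)
    have hXγ := hXγ'.restrict hUW
    have haE' := (mem_autGroup_iff E hUS).mp (Subgroup.inv_mem _ haE)
    have hXa : FratX F E U (U.subtype.comp (a⁻¹ : MulAut U).toMonoidHom) :=
      fratX_of_mem F E haE'
    have hγ'x : ∀ x : U, ((γ'.comp (Subgroup.inclusion hNW)).comp (Subgroup.inclusion hUW)) x =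
        (((a * β) x : U) : Ω) := fun x => eγ' x x.2 (hNW (hUW x.2))
    have hval : ∀ x : U,
        ((γ'.comp (Subgroup.inclusion hNW)).comp (Subgroup.inclusion hUW)) x ∈ U := by
      intro x
      rw [hγ'x]
      exact ((a * β) x).2
    have hX := FratX.comp' le_rfl hAI hXγ hXa hUS hval
    have e2 : (U.subtype.comp (a⁻¹ : MulAut U).toMonoidHom).comp
        (((γ'.comp (Subgroup.inclusion hNW)).comp (Subgroup.inclusion hUW)).codRestrict U
          hval) = U.subtype.comp β.toMonoidHom := by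
      ext x
      have h2 : (⟨((γ'.comp (Subgroup.inclusion hNW)).comp (Subgroup.inclusion hUW)) x,
          hval x⟩ : U) = (a * β) x := Subtype.ext (hγ'x x)
      show ((a⁻¹ ⟨((γ'.comp (Subgroup.inclusion hNW)).comp (Subgroup.inclusion hUW)) x,
        hval x⟩ : U) : Ω) = β x
      rw [h2]
      show ((a⁻¹ (a (β x)) : U) : Ω) = β x
      rw [MulAut.inv_apply_self]
    rw [← e2]
    exact hX
  · -- non-centric case
    have hnc : ¬ centralizerIn S U ≤ U := fun hC => hcen (Cfsg.Agent.Helper27.centric_of_fc hUfc hC)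
    obtain ⟨g, hgC, hgU⟩ := SetLike.not_le_iff_exists.mp hnc
    obtain ⟨γ', hγ', eγ'⟩ := hUrec.2 U _ hβF (hrange β)
    have hUW : U ≤ extender S U (U.subtype.comp β.toMonoidHom) :=
      le_extender hUS _ (fun x => hUS (β x).2)
    have hWS : extender S U (U.subtype.comp β.toMonoidHom) ≤ S :=
      (extender_le_normalizerIn S U _).trans inf_le_left
    haveI : Finite ↥(extender S U (U.subtype.comp β.toMonoidHom)) := finite_of_le hWS
    have hlt : Nat.card U < Nat.card ↥(extender S U (U.subtype.comp β.toMonoidHom)) :=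
      Cfsg.Agent.Helper27.card_lt_of_mem_not_mem hUW (centralizerIn_le_extender S U _ hgC) hgU
    have hX := (ih _ hWS hlt γ' hγ').restrict hUW
    have e2 : γ'.comp (Subgroup.inclusion hUW) = U.subtype.comp β.toMonoidHom := by
      ext x
      exact eγ' x x.2 (hUW x.2)
    rw [← e2]
    exact hX

/-- the Frattini property for a subsystem containing `O^{p'}(Aut_F(U))` for centric `U` -/
theorem ppow_frat [Finite S] (p : ℕ) [Fact p.Prime] (hS : IsPGroup p S) (F : FusionSystem S)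
    (hF : F.IsSaturated p) (E : FusionSystem S)
    (h : ∀ P : Subgroup Ω, F.IsCentric P →
      (Subgroup.closure {α : ↥(F.autGroup P) | ∃ k : ℕ, orderOf α = p ^ k}).map
        (F.autGroup P).subtype ≤ E.autGroup P)
    (P : Subgroup Ω) (φ : P →* Ω) (hφ : φ ∈ F.Hom P) : FratX F E P φ := by
  have hSC : F.StronglyClosed S := ⟨le_rfl, fun R _ ψ hψ x => (F.le_of_mem hψ).2 x⟩
  have hAI := coreSys_autInv F E
  have hO := coreSys_ppow p F E h
  have h1 := frat_induction p hS F hF (coreSys E (F.autGroup S)) hSC hAI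
    (fun U hUS hUne hUfn ih β hβ => ppow_key p hS F hF _ hAI hO U hUS hUne hUfn ih β hβ)
    _ P (F.le_of_mem hφ).1 rfl φ hφ
  obtain ⟨α, hα, φ₀, hφ₀, e⟩ := h1
  exact ⟨α, hα, φ₀, coreSys_le E _ P hφ₀, e⟩

/-- `E` has index prime to `p` in `F` -/
theorem ppow_index [Finite S] (p : ℕ) [Fact p.Prime] (hS : IsPGroup p S) (F : FusionSystem S)
    (hF : F.IsSaturated p) (E : FusionSystem S) (hEF : E.IsSubsystemOf F)
    (h : ∀ P : Subgroup Ω, F.IsCentric P →
      (Subgroup.closure {α : ↥(F.autGroup P) | ∃ k : ℕ, orderOf α = p ^ k}).map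
        (F.autGroup P).subtype ≤ E.autGroup P) : E.HasPrimeToPIndexIn F p := by
  refine ⟨hEF, fun P hPS => ?_⟩
  rw [Subgroup.map_le_iff_le_comap, Subgroup.closure_le]
  rintro β ⟨k, hk⟩
  show (β : MulAut P) ∈ E.autGroup P
  have hβp : (β : MulAut P) ^ p ^ k = 1 := by
    have h1 : β ^ p ^ k = 1 := by
      rw [← hk]
      exact pow_orderOf_eq_one β
    have h2 := congrArg Subtype.val h1
    exact h2
  obtain ⟨θ, hθ, g, hg, e⟩ := exists_conj_into_S p F hF hPS β.2 hβp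
  obtain ⟨α, hα, θ₀, hθ₀, eθ⟩ := ppow_frat p hS F hF E h P θ hθ
  have hθ₀S : ∀ x : P, θ₀ x ∈ S := (E.le_of_mem hθ₀).2
  apply conjSub_le_autGroup E hθ₀
  rw [mem_conjSub]
  refine ⟨((α⁻¹ : MulAut S) ⟨g, hg⟩ : S), ((α⁻¹ : MulAut S) ⟨g, hg⟩).2, fun x => ?_⟩
  have h1 : ∀ y : P, (⟨θ₀ y, hθ₀S y⟩ : S) = (α⁻¹ : MulAut S) ⟨θ y, (F.le_of_mem hθ).2 y⟩ := by
    intro y
    have h2 : (⟨θ y, (F.le_of_mem hθ).2 y⟩ : S) = α ⟨θ₀ y, hθ₀S y⟩ :=
      Subtype.ext (eθ y (hθ₀S y))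
    rw [h2, MulAut.inv_apply_self]
  have h3 : (⟨θ ((β : MulAut P) x), (F.le_of_mem hθ).2 _⟩ : S) =
      ⟨g, hg⟩ * ⟨θ x, (F.le_of_mem hθ).2 x⟩ * ⟨g, hg⟩⁻¹ := Subtype.ext (e x)
  have h4 := h1 ((β : MulAut P) x)
  rw [h3, map_mul, map_mul, map_inv, ← h1 x] at h4
  exact congrArg Subtype.val h4

/-- `E` and `F` have the same centric subgroups -/
theorem ppow_centric [Finite S] (p : ℕ) [Fact p.Prime] (hS : IsPGroup p S) (F : FusionSystem S)
    (hF : F.IsSaturated p) (E : FusionSystem S) (hEF : E.IsSubsystemOf F)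
    (h : ∀ P : Subgroup Ω, F.IsCentric P →
      (Subgroup.closure {α : ↥(F.autGroup P) | ∃ k : ℕ, orderOf α = p ^ k}).map
        (F.autGroup P).subtype ≤ E.autGroup P) (P : Subgroup Ω) :
    E.IsCentric P ↔ F.IsCentric P := by
  constructor
  · rintro ⟨hPS, hc⟩
    refine ⟨hPS, ?_⟩
    rintro Q ⟨φ, hφ, rfl⟩
    obtain ⟨α, hα, φ₀, hφ₀, eφ⟩ := ppow_frat p hS F hF E h P φ hφ
    have hφ₀S : ∀ x : P, φ₀ x ∈ S := (E.le_of_mem hφ₀).2
    have h0 := hc φ₀.range ⟨φ₀, hφ₀, rfl⟩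
    intro g hg
    have hmem : (((α⁻¹ : MulAut S) ⟨g, hg.1⟩ : S) : Ω) ∈ centralizerIn S φ₀.range := by
      refine ⟨((α⁻¹ : MulAut S) ⟨g, hg.1⟩).2, ?_⟩
      rintro _ ⟨x, rfl⟩
      have h1 : φ x * g = g * φ x := hg.2 (φ x) ⟨x, rfl⟩
      have h2 : (⟨φ₀ x, hφ₀S x⟩ : S) = (α⁻¹ : MulAut S) ⟨φ x, (F.le_of_mem hφ).2 x⟩ := by
        have h3 : (⟨φ x, (F.le_of_mem hφ).2 x⟩ : S) = α ⟨φ₀ x, hφ₀S x⟩ :=
          Subtype.ext (eφ x (hφ₀S x))
        rw [h3, MulAut.inv_apply_self]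
      have h4 : (⟨φ₀ x, hφ₀S x⟩ : S) * (α⁻¹ : MulAut S) ⟨g, hg.1⟩ =
          (α⁻¹ : MulAut S) ⟨g, hg.1⟩ * ⟨φ₀ x, hφ₀S x⟩ := by
        rw [h2, ← map_mul, ← map_mul]
        exact congrArg _ (Subtype.ext h1)
      exact congrArg Subtype.val h4
    obtain ⟨x, hx⟩ := h0 hmem
    refine ⟨x, ?_⟩
    rw [eφ x (hφ₀S x)]
    have h5 : (⟨φ₀ x, hφ₀S x⟩ : S) = (α⁻¹ : MulAut S) ⟨g, hg.1⟩ := Subtype.ext hx
    rw [h5, MulAut.apply_inv_self]
  · rintro ⟨hPS, hc⟩
    refine ⟨hPS, ?_⟩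
    rintro Q ⟨φ, hφ, rfl⟩
    exact hc φ.range ⟨φ, hEF P hφ, rfl⟩

end Cfsg.Agent.Helper26
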