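import Mathlib
import Cfsg.Prelude.Def_RootSubgroups

set_option autoImplicit false

namespace Cfsg.Agent.Helper26

open Cfsg

variable {k : Type*} [Field k] {M : Type*} [AddCommGroup M] [Module k M]

/-- the unit `1 + N` for a square-zero endomorphism `N` -/
def sqZeroUnit (N : M →ₗ[k] M) (h : N * N = 0) : LinearMap.GeneralLinearGroup k M :=
  ⟨1 + N, 1 - N,
    by
      have e : (1 + N) * (1 - N) = 1 - N * N := by noncomm_ring
      rw [e, h, sub_zero],
    by
      have e : (1 - N) * (1 + N) = 1 - N * N := by noncomm_ring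
      rw [e, h, sub_zero]⟩

theorem sqZeroUnit_val (N : M →ₗ[k] M) (h : N * N = 0) :
    ((sqZeroUnit N h : LinearMap.GeneralLinearGroup k M) : M →ₗ[k] M) = 1 + N := rfl

theorem quad_mul_zero {C R : Submodule k M} (hRC : R ≤ C) {A B : M →ₗ[k] M}
    (hA : C ≤ LinearMap.ker A) (hB : LinearMap.range B ≤ R) : A * B = 0 := by
  apply LinearMap.ext
  intro m
  have h1 : B m ∈ LinearMap.ker A := hA (hRC (hB (LinearMap.mem_range_self B m)))
  rw [LinearMap.mem_ker] at h1
  simpa using h1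

/-- the subgroup of all elements `x` with `[M, x] ≤ R ≤ C ≤ C_M(x)` whose scalar family is in `G` -/
def quadSub (G : Subgroup (LinearMap.GeneralLinearGroup k M)) (C R : Submodule k M)
    (hRC : R ≤ C) : Subgroup (LinearMap.GeneralLinearGroup k M) where
  carrier := {x | LinearMap.range ((x : M →ₗ[k] M) - 1) ≤ R ∧
    C ≤ LinearMap.ker ((x : M →ₗ[k] M) - 1) ∧
    scalarFamily x ⊆ (G : Set (LinearMap.GeneralLinearGroup k M))}
  mul_mem' := by
    rintro x y ⟨hx1, hx2, hx3⟩ ⟨hy1, hy2, hy3⟩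
    have hxy : ((x : M →ₗ[k] M) - 1) * ((y : M →ₗ[k] M) - 1) = 0 := quad_mul_zero hRC hx2 hy1
    have hxx : ((x : M →ₗ[k] M) - 1) * ((x : M →ₗ[k] M) - 1) = 0 := quad_mul_zero hRC hx2 hx1
    have hyy : ((y : M →ₗ[k] M) - 1) * ((y : M →ₗ[k] M) - 1) = 0 := quad_mul_zero hRC hy2 hy1
    have e : ((x * y : LinearMap.GeneralLinearGroup k M) : M →ₗ[k] M) - 1 =
        ((x : M →ₗ[k] M) - 1) + ((y : M →ₗ[k] M) - 1) := by
      have e1 : ((x * y : LinearMap.GeneralLinearGroup k M) : M →ₗ[k] M) - 1 =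
          ((x : M →ₗ[k] M) - 1) + ((y : M →ₗ[k] M) - 1) +
            ((x : M →ₗ[k] M) - 1) * ((y : M →ₗ[k] M) - 1) := by
        rw [Units.val_mul]; noncomm_ring
      rw [e1, hxy, add_zero]
    refine ⟨?_, ?_, ?_⟩
    · rw [e]
      rintro _ ⟨m, rfl⟩
      rw [LinearMap.add_apply]
      exact R.add_mem (hx1 (LinearMap.mem_range_self _ m)) (hy1 (LinearMap.mem_range_self _ m))
    · rw [e]
      intro m hm
      rw [LinearMap.mem_ker, LinearMap.add_apply, LinearMap.mem_ker.mp (hx2 hm),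
        LinearMap.mem_ker.mp (hy2 hm), add_zero]
    · rintro τ ⟨c, hc⟩
      have hcx : (c • ((x : M →ₗ[k] M) - 1)) * (c • ((x : M →ₗ[k] M) - 1)) = 0 := by
        rw [smul_mul_smul_comm, hxx, smul_zero]
      have hcy : (c • ((y : M →ₗ[k] M) - 1)) * (c • ((y : M →ₗ[k] M) - 1)) = 0 := by
        rw [smul_mul_smul_comm, hyy, smul_zero]
      have hu : sqZeroUnit _ hcx ∈ G := hx3 ⟨c, rfl⟩
      have hv : sqZeroUnit _ hcy ∈ G := hy3 ⟨c, rfl⟩
      have hτ : τ = sqZeroUnit _ hcx * sqZeroUnit _ hcy := by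
        apply Units.ext
        rw [hc, e, Units.val_mul, sqZeroUnit_val, sqZeroUnit_val]
        have e2 : ∀ A B : M →ₗ[k] M, (1 + A) * (1 + B) = 1 + A + B + A * B := by
          intro A B; noncomm_ring
        rw [e2, smul_mul_smul_comm, hxy, smul_zero, add_zero, smul_add, add_assoc]
      rw [hτ]
      exact G.mul_mem hu hv
  one_mem' := by
    refine ⟨?_, ?_, ?_⟩
    · rw [Units.val_one, sub_self]
      rintro _ ⟨m, rfl⟩
      simp
    · rw [Units.val_one, sub_self]
      intro m _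
      simp
    · rintro τ ⟨c, hc⟩
      rw [Units.val_one, sub_self, smul_zero, add_zero] at hc
      have : τ = 1 := Units.ext hc
      rw [this]
      exact G.one_mem
  inv_mem' := by
    rintro x ⟨hx1, hx2, hx3⟩
    have hxx : ((x : M →ₗ[k] M) - 1) * ((x : M →ₗ[k] M) - 1) = 0 := quad_mul_zero hRC hx2 hx1
    have e : ((x⁻¹ : LinearMap.GeneralLinearGroup k M) : M →ₗ[k] M) - 1 =
        -((x : M →ₗ[k] M) - 1) := by
      have e1 : (x : M →ₗ[k] M) * (1 - ((x : M →ₗ[k] M) - 1)) = 1 := by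
        have e2 : (x : M →ₗ[k] M) * (1 - ((x : M →ₗ[k] M) - 1)) =
            1 - ((x : M →ₗ[k] M) - 1) * ((x : M →ₗ[k] M) - 1) := by noncomm_ring
        rw [e2, hxx, sub_zero]
      have e3 : ((x⁻¹ : LinearMap.GeneralLinearGroup k M) : M →ₗ[k] M) =
          1 - ((x : M →ₗ[k] M) - 1) := by
        calc ((x⁻¹ : LinearMap.GeneralLinearGroup k M) : M →ₗ[k] M)
            = ((x⁻¹ : LinearMap.GeneralLinearGroup k M) : M →ₗ[k] M) *
                ((x : M →ₗ[k] M) * (1 - ((x : M →ₗ[k] M) - 1))) := by rw [e1, mul_one]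
          _ = 1 - ((x : M →ₗ[k] M) - 1) := by rw [← mul_assoc, Units.inv_mul, one_mul]
      rw [e3]; abel
    refine ⟨?_, ?_, ?_⟩
    · rw [e]
      rintro _ ⟨m, rfl⟩
      rw [LinearMap.neg_apply]
      exact R.neg_mem (hx1 (LinearMap.mem_range_self _ m))
    · rw [e]
      intro m hm
      rw [LinearMap.mem_ker, LinearMap.neg_apply, LinearMap.mem_ker.mp (hx2 hm), neg_zero]
    · rintro τ ⟨c, hc⟩
      apply hx3
      refine ⟨-c, ?_⟩
      rw [hc, e, smul_neg, neg_smul]

theorem mem_quadSub {G : Subgroup (LinearMap.GeneralLinearGroup k M)} {C R : Submodule k M}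
    {hRC : R ≤ C} {x : LinearMap.GeneralLinearGroup k M} :
    x ∈ quadSub G C R hRC ↔ LinearMap.range ((x : M →ₗ[k] M) - 1) ≤ R ∧
      C ≤ LinearMap.ker ((x : M →ₗ[k] M) - 1) ∧
      scalarFamily x ⊆ (G : Set (LinearMap.GeneralLinearGroup k M)) := Iff.rfl

theorem one_add_pow_sqZero (N : M →ₗ[k] M) (h : N * N = 0) (n : ℕ) :
    (1 + N) ^ n = 1 + (n : k) • N := by
  induction n with
  | zero => simp
  | succ n ih =>
    rw [pow_succ, ih]
    have e : (1 + (n : k) • N) * (1 + N) = 1 + (n : k) • N + N + (n : k) • (N * N) := by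
      rw [mul_add, mul_one, add_mul, one_mul, smul_mul_assoc]; abel
    rw [e, h, smul_zero, add_zero, Nat.cast_succ, add_smul, one_smul, add_assoc]

/-- the same-action class together with `1` is an abelian subgroup (of exponent `p` in
characteristic `p`) -/
theorem sameAction_main [FiniteDimensional k M]
    {G : Subgroup (LinearMap.GeneralLinearGroup k M)}
    {σ : LinearMap.GeneralLinearGroup k M} (hσ : σ ∈ minimalQuadraticElements G) :
    (sameActionSubgroup G σ : Set (LinearMap.GeneralLinearGroup k M)) =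
      sameActionClass G σ ∪ {1} ∧
    IsMulCommutative ↥(sameActionSubgroup G σ) ∧
    (∀ p : ℕ, p.Prime → ringChar k = p → ∀ x ∈ sameActionSubgroup G σ, x ^ p = 1) := by
  have hRC : LinearMap.range ((σ : M →ₗ[k] M) - 1) ≤ LinearMap.ker ((σ : M →ₗ[k] M) - 1) := by
    rintro _ ⟨m, rfl⟩
    rw [LinearMap.mem_ker]
    have := congrArg (fun f : M →ₗ[k] M => f m) hσ.1.2.1.1
    simpa using this
  have hle : sameActionSubgroup G σ ≤ quadSub G _ _ hRC := by
    unfold sameActionSubgroup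
    rw [Subgroup.closure_le]
    intro τ hτ
    exact ⟨hτ.2.2.le, hτ.2.1.ge, hτ.1.1.2.2⟩
  have hsq : ∀ x ∈ sameActionSubgroup G σ, ∀ y ∈ sameActionSubgroup G σ,
      ((x : M →ₗ[k] M) - 1) * ((y : M →ₗ[k] M) - 1) = 0 := by
    intro x hx y hy
    exact quad_mul_zero hRC (hle hx).2.1 (hle hy).1
  refine ⟨?_, ?_, ?_⟩
  · ext x
    constructor
    · intro hx
      by_cases hx1 : x = 1
      · right; exact hx1
      · left
        have hxq := hle hx
        have hxG : x ∈ G := by
          apply hxq.2.2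
          refine ⟨1, ?_⟩
          rw [one_smul]; abel
        have hN0 : (x : M →ₗ[k] M) - 1 ≠ 0 := by
          intro h0
          apply hx1
          apply Units.ext
          rw [Units.val_one]
          exact sub_eq_zero.mp h0
        have hxQ : x ∈ quadraticElements G := ⟨hxG, ⟨hsq x hx x hx, hN0⟩, hxq.2.2⟩
        have hr1 : commutatorRank σ ≤ commutatorRank x := hσ.2 x hxQ
        have hrange : LinearMap.range ((x : M →ₗ[k] M) - 1) =
            LinearMap.range ((σ : M →ₗ[k] M) - 1) :=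
          Submodule.eq_of_le_of_finrank_le hxq.1 hr1
        have hk1 := LinearMap.finrank_range_add_finrank_ker ((x : M →ₗ[k] M) - 1)
        have hk2 := LinearMap.finrank_range_add_finrank_ker ((σ : M →ₗ[k] M) - 1)
        rw [hrange] at hk1
        have hker : LinearMap.ker ((σ : M →ₗ[k] M) - 1) = LinearMap.ker ((x : M →ₗ[k] M) - 1) :=
          Submodule.eq_of_le_of_finrank_le hxq.2.1 (by omega)
        refine ⟨⟨hxQ, fun τ hτ => ?_⟩, hker.symm, hrange⟩
        have : commutatorRank x = commutatorRank σ := by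
          unfold commutatorRank
          rw [hrange]
        rw [this]
        exact hσ.2 τ hτ
    · rintro (hx | hx)
      · exact Subgroup.subset_closure hx
      · rw [Set.mem_singleton_iff] at hx
        rw [hx]
        exact (sameActionSubgroup G σ).one_mem
  · constructor
    constructor
    rintro ⟨a, ha⟩ ⟨b, hb⟩
    apply Subtype.ext
    apply Units.ext
    show (a : M →ₗ[k] M) * (b : M →ₗ[k] M) = (b : M →ₗ[k] M) * (a : M →ₗ[k] M)
    have h1 := hsq a ha b hb
    have h2 := hsq b hb a ha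
    have e1 : (a : M →ₗ[k] M) * (b : M →ₗ[k] M) =
        ((a : M →ₗ[k] M) - 1) * ((b : M →ₗ[k] M) - 1) + (a : M →ₗ[k] M) + (b : M →ₗ[k] M) - 1 := by
      noncomm_ring
    have e2 : (b : M →ₗ[k] M) * (a : M →ₗ[k] M) =
        ((b : M →ₗ[k] M) - 1) * ((a : M →ₗ[k] M) - 1) + (a : M →ₗ[k] M) + (b : M →ₗ[k] M) - 1 := by
      noncomm_ring
    rw [e1, e2, h1, h2]
  · intro p hp hchar x hx
    haveI : CharP k p := ringChar.of_eq hchar
    apply Units.ext
    rw [Units.val_pow_eq_pow_val, Units.val_one]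
    have e : (x : M →ₗ[k] M) = 1 + ((x : M →ₗ[k] M) - 1) := by abel
    rw [e, one_add_pow_sqZero _ (hsq x hx x hx), CharP.cast_eq_zero k p, zero_smul, add_zero]

end Cfsg.Agent.Helper26
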