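import Mathlib
import Cfsg.Agent.Helper26.RankOne
import Cfsg.Prelude.Def_Transfer

set_option autoImplicit false

namespace Cfsg.Agent.Helper26

open Cfsg

/-! ### Ring identities for quadratic actions -/

section RingLemmas

variable {R : Type*} [Ring R]

theorem quadRing_expand {α β α' β' : R} (hαα' : α * α' = 0) (hβ'β : β' * β = 0)
    (H : (1 + α) * (1 - β) * (1 + α') = (1 + β') * ((1 + α) * (1 - β))) :
    α' - β * α' - α * β * α' = β' + β' * α - β' * α * β := by
  have h1 : (1 + α) * (1 - β) * (1 + α') =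
      1 + α - β - α * β + α' + α * α' - β * α' - α * β * α' := by noncomm_ring
  have h2 : (1 + β') * ((1 + α) * (1 - β)) =
      1 + α - β - α * β + β' + β' * α - β' * β - β' * α * β := by noncomm_ring
  rw [h1, h2, hαα', hβ'β] at H
  linear_combination (norm := abel) H

theorem quadRing_left {α β α' β' : R} (hββ : β * β = 0) (hββ' : β * β' = 0)
    (E : α' - β * α' - α * β * α' = β' + β' * α - β' * α * β) :
    β * α' = β * α * β * α' := by
  have h3 : β * (α' - β * α' - α * β * α') = β * α' - (β * β) * α' - β * α * β * α' := by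
    noncomm_ring
  have h4 : β * (β' + β' * α - β' * α * β) = (β * β') + (β * β') * α - (β * β') * α * β := by
    noncomm_ring
  have h5 : β * (α' - β * α' - α * β * α') = β * (β' + β' * α - β' * α * β) := by rw [E]
  rw [h3, h4, hββ, hββ', zero_mul, zero_mul, zero_mul, sub_zero, add_zero, sub_zero] at h5
  exact sub_eq_zero.mp h5

/-- the key identity for `S5023` -/
theorem quadRing_nsmul {α β α' β' : R} {p : ℕ} (hαα' : α * α' = 0) (hββ : β * β = 0)
    (hββ' : β * β' = 0) (hβ'β : β' * β = 0)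
    (H : (1 + α) * (1 - β) * (1 + α') = (1 + β') * ((1 + α) * (1 - β)))
    (hp : p • α = 0) : p • α' = p • β' := by
  have E := quadRing_expand hαα' hβ'β H
  have F := quadRing_left hββ hββ' E
  have h1 : p • (β * α') = 0 := by
    rw [F]
    have : β * α * β * α' = β * (α * (β * α')) := by noncomm_ring
    rw [this, ← mul_smul_comm, ← smul_mul_assoc, hp, zero_mul, mul_zero]
  have h2 : p • (α * β * α') = 0 := by
    have : α * β * α' = α * (β * α') := by noncomm_ring
    rw [this, ← smul_mul_assoc, hp, zero_mul]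
  have h3 : p • (β' * α) = 0 := by
    rw [← mul_smul_comm, hp, mul_zero]
  have h4 : p • (β' * α * β) = 0 := by
    rw [← smul_mul_assoc, h3, zero_mul]
  have h5 : p • (α' - β * α' - α * β * α') = p • (β' + β' * α - β' * α * β) := by rw [E]
  rw [smul_sub, smul_sub, smul_sub, smul_add, h1, h2, h3, h4, sub_zero, sub_zero, add_zero,
    sub_zero] at h5
  exact h5

/-- the key identity for `S5019` -/
theorem quadRing_comm {α β β' : R} (hαα : α * α = 0) (hββ : β * β = 0)
    (hββ' : β * β' = 0) (hβ'β : β' * β = 0)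
    (H : (1 + α) * (1 - β) * (1 + α) = (1 + β') * ((1 + α) * (1 - β)))
    (H' : (1 + β) * (1 - α) * (1 + β') = (1 + α) * ((1 + β) * (1 - α))) :
    α * (β' + β) = 0 ∧ (β' + β) * α = 0 := by
  have E := quadRing_expand hαα hβ'β H
  have E' := quadRing_expand hββ' hαα H'
  -- `αβ` is idempotent
  have I1 : α * β = α * β * α * β := by
    have h3 : (β' - α * β' - β * α * β') * β = β' * β - α * (β' * β) - β * α * (β' * β) := by
      noncomm_ring
    have h4 : (α + α * β - α * β * α) * β = α * β + α * (β * β) - α * β * α * β := by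
      noncomm_ring
    have h5 : (β' - α * β' - β * α * β') * β = (α + α * β - α * β * α) * β := by rw [E']
    rw [h3, h4] at h5
    simp only [hβ'β, hββ, mul_zero, sub_zero, add_zero] at h5
    exact (sub_eq_zero.mp h5.symm)
  -- `βα` is idempotent
  have I2 : β * α = β * α * β * α := quadRing_left hββ hββ' E
  have J1 : β' * α * β = -(β * α * β) := by
    have h3 : (α - β * α - α * β * α) * β = α * β - β * α * β - α * β * α * β := by noncomm_ring
    have h4 : (β' + β' * α - β' * α * β) * β = β' * β + β' * α * β - β' * α * (β * β) := by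
      noncomm_ring
    have h5 : (α - β * α - α * β * α) * β = (β' + β' * α - β' * α * β) * β := by rw [E]
    rw [h3, h4] at h5
    simp only [hβ'β, hββ, mul_zero, zero_add, sub_zero] at h5
    rw [← I1] at h5
    linear_combination (norm := abel) -h5
  have J2 : β' * α = -(β * α) := by
    have h3 : (α - β * α - α * β * α) * α = α * α - β * (α * α) - α * β * (α * α) := by
      noncomm_ring
    have h4 : (β' + β' * α - β' * α * β) * α = β' * α + β' * (α * α) - (β' * α * β) * α := by
      noncomm_ring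
    have h5 : (α - β * α - α * β * α) * α = (β' + β' * α - β' * α * β) * α := by rw [E]
    rw [h3, h4] at h5
    simp only [hαα, mul_zero, sub_zero, add_zero] at h5
    have h8 : -(β * α * β) * α = -(β * α) := by rw [neg_mul, ← I2]
    rw [J1, h8] at h5
    exact sub_eq_zero.mp h5.symm
  have J3 : α * β' = -(α * β) := by
    have h3 : α * (α - β * α - α * β * α) = α * α - α * β * α - (α * α) * β * α := by
      noncomm_ring
    have h4 : α * (β' + β' * α - β' * α * β) = α * β' + α * (β' * α) - α * (β' * α * β) := by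
      noncomm_ring
    have h5 : α * (α - β * α - α * β * α) = α * (β' + β' * α - β' * α * β) := by rw [E]
    have h6 : α * -(β * α * β) = -(α * β * α * β) := by noncomm_ring
    have h7 : α * -(β * α) = -(α * β * α) := by noncomm_ring
    rw [h3, h4, J1, J2] at h5
    simp only [hαα, zero_mul, sub_zero, zero_sub] at h5
    rw [h6, h7, ← I1] at h5
    linear_combination (norm := abel) -h5
  constructor
  · rw [mul_add, J3, neg_add_cancel]
  · rw [add_mul, J2, neg_add_cancel]

end RingLemmas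

/-! ### Actions on abelian groups -/

section Action

variable {X : Type*} [Group X] (N : Type*) [AddCommGroup N] [DistribMulAction X N]

/-- `x - 1` as an endomorphism of `N` -/
def qd (x : X) : AddMonoid.End N := DistribMulAction.toAddMonoidEnd X N x - 1

/-- a subgroup acts quadratically on `N` -/
def QuadOn (C : Subgroup X) : Prop := ∀ c ∈ C, ∀ c' ∈ C, qd N c' * qd N c = 0

variable {N}

theorem rho_eq (x : X) : DistribMulAction.toAddMonoidEnd X N x = 1 + qd N x := by
  unfold qd; abel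

theorem qd_one : qd N (1 : X) = 0 := by
  unfold qd; rw [map_one, sub_self]

theorem qd_mul_apply (x y : X) (n : N) :
    (qd N y * qd N x) n = y • (x • n - n) - (x • n - n) := rfl

theorem quadOn_of_hyp {A : Subgroup X}
    (hq : ∀ a ∈ A, ∀ a' ∈ A, ∀ n : N, a' • (a • n - n) = a • n - n) : QuadOn N A := by
  intro a ha a' ha'
  ext n
  rw [qd_mul_apply, hq a ha a' ha' n, sub_self]
  rfl

theorem qd_conj (g x : X) : qd N (g * x * g⁻¹) =
    DistribMulAction.toAddMonoidEnd X N g * qd N x * DistribMulAction.toAddMonoidEnd X N g⁻¹ := by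
  unfold qd
  have e : DistribMulAction.toAddMonoidEnd X N g * DistribMulAction.toAddMonoidEnd X N g⁻¹ = 1 := by
    rw [← map_mul, mul_inv_cancel, map_one]
  rw [map_mul, map_mul, mul_sub, sub_mul, mul_one, e]

theorem rho_inv_of_sq (x : X) (h : qd N x * qd N x = 0) :
    DistribMulAction.toAddMonoidEnd X N x⁻¹ = 1 - qd N x := by
  have e1 : DistribMulAction.toAddMonoidEnd X N x * (1 - qd N x) = 1 := by
    rw [rho_eq x]
    have : (1 + qd N x) * (1 - qd N x) = 1 - qd N x * qd N x := by noncomm_ring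
    rw [this, h, sub_zero]
  calc DistribMulAction.toAddMonoidEnd X N x⁻¹
      = DistribMulAction.toAddMonoidEnd X N x⁻¹ *
          (DistribMulAction.toAddMonoidEnd X N x * (1 - qd N x)) := by rw [e1, mul_one]
    _ = 1 - qd N x := by rw [← mul_assoc, ← map_mul, inv_mul_cancel, map_one, one_mul]

theorem rho_inv_congr {x y : X}
    (h : DistribMulAction.toAddMonoidEnd X N x = DistribMulAction.toAddMonoidEnd X N y) :
    DistribMulAction.toAddMonoidEnd X N x⁻¹ = DistribMulAction.toAddMonoidEnd X N y⁻¹ := by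
  calc DistribMulAction.toAddMonoidEnd X N x⁻¹
      = DistribMulAction.toAddMonoidEnd X N x⁻¹ * (DistribMulAction.toAddMonoidEnd X N y *
          DistribMulAction.toAddMonoidEnd X N y⁻¹) := by
        rw [← map_mul, mul_inv_cancel, map_one, mul_one]
    _ = DistribMulAction.toAddMonoidEnd X N y⁻¹ := by
        rw [← h, ← mul_assoc, ← map_mul, inv_mul_cancel, map_one, one_mul]

theorem quadOn_conj {A : Subgroup X} (hA : QuadOn N A) (g : X) : QuadOn N (conjBy A g) := by
  intro c hc c' hc'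
  rw [mem_conjBy] at hc hc'
  have e1 : c = g * (g⁻¹ * c * g) * g⁻¹ := by group
  have e2 : c' = g * (g⁻¹ * c' * g) * g⁻¹ := by group
  rw [e1, e2, qd_conj, qd_conj]
  have e3 : DistribMulAction.toAddMonoidEnd X N g * qd N (g⁻¹ * c' * g) *
      DistribMulAction.toAddMonoidEnd X N g⁻¹ *
      (DistribMulAction.toAddMonoidEnd X N g * qd N (g⁻¹ * c * g) *
        DistribMulAction.toAddMonoidEnd X N g⁻¹) =
      DistribMulAction.toAddMonoidEnd X N g * (qd N (g⁻¹ * c' * g) *
        (DistribMulAction.toAddMonoidEnd X N g⁻¹ * DistribMulAction.toAddMonoidEnd X N g) *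
        qd N (g⁻¹ * c * g)) * DistribMulAction.toAddMonoidEnd X N g⁻¹ := by noncomm_ring
  rw [e3, ← map_mul, inv_mul_cancel, map_one, mul_one, hA _ hc _ hc', mul_zero, zero_mul]

theorem quadOn_right {A B : Subgroup X} (h : IsRankOnePair A B) (hA : QuadOn N A) :
    QuadOn N B := by
  obtain ⟨x, -, hx⟩ := exists_conj_eq h
  rw [hx]
  exact quadOn_conj hA x

theorem qd_mul {C : Subgroup X} (hC : QuadOn N C) {c c' : X} (hc : c ∈ C) (hc' : c' ∈ C) :
    qd N (c * c') = qd N c + qd N c' := by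
  have h0 := hC c' hc' c hc
  have e : qd N (c * c') = qd N c + qd N c' + qd N c * qd N c' := by
    unfold qd
    rw [map_mul]
    noncomm_ring
  rw [e, h0, add_zero]

theorem qd_pow {C : Subgroup X} (hC : QuadOn N C) {c : X} (hc : c ∈ C) (k : ℕ) :
    qd N (c ^ k) = k • qd N c := by
  induction k with
  | zero => rw [pow_zero, qd_one, zero_smul]
  | succ k ih => rw [pow_succ, qd_mul hC (C.pow_mem hc k) hc, ih, succ_nsmul]

/-- if the kernel of the action supplements a quadratically acting subgroup, the whole group acts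
quadratically -/
theorem quad_top_of_sup (C : Subgroup X) (hC : QuadOn N C)
    (htop : (DistribMulAction.toAddMonoidEnd X N).ker ⊔ C = ⊤) :
    ∀ x y : X, qd N y * qd N x = 0 := by
  have key : ∀ x : X, ∃ c ∈ C, qd N x = qd N c := by
    intro x
    have hx : x ∈ (((DistribMulAction.toAddMonoidEnd X N).ker ⊔ C : Subgroup X) : Set X) := by
      rw [htop]; trivial
    rw [Subgroup.normal_mul] at hx
    obtain ⟨k, hk, c, hc, rfl⟩ := hx
    refine ⟨c, hc, ?_⟩
    unfold qd
    rw [map_mul, MonoidHom.mem_ker.mp hk, one_mul]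
  intro x y
  obtain ⟨c, hc, hxc⟩ := key x
  obtain ⟨c', hc', hyc⟩ := key y
  rw [hxc, hyc]
  exact hC c hc c' hc'

/-- `S5023`: a rank one group acting faithfully with `A` quadratic has `A` torsion-free or
elementary abelian -/
theorem rankOne_quad_faithful {A B : Subgroup X} (h : IsRankOneGroup X A B)
    (hf : ∀ x : X, (∀ v : N, x • v = v) → x = 1)
    (hq : ∀ a ∈ A, ∀ a' ∈ A, ∀ v : N, a' • (a • v - v) = a • v - v) :
    (∀ a ∈ A, a ≠ 1 → ¬ IsOfFinOrder a) ∨ ∃ p : ℕ, p.Prime ∧ Cfsg.IsElementaryAbelian p A := by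
  have hA : QuadOn N A := quadOn_of_hyp hq
  have hB : QuadOn N B := quadOn_right h.2 hA
  have hinj : ∀ x y : X, DistribMulAction.toAddMonoidEnd X N x =
      DistribMulAction.toAddMonoidEnd X N y → x = y := by
    intro x y hxy
    have h1 : DistribMulAction.toAddMonoidEnd X N (x⁻¹ * y) = 1 := by
      rw [map_mul, ← hxy, ← map_mul, inv_mul_cancel, map_one]
    have h2 : x⁻¹ * y = 1 := hf _ (fun v => congrArg (fun f : AddMonoid.End N => f v) h1)
    exact inv_mul_eq_one.mp h2
  by_cases htf : ∀ a ∈ A, a ≠ 1 → ¬ IsOfFinOrder a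
  · left; exact htf
  · right
    simp only [not_forall, not_not] at htf
    obtain ⟨a₀, ha₀, ha₀1, hfin⟩ := htf
    obtain ⟨m, hm⟩ : ∃ m : ℕ, m = orderOf a₀ := ⟨_, rfl⟩
    have hm0 : 0 < m := by rw [hm]; exact hfin.orderOf_pos
    have hm1 : m ≠ 1 := by
      intro h1
      rw [hm] at h1
      exact ha₀1 (orderOf_eq_one_iff.mp h1)
    have hp : (m.minFac).Prime := Nat.minFac_prime hm1
    have hpm : m.minFac ∣ m := Nat.minFac_dvd m
    obtain ⟨p, hpdef⟩ : ∃ p : ℕ, p = m.minFac := ⟨_, rfl⟩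
    rw [← hpdef] at hp hpm
    have ha : a₀ ^ (m / p) ∈ A := A.pow_mem ha₀ _
    have hap : (a₀ ^ (m / p)) ^ p = 1 := by
      rw [← pow_mul, Nat.div_mul_cancel hpm, hm, pow_orderOf_eq_one]
    have ha1 : a₀ ^ (m / p) ≠ 1 := by
      apply pow_ne_one_of_lt_orderOf
      · have := Nat.div_pos (Nat.le_of_dvd hm0 hpm) hp.pos
        omega
      · rw [← hm]
        exact Nat.div_lt_self hm0 hp.one_lt
    obtain ⟨a, hadef⟩ : ∃ a : X, a = a₀ ^ (m / p) := ⟨_, rfl⟩
    rw [← hadef] at ha hap ha1
    refine ⟨p, hp, ⟨⟨fun x y => ?_⟩⟩, ?_⟩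
    · apply Subtype.ext
      apply hinj
      show DistribMulAction.toAddMonoidEnd X N ((x : X) * (y : X)) =
        DistribMulAction.toAddMonoidEnd X N ((y : X) * (x : X))
      rw [rho_eq, rho_eq, qd_mul hA x.2 y.2, qd_mul hA y.2 x.2, add_comm (qd N (x : X))]
    · intro a' ha'
      obtain ⟨b, hb, hb1, hab⟩ := h.2.cond_left a ha ha1
      have h1 : b⁻¹ * a' * b ∈ conjBy A b⁻¹ := by
        have := conj_mem_conjBy (g := b⁻¹) ha'
        simpa using this
      rw [hab, mem_conjBy] at h1
      obtain ⟨b', hb'def⟩ : ∃ b' : X, b' = a * b⁻¹ * a' * b * a⁻¹ := ⟨_, rfl⟩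
      have hb' : b' ∈ B := by
        have e : b' = a⁻¹⁻¹ * (b⁻¹ * a' * b) * a⁻¹ := by rw [hb'def]; group
        rw [e]; exact h1
      have hg : a * b⁻¹ * a' = b' * (a * b⁻¹) := by rw [hb'def]; group
      have H := congrArg (DistribMulAction.toAddMonoidEnd X N) hg
      rw [map_mul, map_mul, map_mul, map_mul, rho_eq a, rho_eq a', rho_eq b',
        rho_inv_of_sq b (hB b hb b hb)] at H
      have hp' : p • qd N a = 0 := by
        rw [← qd_pow hA ha, hap, qd_one]
      have key := quadRing_nsmul (hA a' ha' a ha) (hB b hb b hb) (hB b' hb' b hb)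
        (hB b hb b' hb') H hp'
      have h2 : a' ^ p = b' ^ p := by
        apply hinj
        rw [rho_eq, rho_eq, qd_pow hA ha', qd_pow hB hb', key]
      exact eq_one_of_mem_of_normalizes h.2 (A.pow_mem ha' p)
        (Subgroup.le_normalizer (h2 ▸ B.pow_mem hb' p))

/-- `S5019`: a rank one group with abelian unipotent subgroups acting with `A` quadratic but not
quadratically as a whole is special -/
theorem special_of_quad {A B : Subgroup X} (h : IsRankOneGroup X A B)
    (hab : HasAbelianUnipotents A B)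
    (hq : ∀ a ∈ A, ∀ a' ∈ A, ∀ n : N, a' • (a • n - n) = a • n - n)
    (hX : ∃ x y : X, ∃ n : N, y • (x • n - n) ≠ x • n - n) : IsSpecialRankOnePair A B := by
  refine ⟨h.2, ?_⟩
  have hA : QuadOn N A := quadOn_of_hyp hq
  have hB : QuadOn N B := quadOn_right h.2 hA
  have hnq : ¬ ∀ x y : X, qd N y * qd N x = 0 := by
    intro hall
    obtain ⟨x, y, n, hn⟩ := hX
    apply hn
    have h1 := congrArg (fun f : AddMonoid.End N => f n) (hall x y)
    exact sub_eq_zero.mp h1
  have hKA : (DistribMulAction.toAddMonoidEnd X N).ker ⊔ A ≠ ⊤ :=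
    fun htop => hnq (quad_top_of_sup A hA htop)
  have hKB : (DistribMulAction.toAddMonoidEnd X N).ker ⊔ B ≠ ⊤ :=
    fun htop => hnq (quad_top_of_sup B hB htop)
  have hKinfB : ∀ k : X, DistribMulAction.toAddMonoidEnd X N k = 1 → k ∈ B → k = 1 := by
    intro k hk hkB
    have hsymm : IsRankOneGroup X B A := ⟨by rw [sup_comm]; exact h.1, RankOnePair_symm h.2⟩
    rcases normal_sup_or_le_center hsymm (DistribMulAction.toAddMonoidEnd X N).ker
      inferInstance with h1 | h1
    · exact absurd h1 hKB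
    · exact eq_one_of_mem_of_normalizes' h.2 hkB
        (center_le_normalizer A (h1 (MonoidHom.mem_ker.mpr hk)))
  have hBcomm : ∀ x ∈ B, ∀ y ∈ B, x * y = y * x := fun x hx y hy =>
    comm_of_isMulCommutative hab.2 hx hy
  have hF4 : ∀ a₁ ∈ A, ∀ d ∈ B, DistribMulAction.toAddMonoidEnd X N a₁ =
      DistribMulAction.toAddMonoidEnd X N d → DistribMulAction.toAddMonoidEnd X N d = 1 := by
    intro a₁ ha₁ d hd hρ
    by_contra hne
    have ha₁1 : a₁ ≠ 1 := by
      rintro rfl
      rw [map_one] at hρ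
      exact hne hρ.symm
    obtain ⟨b₁, hb₁, -, hab₁⟩ := h.2.cond_left a₁ ha₁ ha₁1
    apply hKA
    rw [eq_top_iff, ← h.1, sup_le_iff]
    refine ⟨le_sup_right, ?_⟩
    intro b'' hb''
    have h1 : a₁⁻¹ * b'' * a₁ ∈ conjBy B a₁⁻¹ := by
      have := conj_mem_conjBy (g := a₁⁻¹) hb''
      simpa using this
    rw [← hab₁, mem_conjBy] at h1
    have hρ2 : DistribMulAction.toAddMonoidEnd X N (b₁⁻¹⁻¹ * (a₁⁻¹ * b'' * a₁) * b₁⁻¹) =
        DistribMulAction.toAddMonoidEnd X N b'' := by
      have e1 : b₁ * d⁻¹ * b'' * d * b₁⁻¹ = b'' := by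
        have c1 := hBcomm d hd b'' hb''
        have c2 := hBcomm b₁ hb₁ b'' hb''
        calc b₁ * d⁻¹ * b'' * d * b₁⁻¹ = b₁ * d⁻¹ * (b'' * d) * b₁⁻¹ := by group
          _ = b₁ * d⁻¹ * (d * b'') * b₁⁻¹ := by rw [c1]
          _ = (b₁ * b'') * b₁⁻¹ := by group
          _ = (b'' * b₁) * b₁⁻¹ := by rw [c2]
          _ = b'' := by group
      calc DistribMulAction.toAddMonoidEnd X N (b₁⁻¹⁻¹ * (a₁⁻¹ * b'' * a₁) * b₁⁻¹)
          = DistribMulAction.toAddMonoidEnd X N b₁ * DistribMulAction.toAddMonoidEnd X N a₁⁻¹ *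
            DistribMulAction.toAddMonoidEnd X N b'' * DistribMulAction.toAddMonoidEnd X N a₁ *
            DistribMulAction.toAddMonoidEnd X N b₁⁻¹ := by
              rw [inv_inv, ← map_mul, ← map_mul, ← map_mul, ← map_mul]
              congr 1; group
        _ = DistribMulAction.toAddMonoidEnd X N b₁ * DistribMulAction.toAddMonoidEnd X N d⁻¹ *
            DistribMulAction.toAddMonoidEnd X N b'' * DistribMulAction.toAddMonoidEnd X N d *
            DistribMulAction.toAddMonoidEnd X N b₁⁻¹ := by rw [rho_inv_congr hρ, hρ]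
        _ = DistribMulAction.toAddMonoidEnd X N (b₁ * d⁻¹ * b'' * d * b₁⁻¹) := by
              rw [map_mul, map_mul, map_mul, map_mul]
        _ = DistribMulAction.toAddMonoidEnd X N b'' := by rw [e1]
    have h3 : b'' * (b₁⁻¹⁻¹ * (a₁⁻¹ * b'' * a₁) * b₁⁻¹)⁻¹ ∈
        (DistribMulAction.toAddMonoidEnd X N).ker := by
      rw [MonoidHom.mem_ker, map_mul, rho_inv_congr hρ2, ← map_mul, mul_inv_cancel, map_one]
    have h4 : b'' = (b'' * (b₁⁻¹⁻¹ * (a₁⁻¹ * b'' * a₁) * b₁⁻¹)⁻¹) *
        (b₁⁻¹⁻¹ * (a₁⁻¹ * b'' * a₁) * b₁⁻¹) := by group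
    rw [h4]
    exact Subgroup.mul_mem _ (Subgroup.mem_sup_left h3) (Subgroup.mem_sup_right h1)
  have hF3 : ∀ a ∈ A, a ≠ 1 → ∀ d ∈ B, DistribMulAction.toAddMonoidEnd X N a *
      DistribMulAction.toAddMonoidEnd X N d = DistribMulAction.toAddMonoidEnd X N d *
      DistribMulAction.toAddMonoidEnd X N a → DistribMulAction.toAddMonoidEnd X N d = 1 := by
    intro a ha ha1 d hd hcomm
    obtain ⟨b₀, hb₀, -, hab₀⟩ := cond_left' h.2 ha ha1
    have h1 : a * d * a⁻¹ ∈ conjBy B a := conj_mem_conjBy hd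
    rw [← hab₀, mem_conjBy] at h1
    apply hF4 _ h1 d hd
    have e1 : DistribMulAction.toAddMonoidEnd X N (a * d * a⁻¹) =
        DistribMulAction.toAddMonoidEnd X N d := by
      rw [map_mul, map_mul, hcomm, mul_assoc, ← map_mul, mul_inv_cancel, map_one, mul_one]
    have e2 : b₀⁻¹ * d * b₀ = d := by
      have c1 := hBcomm d hd b₀ hb₀
      rw [mul_assoc, c1]; group
    calc DistribMulAction.toAddMonoidEnd X N (b₀⁻¹ * (a * d * a⁻¹) * b₀)
        = DistribMulAction.toAddMonoidEnd X N b₀⁻¹ *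
          DistribMulAction.toAddMonoidEnd X N (a * d * a⁻¹) *
          DistribMulAction.toAddMonoidEnd X N b₀ := by rw [map_mul, map_mul]
      _ = DistribMulAction.toAddMonoidEnd X N b₀⁻¹ * DistribMulAction.toAddMonoidEnd X N d *
          DistribMulAction.toAddMonoidEnd X N b₀ := by rw [e1]
      _ = DistribMulAction.toAddMonoidEnd X N (b₀⁻¹ * d * b₀) := by rw [map_mul, map_mul]
      _ = DistribMulAction.toAddMonoidEnd X N d := by rw [e2]
  intro a ha ha1 b hb hb1 hab'
  have h1 : b⁻¹ * a * b ∈ conjBy A b⁻¹ := by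
    have := conj_mem_conjBy (g := b⁻¹) ha
    simpa using this
  rw [hab', mem_conjBy] at h1
  obtain ⟨b', hb'def⟩ : ∃ b' : X, b' = a * b⁻¹ * a * b * a⁻¹ := ⟨_, rfl⟩
  have hb' : b' ∈ B := by
    have e : b' = a⁻¹⁻¹ * (b⁻¹ * a * b) * a⁻¹ := by rw [hb'def]; group
    rw [e]; exact h1
  have hg : a * b⁻¹ * a = b' * (a * b⁻¹) := by rw [hb'def]; group
  have hg' : b * a⁻¹ * b' = a * (b * a⁻¹) := by rw [hb'def]; group
  have H := congrArg (DistribMulAction.toAddMonoidEnd X N) hg
  rw [map_mul, map_mul, map_mul, map_mul, rho_eq a, rho_eq b',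
    rho_inv_of_sq b (hB b hb b hb)] at H
  have H' := congrArg (DistribMulAction.toAddMonoidEnd X N) hg'
  rw [map_mul, map_mul, map_mul, map_mul, rho_eq a, rho_eq b', rho_eq b,
    rho_inv_of_sq a (hA a ha a ha)] at H'
  obtain ⟨k1, k2⟩ := quadRing_comm (hA a ha a ha) (hB b hb b hb) (hB b' hb' b hb)
    (hB b hb b' hb') H H'
  have hd : b' * b ∈ B := B.mul_mem hb' hb
  have hcomm : DistribMulAction.toAddMonoidEnd X N a *
      DistribMulAction.toAddMonoidEnd X N (b' * b) = DistribMulAction.toAddMonoidEnd X N (b' * b) *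
      DistribMulAction.toAddMonoidEnd X N a := by
    rw [rho_eq a, rho_eq (b' * b), qd_mul hB hb' hb]
    have e1 : (1 + qd N a) * (1 + (qd N b' + qd N b)) =
        1 + qd N a + (qd N b' + qd N b) + qd N a * (qd N b' + qd N b) := by noncomm_ring
    have e2 : (1 + (qd N b' + qd N b)) * (1 + qd N a) =
        1 + qd N a + (qd N b' + qd N b) + (qd N b' + qd N b) * qd N a := by noncomm_ring
    rw [e1, e2, k1, k2]
  have hd1 := hKinfB _ (hF3 a ha ha1 _ hd hcomm) hd
  rw [hb'def] at hd1
  calc b⁻¹ * a * b = a⁻¹ * (a * b⁻¹ * a * b * a⁻¹ * b) * b⁻¹ * a := by group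
    _ = a⁻¹ * b⁻¹ * a := by rw [hd1]; group

end Action

end Cfsg.Agent.Helper26
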