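import Mathlib
import Cfsg.Prelude.Def_FusionSystem
import Cfsg.Agent.Helper26.PCore

set_option autoImplicit false

namespace Cfsg.Agent.Helper26

open Cfsg

open scoped IsMulCommutative

/-- averaging a cocycle that is constant on the left cosets of a subgroup of index prime to the
order of the coefficients -/
theorem cocycle_coboundary {G : Type*} [Group G] [Finite G] (T : Subgroup G)
    {Z : Type*} [CommGroup Z] (c : G → Z →* Z) (u : G → Z)
    (hcoc : ∀ h g, u (h * g) = u h * c h (u g)) (hT : ∀ g, ∀ t ∈ T, u (g * t) = u g)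
    (hcop : (Nat.card Z).Coprime T.index) : ∃ w : Z, ∀ h, u h = w * (c h w)⁻¹ := by
  classical
  haveI : Fintype (G ⧸ T) := Fintype.ofFinite _
  obtain ⟨ū, hū⟩ : ∃ ū : G ⧸ T → Z, ∀ g : G, ū (QuotientGroup.mk g) = u g := by
    refine ⟨Quotient.lift u ?_, fun g => rfl⟩
    intro a b hab
    have h1 : a⁻¹ * b ∈ T := QuotientGroup.leftRel_apply.mp hab
    have h2 := hT a (a⁻¹ * b) h1
    rw [mul_inv_cancel_left] at h2
    exact h2.symm
  have key : ∀ h : G, (∏ q : G ⧸ T, ū q) = u h ^ T.index * c h (∏ q : G ⧸ T, ū q) := by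
    intro h
    calc (∏ q : G ⧸ T, ū q) = ∏ q : G ⧸ T, ū (h • q) :=
          (Fintype.prod_equiv (MulAction.toPerm h) (fun q => ū (h • q)) ū (fun q => rfl)).symm
      _ = ∏ q : G ⧸ T, (u h * c h (ū q)) := by
          apply Finset.prod_congr rfl
          intro q _
          induction q using QuotientGroup.induction_on with
          | H g =>
            have e : h • (QuotientGroup.mk g : G ⧸ T) = QuotientGroup.mk (h * g) := rfl
            rw [e, hū, hū]
            exact hcoc h g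
      _ = u h ^ T.index * c h (∏ q : G ⧸ T, ū q) := by
          rw [Finset.prod_mul_distrib, Finset.prod_const, Finset.card_univ, ← map_prod]
          congr 2
          rw [Subgroup.index, Nat.card_eq_fintype_card]
  obtain ⟨w, hw⟩ := (powCoprime hcop).surjective (∏ q : G ⧸ T, ū q)
  have hw' : w ^ T.index = ∏ q : G ⧸ T, ū q := hw
  refine ⟨w, fun h => ?_⟩
  apply (powCoprime hcop).injective
  show u h ^ T.index = (w * (c h w)⁻¹) ^ T.index
  have h1 := key h
  rw [← hw', map_pow] at h1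
  rw [mul_pow, inv_pow]
  rw [eq_mul_inv_iff_mul_eq]
  exact h1.symm

/-- An automorphism of a finite group `G` with `C_G(O_p(G)) ≤ O_p(G)` fixing a Sylow
`p`-subgroup `T` elementwise is conjugation by an element of `Z(T)`. -/
theorem aut_fixing_sylow {G : Type*} [Group G] [Finite G] (p : ℕ) [Fact p.Prime] (T : Sylow p G)
    (hC : Subgroup.centralizer ((pCore p G : Subgroup G) : Set G) ≤ pCore p G)
    (ψ : G ≃* G) (hψ : ∀ x ∈ (T : Subgroup G), ψ x = x) :
    ∃ w ∈ (T : Subgroup G), (∀ x ∈ (T : Subgroup G), w * x = x * w) ∧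
      ∀ g : G, ψ g = w * g * w⁻¹ := by
  have hp : p.Prime := Fact.out
  have hQn : (pCore p G).Normal := pCore_normal p G
  have hQp := isPGroup_pCore p G
  have hQT : pCore p G ≤ T := hQp.le_sylow_of_normal T
  have hZn : ∀ (h : G), ∀ z ∈ pCore p G ⊓ Subgroup.centralizer ((pCore p G : Subgroup G) : Set G),
      h * z * h⁻¹ ∈ pCore p G ⊓ Subgroup.centralizer ((pCore p G : Subgroup G) : Set G) := by
    intro h z hz
    refine ⟨hQn.conj_mem z hz.1 h, Subgroup.mem_centralizer_iff.mpr ?_⟩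
    intro x hx
    have hx' : h⁻¹ * x * h ∈ pCore p G := by
      have := hQn.conj_mem x hx h⁻¹
      rwa [inv_inv] at this
    have h1 := Subgroup.mem_centralizer_iff.mp hz.2 _ hx'
    calc x * (h * z * h⁻¹) = h * ((h⁻¹ * x * h) * z) * h⁻¹ := by group
      _ = h * (z * (h⁻¹ * x * h)) * h⁻¹ := by rw [h1]
      _ = h * z * h⁻¹ * x := by group
  have hu : ∀ g : G, ψ g * g⁻¹ ∈
      pCore p G ⊓ Subgroup.centralizer ((pCore p G : Subgroup G) : Set G) := by
    intro g
    have hcen : ψ g * g⁻¹ ∈ Subgroup.centralizer ((pCore p G : Subgroup G) : Set G) := by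
      rw [Subgroup.mem_centralizer_iff]
      intro x hx
      have hx' : g⁻¹ * x * g ∈ pCore p G := by
        have := hQn.conj_mem x hx g⁻¹
        rwa [inv_inv] at this
      have h1 := hψ _ (hQT hx')
      rw [map_mul, map_mul, map_inv, hψ x (hQT hx)] at h1
      calc x * (ψ g * g⁻¹) = ψ g * ((ψ g)⁻¹ * x * ψ g) * g⁻¹ := by group
        _ = ψ g * (g⁻¹ * x * g) * g⁻¹ := by rw [h1]
        _ = ψ g * g⁻¹ * x := by group
    exact ⟨hC hcen, hcen⟩
  haveI : IsMulCommutative
      ↥(pCore p G ⊓ Subgroup.centralizer ((pCore p G : Subgroup G) : Set G)) :=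
    ⟨⟨fun a b => Subtype.ext (Subgroup.mem_centralizer_iff.mp b.2.2 a a.2.1)⟩⟩
  have hcop : (Nat.card ↥(pCore p G ⊓
      Subgroup.centralizer ((pCore p G : Subgroup G) : Set G))).Coprime (T : Subgroup G).index := by
    obtain ⟨k, hk⟩ := IsPGroup.iff_card.mp (hQp.to_le (inf_le_left :
      pCore p G ⊓ Subgroup.centralizer ((pCore p G : Subgroup G) : Set G) ≤ pCore p G))
    rw [hk]
    exact Nat.Coprime.pow_left k ((Nat.Prime.coprime_iff_not_dvd hp).mpr T.not_dvd_index)
  obtain ⟨w, hw⟩ := cocycle_coboundary (T : Subgroup G)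
    (Z := ↥(pCore p G ⊓ Subgroup.centralizer ((pCore p G : Subgroup G) : Set G)))
    (fun h => ((MulAut.conj h).toMonoidHom.comp (Subgroup.subtype _)).codRestrict _
      (fun z => hZn h z z.2))
    (fun g => ⟨ψ g * g⁻¹, hu g⟩)
    (by
      intro h g
      apply Subtype.ext
      show ψ (h * g) * (h * g)⁻¹ = ψ h * h⁻¹ * (h * (ψ g * g⁻¹) * h⁻¹)
      rw [map_mul]
      group)
    (by
      intro g t ht
      apply Subtype.ext
      show ψ (g * t) * (g * t)⁻¹ = ψ g * g⁻¹
      rw [map_mul, hψ t ht]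
      group)
    hcop
  have hmain : ∀ g : G, ψ g = (w : G) * g * (w : G)⁻¹ := by
    intro g
    have h1 := congrArg Subtype.val (hw g)
    have h2 : ψ g * g⁻¹ = (w : G) * (g * (w : G) * g⁻¹)⁻¹ := h1
    calc ψ g = ψ g * g⁻¹ * g := by group
      _ = (w : G) * (g * (w : G) * g⁻¹)⁻¹ * g := by rw [h2]
      _ = (w : G) * g * (w : G)⁻¹ := by group
  refine ⟨w, hQT w.2.1, ?_, hmain⟩
  intro x hx
  have h1 := hmain x
  rw [hψ x hx] at h1
  calc (w : G) * x = (w : G) * x * (w : G)⁻¹ * (w : G) := by group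
    _ = x * (w : G) := by rw [← h1]

variable {Ω : Type*} [Group Ω] {S : Subgroup Ω}

/-- rigidity of models -/
theorem model_rigid (p : ℕ) [Fact p.Prime] (F : FusionSystem S) {G : Type*} [Group G]
    (ι : S →* G) (hG : F.IsModel p G ι) (ψ : G ≃* G) (hψ : ∀ x : S, ψ (ι x) = ι x) :
    ∃ z : S, z ∈ Subgroup.center S ∧ ∀ g : G, ψ g = ι z * g * (ι z)⁻¹ := by
  obtain ⟨hfin, ⟨hinj, -⟩, ⟨T, hT⟩, hC⟩ := hG
  haveI := hfin
  obtain ⟨w, hwT, hwc, hw⟩ := aut_fixing_sylow p T hC ψ (by
    intro x hx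
    rw [hT] at hx
    obtain ⟨s, rfl⟩ := hx
    exact hψ s)
  rw [hT] at hwT
  obtain ⟨z, rfl⟩ := hwT
  refine ⟨z, Subgroup.mem_center_iff.mpr ?_, hw⟩
  intro s
  apply hinj
  rw [map_mul, map_mul]
  have h1 := hwc (ι s) (by rw [hT]; exact ⟨s, rfl⟩)
  exact h1.symm

end Cfsg.Agent.Helper26
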