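import Mathlib
import Cfsg.Agent.Helper26.RankOne

set_option autoImplicit false

namespace Cfsg.Agent.Helper26

open Cfsg

/-- a bounded natural-valued function attains its maximum -/
theorem exists_max_nat_unip {α : Type*} (P : α → Prop) (f : α → ℕ) (D : ℕ) (hne : ∃ x, P x)
    (hb : ∀ x, P x → f x ≤ D) : ∃ x, P x ∧ ∀ y, P y → f y ≤ f x := by
  have key : ∀ n : ℕ, ∀ x, P x → D ≤ f x + n → ∃ x, P x ∧ ∀ y, P y → f y ≤ f x := by
    intro n
    induction n with
    | zero =>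
      intro x hx hD
      exact ⟨x, hx, fun y hy => le_trans (hb y hy) (by simpa using hD)⟩
    | succ n ih =>
      intro x hx hD
      by_cases hmax : ∀ y, P y → f y ≤ f x
      · exact ⟨x, hx, hmax⟩
      · simp only [not_forall, not_le] at hmax
        obtain ⟨y, hy, hlt⟩ := hmax
        exact ih y hy (by omega)
  obtain ⟨x, hx⟩ := hne
  exact key D x hx (by omega)

theorem biSup_induction {G : Type*} [Group G] {Λ : Set (Subgroup G)} {C : G → Prop} {x : G}
    (hx : x ∈ ⨆ A ∈ Λ, A) (mem : ∀ A ∈ Λ, ∀ x ∈ A, C x) (one : C 1)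
    (mul : ∀ x y, C x → C y → C (x * y)) : C x := by
  rw [iSup_subtype'] at hx
  exact Subgroup.iSup_induction (C := C) _ hx (fun A x hx => mem A.1 A.2 x hx) one mul

theorem sup_induction' {G : Type*} [Group G] {A B : Subgroup G} {C : G → Prop} {x : G}
    (hx : x ∈ A ⊔ B) (memA : ∀ x ∈ A, C x) (memB : ∀ x ∈ B, C x) (one : C 1)
    (mul : ∀ x y, C x → C y → C (x * y)) : C x := by
  rw [sup_eq_iSup] at hx
  refine Subgroup.iSup_induction (C := C) _ hx (fun b x hx => ?_) one mul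
  cases b
  · exact memB x hx
  · exact memA x hx

section SubmoduleAlgebra

variable {k : Type*} [Field k] {E : Type*} [Ring E] [Algebra k E]

/-- a nilpotent submodule of an algebra -/
def NilSub (P : Submodule k E) : Prop := ∃ n : ℕ, P ^ n = ⊥

theorem NilSub.mono {P Q : Submodule k E} (hQ : NilSub Q) (h : P ≤ Q) : NilSub P := by
  obtain ⟨n, hn⟩ := hQ
  refine ⟨n, ?_⟩
  rw [eq_bot_iff, ← hn]
  exact pow_le_pow_left' h n

theorem nil_pow_succ_le {I : Submodule k E} (hII : I * I ≤ I) (t : ℕ) :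
    I ^ (t + 2) ≤ I ^ (t + 1) := by
  rw [pow_succ, pow_succ, mul_assoc]
  exact mul_le_mul' le_rfl hII

theorem nil_pow_add_le {I : Submodule k E} (hII : I * I ≤ I) (t s : ℕ) :
    I ^ (t + 1 + s) ≤ I ^ (t + 1) := by
  induction s with
  | zero => exact le_rfl
  | succ s ih =>
    have h1 : I ^ (t + 1 + (s + 1)) ≤ I ^ (t + 1 + s) := by
      have : t + 1 + (s + 1) = (t + s) + 2 := by omega
      rw [this]
      have h2 : t + 1 + s = (t + s) + 1 := by omega
      rw [h2]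
      exact nil_pow_succ_le hII (t + s)
    exact h1.trans ih

/-- a nilpotent subalgebra normalized by another one: the sum is nilpotent -/
theorem nil_normal_prod {I J : Submodule k E} (hII : I * I ≤ I) (hJJ : J * J ≤ J)
    (hJI : J * I ≤ I ⊔ I * J) (hI : NilSub I) (hJ : NilSub J) :
    (I ⊔ J ⊔ I * J) * (I ⊔ J ⊔ I * J) ≤ I ⊔ J ⊔ I * J ∧ NilSub (I ⊔ J ⊔ I * J) := by
  obtain ⟨Q, hQ⟩ : ∃ Q : Submodule k E, Q = I ⊔ I * J := ⟨_, rfl⟩
  have hK : I ⊔ J ⊔ I * J = Q ⊔ J := by rw [hQ, sup_right_comm]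
  rw [hK]
  have hIQ : I * Q ≤ Q := by
    rw [hQ, Submodule.mul_sup, ← mul_assoc]
    exact sup_le ((hII).trans le_sup_left) ((mul_le_mul' hII le_rfl).trans le_sup_right)
  have hQJ : Q * J ≤ Q := by
    rw [hQ, Submodule.sup_mul, mul_assoc]
    exact sup_le le_sup_right ((mul_le_mul' le_rfl hJJ).trans le_sup_right)
  have hJQ : J * Q ≤ Q := by
    have h1 : J * Q = J * I ⊔ (J * I) * J := by rw [hQ, Submodule.mul_sup, mul_assoc]
    rw [h1]
    have h2 : J * I ≤ Q := by rw [hQ]; exact hJI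
    exact sup_le h2 ((mul_le_mul' h2 le_rfl).trans hQJ)
  have hQQ : Q * Q ≤ Q := by
    have h1 : Q * Q = I * Q ⊔ I * (J * Q) := by
      conv_lhs => rw [hQ, Submodule.sup_mul, mul_assoc, ← hQ]
    rw [h1]
    exact sup_le hIQ ((mul_le_mul' le_rfl hJQ).trans hIQ)
  have hKK : (Q ⊔ J) * (Q ⊔ J) ≤ Q ⊔ J := by
    rw [Submodule.sup_mul, Submodule.mul_sup, Submodule.mul_sup]
    exact sup_le (sup_le (hQQ.trans le_sup_left) (hQJ.trans le_sup_left))
      (sup_le (hJQ.trans le_sup_left) (hJJ.trans le_sup_right))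
  refine ⟨hKK, ?_⟩
  obtain ⟨m, hm⟩ := hI
  obtain ⟨r, hr⟩ := hJ
  have hm' : I ^ (m + 1) = ⊥ := by rw [pow_succ, hm, Submodule.bot_mul]
  have hr' : J ^ (r + 1) = ⊥ := by rw [pow_succ, hr, Submodule.bot_mul]
  have c1 : ∀ t : ℕ, Q ^ (t + 1) ≤ I ^ (t + 1) ⊔ I ^ (t + 1) * J := by
    intro t
    induction t with
    | zero => rw [zero_add, pow_one, pow_one, hQ]
    | succ t ih =>
      have h1 : Q ^ (t + 1 + 1) ≤ (I ^ (t + 1) ⊔ I ^ (t + 1) * J) * Q := by
        rw [pow_succ]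
        exact mul_le_mul' ih le_rfl
      have h2 : (I ^ (t + 1) ⊔ I ^ (t + 1) * J) * Q ≤ I ^ (t + 1) * Q := by
        rw [Submodule.sup_mul, mul_assoc]
        exact sup_le le_rfl (mul_le_mul' le_rfl hJQ)
      have h3 : I ^ (t + 1) * Q = I ^ (t + 1 + 1) ⊔ I ^ (t + 1 + 1) * J := by
        rw [hQ, Submodule.mul_sup, ← mul_assoc, ← pow_succ]
      exact h1.trans (h2.trans h3.le)
  have hQm : Q ^ (m + 1) = ⊥ := by
    rw [eq_bot_iff]
    refine (c1 m).trans ?_
    rw [hm', Submodule.bot_mul, sup_bot_eq]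
  have c2 : ∀ t : ℕ, J ^ t * Q ≤ Q := by
    intro t
    induction t with
    | zero => rw [pow_zero, one_mul]
    | succ t ih =>
      rw [pow_succ, mul_assoc]
      exact (mul_le_mul' le_rfl hJQ).trans ih
  have c3 : ∀ t : ℕ, (Q ⊔ J) ^ (t + 1) ≤ Q ⊔ J ^ (t + 1) := by
    intro t
    induction t with
    | zero => rw [zero_add, pow_one, pow_one]
    | succ t ih =>
      have h1 : (Q ⊔ J) ^ (t + 1 + 1) ≤ (Q ⊔ J ^ (t + 1)) * (Q ⊔ J) := by
        rw [pow_succ]
        exact mul_le_mul' ih le_rfl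
      refine h1.trans ?_
      rw [Submodule.sup_mul, Submodule.mul_sup, Submodule.mul_sup, ← pow_succ]
      exact sup_le (sup_le (hQQ.trans le_sup_left) (hQJ.trans le_sup_left))
        (sup_le ((c2 (t + 1)).trans le_sup_left) le_sup_right)
  refine ⟨(r + 1) * (m + 1), ?_⟩
  rw [eq_bot_iff, pow_mul, ← hQm]
  apply pow_le_pow_left'
  refine (c3 r).trans ?_
  rw [hr', sup_bot_eq]

end SubmoduleAlgebra

section Unipotent

variable {k : Type*} [Field k] {M : Type*} [AddCommGroup M] [Module k M]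

/-- the span of the elements `h - 1`, `h ∈ H` -/
def augSub (H : Subgroup (LinearMap.GeneralLinearGroup k M)) : Submodule k (Module.End k M) :=
  Submodule.span k {x | ∃ h ∈ H, x = (h : Module.End k M) - 1}

theorem mem_augSub {H : Subgroup (LinearMap.GeneralLinearGroup k M)}
    {h : LinearMap.GeneralLinearGroup k M} (hh : h ∈ H) : (h : Module.End k M) - 1 ∈ augSub H :=
  Submodule.subset_span ⟨h, hh, rfl⟩

theorem augSub_mono {H H' : Subgroup (LinearMap.GeneralLinearGroup k M)} (h : H ≤ H') :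
    augSub H ≤ augSub H' := by
  apply Submodule.span_mono
  rintro _ ⟨x, hx, rfl⟩
  exact ⟨x, h hx, rfl⟩

theorem val_mul_sub_one (x y : LinearMap.GeneralLinearGroup k M) :
    ((x * y : LinearMap.GeneralLinearGroup k M) : Module.End k M) - 1 =
      ((x : Module.End k M) - 1) * ((y : Module.End k M) - 1) + ((x : Module.End k M) - 1) +
        ((y : Module.End k M) - 1) := by
  rw [Units.val_mul]; noncomm_ring

theorem augSub_mul_le (H : Subgroup (LinearMap.GeneralLinearGroup k M)) :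
    augSub H * augSub H ≤ augSub H := by
  unfold augSub
  rw [Submodule.span_mul_span, Submodule.span_le]
  rintro _ ⟨_, ⟨x, hx, rfl⟩, _, ⟨y, hy, rfl⟩, rfl⟩
  have e : ((x : Module.End k M) - 1) * ((y : Module.End k M) - 1) =
      (((x * y : LinearMap.GeneralLinearGroup k M) : Module.End k M) - 1) -
        ((x : Module.End k M) - 1) - ((y : Module.End k M) - 1) := by
    rw [val_mul_sub_one]; abel
  show ((x : Module.End k M) - 1) * ((y : Module.End k M) - 1) ∈ Submodule.span k _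
  rw [e]
  exact Submodule.sub_mem _ (Submodule.sub_mem _ (Submodule.subset_span ⟨_, H.mul_mem hx hy, rfl⟩)
    (Submodule.subset_span ⟨_, hx, rfl⟩)) (Submodule.subset_span ⟨_, hy, rfl⟩)

/-- the augmentation submodule of a family of subgroups -/
def famSub (Λ : Set (Subgroup (LinearMap.GeneralLinearGroup k M))) :
    Submodule k (Module.End k M) := augSub (⨆ A ∈ Λ, A)

theorem famSub_mono {Λ Λ' : Set (Subgroup (LinearMap.GeneralLinearGroup k M))} (h : Λ ⊆ Λ') :
    famSub Λ ≤ famSub Λ' :=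
  augSub_mono (biSup_mono (fun _ hA => h hA))

theorem mem_famSub {Λ : Set (Subgroup (LinearMap.GeneralLinearGroup k M))}
    {A : Subgroup (LinearMap.GeneralLinearGroup k M)} (hA : A ∈ Λ)
    {a : LinearMap.GeneralLinearGroup k M} (ha : a ∈ A) : (a : Module.End k M) - 1 ∈ famSub Λ :=
  mem_augSub ((le_biSup (fun A => A) hA) ha)

theorem famSub_mul_le (Λ : Set (Subgroup (LinearMap.GeneralLinearGroup k M))) :
    famSub Λ * famSub Λ ≤ famSub Λ := augSub_mul_le _

theorem augSub_le_of_forall {Λ : Set (Subgroup (LinearMap.GeneralLinearGroup k M))}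
    {P : Submodule k (Module.End k M)} (hP : P * P ≤ P)
    (h : ∀ A ∈ Λ, ∀ a ∈ A, (a : Module.End k M) - 1 ∈ P) : famSub Λ ≤ P := by
  unfold famSub augSub
  rw [Submodule.span_le]
  rintro _ ⟨g, hg, rfl⟩
  refine biSup_induction
    (C := fun g : LinearMap.GeneralLinearGroup k M => (g : Module.End k M) - 1 ∈ P) hg h ?_ ?_
  · show ((1 : LinearMap.GeneralLinearGroup k M) : Module.End k M) - 1 ∈ P
    rw [Units.val_one, sub_self]
    exact P.zero_mem
  · intro x y hx hy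
    show ((x * y : LinearMap.GeneralLinearGroup k M) : Module.End k M) - 1 ∈ P
    rw [val_mul_sub_one]
    exact P.add_mem (P.add_mem (hP (Submodule.mul_mem_mul hx hy)) hx) hy

theorem famSub_union_le {Λ 𝒜 : Set (Subgroup (LinearMap.GeneralLinearGroup k M))}
    (h : ∀ A ∈ 𝒜, ∀ a ∈ A, (a : Module.End k M) - 1 ∈ famSub Λ) :
    famSub (Λ ∪ 𝒜) ≤ famSub Λ := by
  apply augSub_le_of_forall (famSub_mul_le Λ)
  rintro A (hA | hA) a ha
  · exact mem_famSub hA ha
  · exact h A hA a ha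

theorem flatMap_singleton_map {α β : Type*} (f : α → β) (l : List α) :
    List.flatMap (fun a => [f a]) l = l.map f := by
  induction l with
  | nil => rfl
  | cons a l ih => simp [List.flatMap_cons, ih]

theorem unip_list_eq (l : List (LinearMap.GeneralLinearGroup k M)) :
    (l.map fun g => (g : M →ₗ[k] M) - 1) =
      l.map (fun g : LinearMap.GeneralLinearGroup k M => (g : Module.End k M) - 1) := by
  simp only [List.bind_eq_flatMap, List.map_flatMap]
  exact flatMap_singleton_map _ _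

theorem isUnipotentOn_def (H : Subgroup (LinearMap.GeneralLinearGroup k M)) :
    IsUnipotentOn H ↔ ∃ n : ℕ, ∀ l : List (LinearMap.GeneralLinearGroup k M),
      (∀ g ∈ l, g ∈ H) → l.length = n →
      (l.map (fun g : LinearMap.GeneralLinearGroup k M => (g : Module.End k M) - 1)).prod = 0 := by
  unfold IsUnipotentOn
  constructor
  · rintro ⟨n, hn⟩
    refine ⟨n, fun l hl hlen => ?_⟩
    have h1 := hn l hl hlen
    rw [unip_list_eq] at h1
    exact h1
  · rintro ⟨n, hn⟩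
    refine ⟨n, fun l hl hlen => ?_⟩
    rw [unip_list_eq]
    exact hn l hl hlen

theorem list_prod_mem_pow {H : Subgroup (LinearMap.GeneralLinearGroup k M)}
    (l : List (LinearMap.GeneralLinearGroup k M)) (hl : ∀ g ∈ l, g ∈ H) :
    (l.map (fun g : LinearMap.GeneralLinearGroup k M => (g : Module.End k M) - 1)).prod ∈
      augSub H ^ l.length := by
  induction l with
  | nil =>
    rw [List.map_nil, List.prod_nil, List.length_nil, pow_zero]
    exact Submodule.one_le.mp le_rfl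
  | cons g l ih =>
    rw [List.map_cons, List.prod_cons, List.length_cons, pow_succ']
    exact Submodule.mul_mem_mul (mem_augSub (hl g (by simp)))
      (ih (fun x hx => hl x (by simp [hx])))

/-- unipotent action in terms of the augmentation submodule -/
theorem isUnipotentOn_iff (H : Subgroup (LinearMap.GeneralLinearGroup k M)) :
    IsUnipotentOn H ↔ NilSub (augSub H) := by
  rw [isUnipotentOn_def]
  constructor
  · rintro ⟨n, hn⟩
    refine ⟨n, ?_⟩
    unfold augSub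
    rw [Submodule.span_pow, Submodule.span_eq_bot]
    intro x hx
    rw [Set.mem_pow] at hx
    obtain ⟨f, rfl⟩ := hx
    choose g hg hfg using fun i => (f i).2
    have h1 := hn (List.ofFn g) (by
      intro y hy
      rw [List.mem_ofFn] at hy
      obtain ⟨i, rfl⟩ := hy
      exact hg i) (List.length_ofFn)
    rw [List.map_ofFn] at h1
    rw [← h1]
    congr 1
    apply congrArg
    funext i
    exact hfg i
  · rintro ⟨n, hn⟩
    refine ⟨n, fun l hl hlen => ?_⟩
    have h1 := list_prod_mem_pow l hl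
    rw [hlen, hn, Submodule.mem_bot] at h1
    exact h1

/-- a family of subgroups generating a unipotent group -/
def Good (Λ : Set (Subgroup (LinearMap.GeneralLinearGroup k M))) : Prop := NilSub (famSub Λ)

theorem Good.mono {Λ Λ' : Set (Subgroup (LinearMap.GeneralLinearGroup k M))} (h' : Good Λ')
    (h : Λ ⊆ Λ') : Good Λ := NilSub.mono h' (famSub_mono h)

theorem good_empty : Good (∅ : Set (Subgroup (LinearMap.GeneralLinearGroup k M))) := by
  refine ⟨1, ?_⟩
  rw [pow_one, eq_bot_iff]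
  apply augSub_le_of_forall
  · rw [Submodule.bot_mul]
  · intro A hA
    exact absurd hA (Set.notMem_empty A)

theorem famSub_singleton (A : Subgroup (LinearMap.GeneralLinearGroup k M)) :
    famSub {A} = augSub A := by
  unfold famSub
  rw [iSup_singleton]

/-- the normal product lemma -/
theorem good_insert_pair {Λ : Set (Subgroup (LinearMap.GeneralLinearGroup k M))} (hΛ : Good Λ)
    {A B : Subgroup (LinearMap.GeneralLinearGroup k M)}
    (hA : ∀ a ∈ A, ∀ C ∈ Λ, conjBy C a ∈ Λ) (hB : ∀ b ∈ B, ∀ C ∈ Λ, conjBy C b ∈ Λ)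
    (hAB : NilSub (augSub (A ⊔ B))) : Good (Λ ∪ {A, B}) := by
  have hconj : ∀ x : LinearMap.GeneralLinearGroup k M, (∀ C ∈ Λ, conjBy C x ∈ Λ) →
      ∀ h ∈ ⨆ C ∈ Λ, C, x * h * x⁻¹ ∈ ⨆ C ∈ Λ, C := by
    intro x hx h hh
    refine biSup_induction (C := fun h => x * h * x⁻¹ ∈ ⨆ C ∈ Λ, C) hh ?_ ?_ ?_
    · intro C hC c hc
      exact (le_biSup (fun A => A) (hx C hC)) (conj_mem_conjBy hc)
    · show x * 1 * x⁻¹ ∈ ⨆ C ∈ Λ, C
      rw [mul_one, mul_inv_cancel]
      exact Subgroup.one_mem _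
    · intro y z hy hz
      show x * (y * z) * x⁻¹ ∈ ⨆ C ∈ Λ, C
      have e : x * (y * z) * x⁻¹ = (x * y * x⁻¹) * (x * z * x⁻¹) := by group
      rw [e]
      exact Subgroup.mul_mem _ hy hz
  have hN1 : ∀ x ∈ A ⊔ B, ∀ h ∈ ⨆ C ∈ Λ, C, x * h * x⁻¹ ∈ ⨆ C ∈ Λ, C := by
    intro x hx
    refine sup_induction' (C := fun x => ∀ h ∈ ⨆ C ∈ Λ, C, x * h * x⁻¹ ∈ ⨆ C ∈ Λ, C) hx
      (fun a ha => hconj a (hA a ha)) (fun b hb => hconj b (hB b hb)) ?_ ?_
    · intro h hh
      rw [one_mul, inv_one, mul_one]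
      exact hh
    · intro y z hy hz h hh
      have e : y * z * h * (y * z)⁻¹ = y * (z * h * z⁻¹) * y⁻¹ := by group
      rw [e]
      exact hy _ (hz h hh)
  have hJI : augSub (A ⊔ B) * famSub Λ ≤ famSub Λ ⊔ famSub Λ * augSub (A ⊔ B) := by
    unfold famSub augSub
    rw [Submodule.span_mul_span, Submodule.span_le]
    rintro _ ⟨_, ⟨x, hx, rfl⟩, _, ⟨h, hh, rfl⟩, rfl⟩
    have hh' := hN1 x hx h hh
    have e : ((x : Module.End k M) - 1) * ((h : Module.End k M) - 1) =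
        (((x * h * x⁻¹ : LinearMap.GeneralLinearGroup k M) : Module.End k M) - 1) *
          ((x : Module.End k M) - 1) +
        ((((x * h * x⁻¹ : LinearMap.GeneralLinearGroup k M) : Module.End k M) - 1) -
          ((h : Module.End k M) - 1)) := by
      have e1 : ((x * h * x⁻¹ : LinearMap.GeneralLinearGroup k M) : Module.End k M) *
          (x : Module.End k M) = (x : Module.End k M) * (h : Module.End k M) := by
        rw [← Units.val_mul, ← Units.val_mul]
        congr 1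
        group
      have e2 : (((x * h * x⁻¹ : LinearMap.GeneralLinearGroup k M) : Module.End k M) - 1) *
          ((x : Module.End k M) - 1) =
          ((x * h * x⁻¹ : LinearMap.GeneralLinearGroup k M) : Module.End k M) *
            (x : Module.End k M) -
          ((x * h * x⁻¹ : LinearMap.GeneralLinearGroup k M) : Module.End k M) -
            (x : Module.End k M) + 1 := by noncomm_ring
      rw [e2, e1]
      noncomm_ring
    show ((x : Module.End k M) - 1) * ((h : Module.End k M) - 1) ∈ _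
    rw [e]
    refine Submodule.add_mem _ (Submodule.mem_sup_right
      (Submodule.mul_mem_mul (mem_augSub hh') (mem_augSub hx))) (Submodule.mem_sup_left ?_)
    exact Submodule.sub_mem _ (mem_augSub hh') (mem_augSub hh)
  obtain ⟨hKK, hK⟩ := nil_normal_prod (famSub_mul_le Λ) (augSub_mul_le (A ⊔ B)) hJI hΛ hAB
  apply NilSub.mono hK
  apply augSub_le_of_forall hKK
  rintro C (hC | hC) c hc
  · exact Submodule.mem_sup_left (Submodule.mem_sup_left (mem_famSub hC hc))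
  · rcases hC with rfl | hC
    · exact Submodule.mem_sup_left (Submodule.mem_sup_right
        (mem_augSub (Subgroup.mem_sup_left hc)))
    · rw [Set.mem_singleton_iff] at hC
      subst hC
      exact Submodule.mem_sup_left (Submodule.mem_sup_right
        (mem_augSub (Subgroup.mem_sup_right hc)))

end Unipotent

section Main

variable {k : Type*} [Field k] {M : Type*} [AddCommGroup M] [Module k M]

/-- maximal good families inside `W` -/
def MaxGood (W Λ : Set (Subgroup (LinearMap.GeneralLinearGroup k M))) : Prop :=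
  Λ ⊆ W ∧ Good Λ ∧ ∀ Λ' : Set (Subgroup (LinearMap.GeneralLinearGroup k M)),
    Λ' ⊆ W → Good Λ' → Λ ⊆ Λ' → Λ' ⊆ Λ

theorem exists_maxGood [FiniteDimensional k M]
    {W Λ₀ : Set (Subgroup (LinearMap.GeneralLinearGroup k M))} (h₀W : Λ₀ ⊆ W) (h₀ : Good Λ₀) :
    ∃ Λ, MaxGood W Λ ∧ Λ₀ ⊆ Λ := by
  obtain ⟨Λ, ⟨h0Λ, hΛW, hΛ⟩, hmax⟩ := exists_max_nat_unip
    (fun Λ : Set (Subgroup (LinearMap.GeneralLinearGroup k M)) => Λ₀ ⊆ Λ ∧ Λ ⊆ W ∧ Good Λ)
    (fun Λ => Module.finrank k (famSub Λ)) (Module.finrank k (Module.End k M))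
    ⟨Λ₀, subset_rfl, h₀W, h₀⟩ (fun Λ _ => Submodule.finrank_le _)
  have hsub : Λ ⊆ {A | A ∈ W ∧ ∀ a ∈ A, (a : Module.End k M) - 1 ∈ famSub Λ} :=
    fun A hA => ⟨hΛW hA, fun a ha => mem_famSub hA ha⟩
  have hfam : famSub {A | A ∈ W ∧ ∀ a ∈ A, (a : Module.End k M) - 1 ∈ famSub Λ} = famSub Λ :=
    le_antisymm (augSub_le_of_forall (famSub_mul_le Λ) (fun A hA => hA.2)) (famSub_mono hsub)
  refine ⟨{A | A ∈ W ∧ ∀ a ∈ A, (a : Module.End k M) - 1 ∈ famSub Λ}, ⟨fun A hA => hA.1, ?_, ?_⟩,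
    fun A hA => hsub (h0Λ hA)⟩
  · unfold Good
    rw [hfam]
    exact hΛ
  · intro Λ' hΛ'W hΛ' hsub' A hA
    have h1 : famSub Λ ≤ famSub Λ' := famSub_mono (hsub.trans hsub')
    have h2 : Module.finrank k (famSub Λ') ≤ Module.finrank k (famSub Λ) :=
      hmax Λ' ⟨h0Λ.trans (hsub.trans hsub'), hΛ'W, hΛ'⟩
    have h3 : famSub Λ = famSub Λ' := Submodule.eq_of_le_of_finrank_le h1 h2
    exact ⟨hΛ'W hA, fun a ha => by rw [h3]; exact mem_famSub hA ha⟩

theorem maxGood_closed {W Λ : Set (Subgroup (LinearMap.GeneralLinearGroup k M))}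
    (h : MaxGood W Λ) {A : Subgroup (LinearMap.GeneralLinearGroup k M)} (hA : A ∈ W)
    (hall : ∀ a ∈ A, (a : Module.End k M) - 1 ∈ famSub Λ) : A ∈ Λ := by
  have h1 : Good (Λ ∪ {A}) := NilSub.mono h.2.1 (famSub_union_le (by
    rintro B hB a ha
    rw [Set.mem_singleton_iff] at hB
    subst hB
    exact hall a ha))
  exact h.2.2 (Λ ∪ {A}) (Set.union_subset h.1 (Set.singleton_subset_iff.mpr hA)) h1
    Set.subset_union_left (Set.mem_union_right _ rfl)

theorem maxGood_conj {G : Subgroup (LinearMap.GeneralLinearGroup k M)}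
    {W Λ : Set (Subgroup (LinearMap.GeneralLinearGroup k M))} (hWG : ∀ A ∈ W, A ≤ G)
    (hWconj : ∀ A ∈ W, ∀ g ∈ G, conjBy A g ∈ W) (h : MaxGood W Λ)
    {C : Subgroup (LinearMap.GeneralLinearGroup k M)} (hC : C ∈ Λ)
    {u : LinearMap.GeneralLinearGroup k M} (hu : u ∈ ⨆ A ∈ Λ, A) : conjBy C u ∈ Λ := by
  have huG : u ∈ G := (iSup₂_le (fun A hA => hWG A (h.1 hA))) hu
  apply maxGood_closed h (hWconj C (h.1 hC) u huG)
  intro x hx
  rw [mem_conjBy] at hx
  have hx' : x ∈ ⨆ A ∈ Λ, A := by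
    have e : x = u * (u⁻¹ * x * u) * u⁻¹ := by group
    rw [e]
    exact Subgroup.mul_mem _ (Subgroup.mul_mem _ hu ((le_biSup (fun A => A) hC) hx))
      (Subgroup.inv_mem _ hu)
  exact mem_augSub hx'

theorem exists_normalizing {G : Subgroup (LinearMap.GeneralLinearGroup k M)}
    {W Λ₁ Δ : Set (Subgroup (LinearMap.GeneralLinearGroup k M))} (hWG : ∀ A ∈ W, A ≤ G)
    (hWconj : ∀ A ∈ W, ∀ g ∈ G, conjBy A g ∈ W) (h₁ : MaxGood W Λ₁) (hΔ : Δ ⊆ Λ₁)
    (hcl : ∀ A ∈ Λ₁, (∀ a ∈ A, (a : Module.End k M) - 1 ∈ famSub Δ) → A ∈ Δ)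
    (hne : ¬ Λ₁ ⊆ Δ) :
    ∃ A₁ ∈ Λ₁, A₁ ∉ Δ ∧ ∀ a ∈ A₁, ∀ C ∈ Δ, conjBy C a ∈ Δ := by
  classical
  obtain ⟨n, hn⟩ := h₁.2.1
  have hle : famSub Δ ≤ famSub Λ₁ := famSub_mono hΔ
  have hII := famSub_mul_le Λ₁
  have hDD := famSub_mul_le Δ
  have hex : ∃ j : ℕ, ∀ A ∈ Λ₁,
      (∀ a ∈ A, (a : Module.End k M) - 1 ∈ famSub Δ ⊔ famSub Λ₁ ^ (j + 1)) → A ∈ Δ := by
    refine ⟨n, fun A hA hall => hcl A hA (fun a ha => ?_)⟩
    have := hall a ha
    rwa [pow_succ, hn, Submodule.bot_mul, sup_bot_eq] at this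
  have hj₀ := Nat.find_spec hex
  have hj₀pos : Nat.find hex ≠ 0 := by
    intro h0
    rw [h0] at hj₀
    apply hne
    intro A hA
    refine hj₀ A hA (fun a ha => ?_)
    rw [zero_add, pow_one]
    exact Submodule.mem_sup_right (mem_famSub hA ha)
  obtain ⟨j, hj⟩ := Nat.exists_eq_succ_of_ne_zero hj₀pos
  have hjnot := Nat.find_min hex (m := j) (by omega)
  simp only [not_forall] at hjnot
  obtain ⟨A₁, hA₁, hA₁all, hA₁Δ⟩ := hjnot
  refine ⟨A₁, hA₁, hA₁Δ, ?_⟩
  intro a ha C hC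
  rw [hj] at hj₀
  apply hj₀ _ (maxGood_conj hWG hWconj h₁ (hΔ hC) ((le_biSup (fun A => A) hA₁) ha))
  intro x hx
  rw [mem_conjBy] at hx
  have hα := hA₁all a ha
  have hα' := hA₁all a⁻¹ (A₁.inv_mem ha)
  have hγ : ((a⁻¹ * x * a : LinearMap.GeneralLinearGroup k M) : Module.End k M) - 1 ∈ famSub Δ :=
    mem_famSub hC hx
  have e : (x : Module.End k M) - 1 =
      (((a⁻¹ * x * a : LinearMap.GeneralLinearGroup k M) : Module.End k M) - 1) +
      ((a : Module.End k M) - 1) *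
        (((a⁻¹ * x * a : LinearMap.GeneralLinearGroup k M) : Module.End k M) - 1) +
      (((a⁻¹ * x * a : LinearMap.GeneralLinearGroup k M) : Module.End k M) - 1) *
        (((a⁻¹ : LinearMap.GeneralLinearGroup k M) : Module.End k M) - 1) +
      ((a : Module.End k M) - 1) *
        ((((a⁻¹ * x * a : LinearMap.GeneralLinearGroup k M) : Module.End k M) - 1) *
        (((a⁻¹ : LinearMap.GeneralLinearGroup k M) : Module.End k M) - 1)) := by
    have e1 : (x : Module.End k M) = (a : Module.End k M) *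
        ((a⁻¹ * x * a : LinearMap.GeneralLinearGroup k M) : Module.End k M) *
        ((a⁻¹ : LinearMap.GeneralLinearGroup k M) : Module.End k M) := by
      rw [← Units.val_mul, ← Units.val_mul]
      congr 1
      group
    have e2 : (a : Module.End k M) *
        ((a⁻¹ : LinearMap.GeneralLinearGroup k M) : Module.End k M) = 1 := by
      rw [← Units.val_mul, mul_inv_cancel, Units.val_one]
    have e3 : ∀ p q r : Module.End k M, (q - 1) + (p - 1) * (q - 1) + (q - 1) * (r - 1) +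
        (p - 1) * ((q - 1) * (r - 1)) = p * q * r - p * r := by
      intro p q r; noncomm_ring
    rw [e3, e2, ← e1]
  have hT1 : famSub Δ ≤ famSub Δ ⊔ famSub Λ₁ ^ (j + 1 + 1) := le_sup_left
  have hPI : (famSub Δ ⊔ famSub Λ₁ ^ (j + 1)) * famSub Δ ≤
      famSub Δ ⊔ famSub Λ₁ ^ (j + 1 + 1) := by
    rw [Submodule.sup_mul]
    refine sup_le (hDD.trans le_sup_left) ?_
    refine le_trans (mul_le_mul' le_rfl hle) ?_
    rw [← pow_succ]
    exact le_sup_right
  have hIP : famSub Δ * (famSub Δ ⊔ famSub Λ₁ ^ (j + 1)) ≤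
      famSub Δ ⊔ famSub Λ₁ ^ (j + 1 + 1) := by
    rw [Submodule.mul_sup]
    refine sup_le (hDD.trans le_sup_left) ?_
    refine le_trans (mul_le_mul' hle le_rfl) ?_
    rw [← pow_succ']
    exact le_sup_right
  have hPT : (famSub Δ ⊔ famSub Λ₁ ^ (j + 1)) * (famSub Δ ⊔ famSub Λ₁ ^ (j + 1 + 1)) ≤
      famSub Δ ⊔ famSub Λ₁ ^ (j + 1 + 1) := by
    rw [Submodule.sup_mul, Submodule.mul_sup, Submodule.mul_sup]
    refine sup_le (sup_le (hDD.trans le_sup_left) ?_) (sup_le ?_ ?_)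
    · refine le_trans (mul_le_mul' hle le_rfl) ?_
      rw [← pow_succ']
      exact (nil_pow_succ_le hII (j + 1)).trans le_sup_right
    · refine le_trans (mul_le_mul' le_rfl hle) ?_
      rw [← pow_succ]
      exact le_sup_right
    · rw [← pow_add]
      have h2 : j + 1 + (j + 1 + 1) = (j + 1) + 1 + (j + 1) := by omega
      rw [h2]
      exact (nil_pow_add_le hII (j + 1) (j + 1)).trans le_sup_right
  rw [e]
  refine Submodule.add_mem _ (Submodule.add_mem _ (Submodule.add_mem _ (hT1 hγ) ?_) ?_) ?_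
  · exact hPI (Submodule.mul_mem_mul hα hγ)
  · exact hIP (Submodule.mul_mem_mul hγ hα')
  · exact hPT (Submodule.mul_mem_mul hα (hIP (Submodule.mul_mem_mul hγ hα')))

/-- the whole family is good -/
theorem good_univ [FiniteDimensional k M] {G : Subgroup (LinearMap.GeneralLinearGroup k M)}
    {W : Set (Subgroup (LinearMap.GeneralLinearGroup k M))} (hWG : ∀ A ∈ W, A ≤ G)
    (hpair : ∀ A ∈ W, ∀ B ∈ W, NilSub (augSub (A ⊔ B)))
    (hWconj : ∀ A ∈ W, ∀ g ∈ G, conjBy A g ∈ W) : Good W := by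
  by_contra hbad
  have hsing : ∀ A ∈ W, Good ({A} : Set (Subgroup (LinearMap.GeneralLinearGroup k M))) := by
    intro A hA
    unfold Good
    rw [famSub_singleton]
    have := hpair A hA A hA
    rwa [sup_idem] at this
  obtain ⟨Λa, hΛa, -⟩ := exists_maxGood (W := W) (Set.empty_subset W) good_empty
  have hneW : ¬ W ⊆ Λa := fun hsub => hbad (hΛa.2.1.mono hsub)
  obtain ⟨A₀, hA₀W, hA₀⟩ := Set.not_subset.mp hneW
  obtain ⟨Λb, hΛb, hA₀b⟩ := exists_maxGood (W := W) (Set.singleton_subset_iff.mpr hA₀W)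
    (hsing A₀ hA₀W)
  have hab : Λa ≠ Λb := by
    rintro rfl
    exact hA₀ (hA₀b rfl)
  obtain ⟨⟨Λ₁, Λ₂⟩, ⟨h₁, h₂, hne⟩, hmax⟩ := exists_max_nat_unip
    (fun p : Set (Subgroup (LinearMap.GeneralLinearGroup k M)) ×
      Set (Subgroup (LinearMap.GeneralLinearGroup k M)) =>
        MaxGood W p.1 ∧ MaxGood W p.2 ∧ p.1 ≠ p.2)
    (fun p => Module.finrank k (famSub (p.1 ∩ p.2))) (Module.finrank k (Module.End k M))
    ⟨(Λa, Λb), hΛa, hΛb, hab⟩ (fun p _ => Submodule.finrank_le _)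
  simp only at h₁ h₂ hne hmax
  have hcl : ∀ A ∈ W, (∀ a ∈ A, (a : Module.End k M) - 1 ∈ famSub (Λ₁ ∩ Λ₂)) → A ∈ Λ₁ ∩ Λ₂ :=
    fun A hA hall =>
      ⟨maxGood_closed h₁ hA (fun a ha => famSub_mono Set.inter_subset_left (hall a ha)),
        maxGood_closed h₂ hA (fun a ha => famSub_mono Set.inter_subset_right (hall a ha))⟩
  have hn12 : ¬ Λ₁ ⊆ Λ₂ := fun hsub =>
    hne (Set.Subset.antisymm hsub (h₁.2.2 Λ₂ h₂.1 h₂.2.1 hsub))
  have hn21 : ¬ Λ₂ ⊆ Λ₁ := fun hsub =>
    hne (Set.Subset.antisymm (h₂.2.2 Λ₁ h₁.1 h₁.2.1 hsub) hsub)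
  obtain ⟨A₁, hA₁, hA₁Δ, hA₁n⟩ := exists_normalizing hWG hWconj h₁ (Δ := Λ₁ ∩ Λ₂)
    Set.inter_subset_left (fun A hA hall => hcl A (h₁.1 hA) hall)
    (fun hsub => hn12 (fun A hA => (hsub hA).2))
  obtain ⟨A₂, hA₂, hA₂Δ, hA₂n⟩ := exists_normalizing hWG hWconj h₂ (Δ := Λ₁ ∩ Λ₂)
    Set.inter_subset_right (fun A hA hall => hcl A (h₂.1 hA) hall)
    (fun hsub => hn21 (fun A hA => (hsub hA).1))
  have hΔgood : Good (Λ₁ ∩ Λ₂) := h₁.2.1.mono Set.inter_subset_left
  have hR₀ : Good (Λ₁ ∩ Λ₂ ∪ {A₁, A₂}) :=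
    good_insert_pair hΔgood hA₁n hA₂n (hpair A₁ (h₁.1 hA₁) A₂ (h₂.1 hA₂))
  have hR₀W : Λ₁ ∩ Λ₂ ∪ {A₁, A₂} ⊆ W := by
    rintro A (hA | hA | hA)
    · exact h₁.1 hA.1
    · rw [hA]; exact h₁.1 hA₁
    · rw [Set.mem_singleton_iff] at hA
      rw [hA]; exact h₂.1 hA₂
  obtain ⟨R, hR, hR₀R⟩ := exists_maxGood hR₀W hR₀
  have key : ∀ Λ : Set (Subgroup (LinearMap.GeneralLinearGroup k M)), MaxGood W Λ →
      Λ₁ ∩ Λ₂ ⊆ Λ → ∀ A ∈ Λ, A ∈ R → A ∉ Λ₁ ∩ Λ₂ → R = Λ := by
    intro Λ hΛ hΔΛ A hAΛ hAR hAΔ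
    by_contra hRΛ
    have h1 := hmax (R, Λ) ⟨hR, hΛ, hRΛ⟩
    simp only at h1
    have hsub : Λ₁ ∩ Λ₂ ⊆ R ∩ Λ := fun B hB => ⟨hR₀R (Set.mem_union_left _ hB), hΔΛ hB⟩
    have hle : famSub (Λ₁ ∩ Λ₂) ≤ famSub (R ∩ Λ) := famSub_mono hsub
    have hlt : famSub (Λ₁ ∩ Λ₂) < famSub (R ∩ Λ) := by
      refine lt_of_le_of_ne hle (fun heq => hAΔ (hcl A (hΛ.1 hAΛ) (fun a ha => ?_)))
      rw [heq]
      exact mem_famSub (Λ := R ∩ Λ) ⟨hAR, hAΛ⟩ ha
    have := Submodule.finrank_lt_finrank_of_lt hlt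
    omega
  have e1 : R = Λ₁ := key Λ₁ h₁ Set.inter_subset_left A₁ hA₁
    (hR₀R (Set.mem_union_right _ (Set.mem_insert _ _))) hA₁Δ
  have e2 : R = Λ₂ := key Λ₂ h₂ Set.inter_subset_right A₂ hA₂
    (hR₀R (Set.mem_union_right _ (Set.mem_insert_of_mem _ rfl))) hA₂Δ
  exact hne (e1.symm.trans e2)

/-- `S5061` -/
theorem unipotent_generation [FiniteDimensional k M]
    {G : Subgroup (LinearMap.GeneralLinearGroup k M)}
    {W : Set (Subgroup (LinearMap.GeneralLinearGroup k M))} (hWG : ∀ A ∈ W, A ≤ G)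
    (hWW : ∀ A ∈ W, ∀ B ∈ W, Cfsg.IsUnipotentOn (A ⊔ B))
    (hWconj : ∀ A ∈ W, ∀ g ∈ G, Cfsg.conjBy A g ∈ W) :
    Cfsg.IsUnipotentOn (⨆ A ∈ W, A) ∧ ∀ g ∈ G, Cfsg.conjBy (⨆ A ∈ W, A) g = ⨆ A ∈ W, A := by
  constructor
  · rw [isUnipotentOn_iff]
    exact good_univ hWG (fun A hA B hB => (isUnipotentOn_iff _).mp (hWW A hA B hB)) hWconj
  · intro g hg
    apply le_antisymm
    · simp only [conjBy, Subgroup.map_iSup]
      exact iSup₂_le (fun A hA => le_biSup (fun A => A) (hWconj A hA g hg))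
    · apply iSup₂_le
      intro A hA
      have h1 : conjBy A g⁻¹ ∈ W := hWconj A hA g⁻¹ (G.inv_mem hg)
      have h2 : A = conjBy (conjBy A g⁻¹) g := by
        rw [conjBy_conjBy]; simp [conjBy_one]
      rw [h2]
      exact conjBy_mono (le_biSup (fun A => A) h1) g

end Main

end Cfsg.Agent.Helper26
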