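import Mathlib
import Cfsg.Agent.Helper26.RankOne
import Cfsg.Agent.Helper26.Unipotent
import Cfsg.Agent.S5025
import Cfsg.Agent.S5028

set_option autoImplicit false

namespace Cfsg.Agent.Helper26

open Cfsg
open scoped commutatorElement

variable {G : Type*} [Group G]

/-- `⁅A, B⁆` is normalized by `A ⊔ B` -/
theorem commutator_conj_mem (A B : Subgroup G) {x : G} (hx : x ∈ A ⊔ B) :
    ∀ c ∈ ⁅A, B⁆, x * c * x⁻¹ ∈ ⁅A, B⁆ := by
  have key : ∀ x : G, (∀ a ∈ A, ∀ b ∈ B, x * ⁅a, b⁆ * x⁻¹ ∈ ⁅A, B⁆) →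
      ∀ c ∈ ⁅A, B⁆, x * c * x⁻¹ ∈ ⁅A, B⁆ := by
    intro x hx c hc
    have hc' : c ∈ Subgroup.closure {g | ∃ g₁ ∈ A, ∃ g₂ ∈ B, ⁅g₁, g₂⁆ = g} := by
      rw [← Subgroup.commutator_def]; exact hc
    clear hc
    induction hc' using Subgroup.closure_induction with
    | mem y hy =>
      obtain ⟨a, ha, b, hb, rfl⟩ := hy
      exact hx a ha b hb
    | one => simp
    | mul y z _ _ ihy ihz =>
      have e : x * (y * z) * x⁻¹ = (x * y * x⁻¹) * (x * z * x⁻¹) := by group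
      rw [e]
      exact Subgroup.mul_mem _ ihy ihz
    | inv y _ ihy =>
      have e : x * y⁻¹ * x⁻¹ = (x * y * x⁻¹)⁻¹ := by group
      rw [e]
      exact Subgroup.inv_mem _ ihy
  refine sup_induction' (C := fun x => ∀ c ∈ ⁅A, B⁆, x * c * x⁻¹ ∈ ⁅A, B⁆) hx ?_ ?_ ?_ ?_
  · intro a₀ ha₀
    apply key
    intro a ha b hb
    have e : a₀ * ⁅a, b⁆ * a₀⁻¹ = ⁅a₀ * a, b⁆ * ⁅a₀, b⁆⁻¹ := by
      simp only [commutatorElement_def]; group
    rw [e]
    exact Subgroup.mul_mem _ (Subgroup.commutator_mem_commutator (A.mul_mem ha₀ ha) hb)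
      (Subgroup.inv_mem _ (Subgroup.commutator_mem_commutator ha₀ hb))
  · intro b₀ hb₀
    apply key
    intro a ha b hb
    have e : b₀ * ⁅a, b⁆ * b₀⁻¹ = ⁅a, b₀⁆⁻¹ * ⁅a, b₀ * b⁆ := by
      simp only [commutatorElement_def]; group
    rw [e]
    exact Subgroup.mul_mem _ (Subgroup.inv_mem _ (Subgroup.commutator_mem_commutator ha hb₀))
      (Subgroup.commutator_mem_commutator ha (B.mul_mem hb₀ hb))
  · intro c hc
    simpa using hc
  · intro y z hy hz c hc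
    have e : y * z * c * (y * z)⁻¹ = y * (z * c * z⁻¹) * y⁻¹ := by group
    rw [e]
    exact hy _ (hz c hc)

theorem commutator_le_sup (A B : Subgroup G) : ⁅A, B⁆ ≤ A ⊔ B := by
  rw [Subgroup.commutator_le]
  intro a ha b hb
  rw [commutatorElement_def]
  exact Subgroup.mul_mem _ (Subgroup.mul_mem _ (Subgroup.mul_mem _ (Subgroup.mem_sup_left ha)
    (Subgroup.mem_sup_right hb)) (Subgroup.inv_mem _ (Subgroup.mem_sup_left ha)))
    (Subgroup.inv_mem _ (Subgroup.mem_sup_right hb))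

/-- relative version of `normal_sup_or_le_center` -/
theorem rel_normal_sup_or_central {A B : Subgroup G} (hp : IsRankOnePair A B) (N : Subgroup G)
    (hNle : N ≤ A ⊔ B) (hN : ∀ x ∈ A ⊔ B, ∀ n ∈ N, x * n * x⁻¹ ∈ N) :
    B ≤ N ⊔ A ∨ ∀ n ∈ N, ∀ x ∈ A ⊔ B, n * x = x * n := by
  by_cases hNA : ∀ n ∈ N, conjBy A n = A
  · right
    have hNB : ∀ n ∈ N, conjBy B n = B := by
      intro n hn
      obtain ⟨x, hx, hB⟩ := exists_conj_eq hp
      have h1 : x⁻¹ * n * x ∈ N := by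
        have := hN x⁻¹ (Subgroup.inv_mem _ hx) n hn
        simpa using this
      rw [hB, conjBy_conjBy]
      have h2 : n * x = x * (x⁻¹ * n * x) := by group
      rw [h2, ← conjBy_conjBy, hNA _ h1]
    have hcA : ∀ n ∈ N, ∀ a ∈ A, n * a = a * n := by
      intro n hn a ha
      have h1 : n * a * n⁻¹ * a⁻¹ ∈ A := by
        refine A.mul_mem ?_ (A.inv_mem ha)
        have : n * a * n⁻¹ ∈ conjBy A n := conj_mem_conjBy ha
        rwa [hNA n hn] at this
      have h2 : n * a * n⁻¹ * a⁻¹ ∈ N := by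
        have h3 : a * n⁻¹ * a⁻¹ ∈ N := hN a (Subgroup.mem_sup_left ha) _ (N.inv_mem hn)
        have h4 : n * a * n⁻¹ * a⁻¹ = n * (a * n⁻¹ * a⁻¹) := by group
        rw [h4]; exact N.mul_mem hn h3
      have h5 := eq_one_of_mem_of_normalizes hp h1 (conjBy_eq_self_iff.mp (hNB _ h2))
      have h6 : n * a = (n * a * n⁻¹ * a⁻¹) * (a * n) := by group
      rw [h6, h5, one_mul]
    have hcB : ∀ n ∈ N, ∀ b ∈ B, n * b = b * n := by
      intro n hn b hb
      have h1 : n * b * n⁻¹ * b⁻¹ ∈ B := by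
        refine B.mul_mem ?_ (B.inv_mem hb)
        have : n * b * n⁻¹ ∈ conjBy B n := conj_mem_conjBy hb
        rwa [hNB n hn] at this
      have h2 : n * b * n⁻¹ * b⁻¹ ∈ N := by
        have h3 : b * n⁻¹ * b⁻¹ ∈ N := hN b (Subgroup.mem_sup_right hb) _ (N.inv_mem hn)
        have h4 : n * b * n⁻¹ * b⁻¹ = n * (b * n⁻¹ * b⁻¹) := by group
        rw [h4]; exact N.mul_mem hn h3
      have h5 := eq_one_of_mem_of_normalizes' hp h1 (conjBy_eq_self_iff.mp (hNA _ h2))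
      have h6 : n * b = (n * b * n⁻¹ * b⁻¹) * (b * n) := by group
      rw [h6, h5, one_mul]
    intro n hn x hx
    have hz : n ∈ Subgroup.centralizer ((A ⊔ B : Subgroup G) : Set G) :=
      mem_centralizer_sup (fun a ha => (hcA n hn a ha).symm) (fun b hb => (hcB n hn b hb).symm)
    exact (Subgroup.mem_centralizer_iff.mp hz x hx).symm
  · left
    simp only [not_forall] at hNA
    obtain ⟨n, hn, hnA⟩ := hNA
    have hmem : conjBy A n ∈ unipotentSubgroups A B := ⟨n, hNle hn, rfl⟩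
    rcases (mem_unipotentSubgroups_iff hp).mp hmem with h1 | ⟨a₀, ha₀, h1⟩
    · exact absurd h1 hnA
    · have hB : B = conjBy A (a₀⁻¹ * n) := by
        rw [← conjBy_conjBy, h1, conjBy_conjBy]; simp [conjBy_one]
      rw [hB]
      rintro _ ⟨a, ha, rfl⟩
      have hn' : n ∈ N ⊔ A := Subgroup.mem_sup_left hn
      have ha' : a ∈ N ⊔ A := Subgroup.mem_sup_right ha
      have ha₀' : a₀ ∈ N ⊔ A := Subgroup.mem_sup_right ha₀
      show a₀⁻¹ * n * a * (a₀⁻¹ * n)⁻¹ ∈ N ⊔ A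
      exact (N ⊔ A).mul_mem ((N ⊔ A).mul_mem ((N ⊔ A).mul_mem ((N ⊔ A).inv_mem ha₀') hn') ha')
        ((N ⊔ A).inv_mem ((N ⊔ A).mul_mem ((N ⊔ A).inv_mem ha₀') hn'))

theorem le_centralizer_self {A : Subgroup G} (hA : IsMulCommutative A) :
    A ≤ Subgroup.centralizer (A : Set G) := by
  intro a ha
  rw [Subgroup.mem_centralizer_iff]
  intro a' ha'
  exact comm_of_isMulCommutative hA ha' ha

/-- for a rank one pair `(A, B)` of members of `S` the commutator `⁅A, B⁆` is not in `S` -/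
theorem commutator_not_mem_of_rankOne {S : Set (Subgroup G)} (hS : IsRootSubgroupSet S)
    {A B : Subgroup G} (hA : A ∈ S) (hB : B ∈ S) (h : IsRankOnePair A B) : ⁅A, B⁆ ∉ S := by
  intro hC
  have hCle := commutator_le_sup A B
  have hCn : ∀ x ∈ A ⊔ B, ∀ c ∈ ⁅A, B⁆, x * c * x⁻¹ ∈ ⁅A, B⁆ :=
    fun x hx => commutator_conj_mem A B hx
  have hCconj : ∀ x ∈ A ⊔ B, conjBy ⁅A, B⁆ x = ⁅A, B⁆ := by
    intro x hx
    apply le_antisymm
    · rintro _ ⟨c, hc, rfl⟩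
      exact hCn x hx c hc
    · intro c hc
      rw [mem_conjBy]
      have := hCn x⁻¹ (Subgroup.inv_mem _ hx) c hc
      simpa using this
  rcases rel_normal_sup_or_central h ⁅A, B⁆ hCle hCn with hsup | hcen
  · rcases hS.pair _ hC A hA with h1 | h1 | h1
    · -- `⁅A, B⁆` commutes with `A`
      apply hS.ne_bot _ hC
      have hle : ⁅A, B⁆ ⊔ A ≤ Subgroup.centralizer (A : Set G) :=
        sup_le (Subgroup.commutator_eq_bot_iff_le_centralizer.mp h1)
          (le_centralizer_self (hS.commutative A hA))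
      rw [Subgroup.commutator_comm, Subgroup.commutator_eq_bot_iff_le_centralizer]
      exact hsup.trans hle
    · -- rank one pair `(⁅A, B⁆, A)`
      obtain ⟨c, hc, hc1⟩ := exists_ne_one_left h1
      obtain ⟨a, ha, -, hca⟩ := h1.cond_left c hc hc1
      rw [hCconj a⁻¹ (Subgroup.mem_sup_left (A.inv_mem ha))] at hca
      have hAC : A = ⁅A, B⁆ := by
        have h2 := conjBy_eq_iff.mp hca.symm
        rw [inv_inv, conjBy_of_mem hc] at h2
        exact h2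
      obtain ⟨x, hx, hBx⟩ := exists_conj_eq h
      apply h.ne
      rw [hBx]
      conv_rhs => rw [hAC]
      rw [hCconj x hx]
      exact hAC
    · -- commutator case `(⁅A, B⁆, A)`
      obtain ⟨hK, hKcen, -, -⟩ := h1
      have hQ : ∀ x ∈ ⁅A, B⁆ ⊔ A, ∀ a' ∈ A, x * a' * x⁻¹ * a'⁻¹ ∈ ⁅⁅A, B⁆, A⁆ := by
        intro x hx
        have h2 := sup_induction' (C := fun x => x ∈ ⁅A, B⁆ ⊔ A ∧
          ∀ a' ∈ A, x * a' * x⁻¹ * a'⁻¹ ∈ ⁅⁅A, B⁆, A⁆) hx ?_ ?_ ?_ ?_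
        · exact h2.2
        · intro c hc
          exact ⟨Subgroup.mem_sup_left hc, fun a' ha' => Subgroup.commutator_mem_commutator hc ha'⟩
        · intro a ha
          refine ⟨Subgroup.mem_sup_right ha, fun a' ha' => ?_⟩
          have e : a * a' * a⁻¹ * a'⁻¹ = 1 := by
            rw [comm_of_isMulCommutative (hS.commutative A hA) ha ha']; group
          rw [e]
          exact Subgroup.one_mem _
        · refine ⟨Subgroup.one_mem _, fun a' ha' => ?_⟩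
          have e : (1 : G) * a' * 1⁻¹ * a'⁻¹ = 1 := by group
          rw [e]
          exact Subgroup.one_mem _
        · rintro y z ⟨hy, hyQ⟩ ⟨hz, hzQ⟩
          refine ⟨Subgroup.mul_mem _ hy hz, fun a' ha' => ?_⟩
          have hk := hKcen _ (hzQ a' ha') y hy
          have e : y * z * a' * (y * z)⁻¹ * a'⁻¹ =
              (y * (z * a' * z⁻¹ * a'⁻¹)) * y⁻¹ * (y * a' * y⁻¹ * a'⁻¹) := by group
          rw [e, ← hk]
          have e2 : z * a' * z⁻¹ * a'⁻¹ * y * y⁻¹ * (y * a' * y⁻¹ * a'⁻¹) =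
              (z * a' * z⁻¹ * a'⁻¹) * (y * a' * y⁻¹ * a'⁻¹) := by group
          rw [e2]
          exact Subgroup.mul_mem _ (hzQ a' ha') (hyQ a' ha')
      obtain ⟨x, hx, hBx⟩ := exists_conj_eq h
      have hxCA : x ∈ ⁅A, B⁆ ⊔ A := (sup_le le_sup_right hsup) hx
      apply hS.ne_bot _ hC
      rw [Subgroup.commutator_eq_bot_iff_le_centralizer]
      intro a'' ha''
      rw [Subgroup.mem_centralizer_iff]
      intro b hb
      rw [hBx] at hb
      obtain ⟨a', ha', rfl⟩ := hb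
      show x * a' * x⁻¹ * a'' = a'' * (x * a' * x⁻¹)
      have hkK := hQ x hxCA a' ha'
      have e : x * a' * x⁻¹ = (x * a' * x⁻¹ * a'⁻¹) * a' := by group
      rw [e]
      have h1 := hKcen _ hkK a'' (Subgroup.mem_sup_right ha'')
      have h2 := comm_of_isMulCommutative (hS.commutative A hA) ha' ha''
      calc x * a' * x⁻¹ * a'⁻¹ * a' * a'' = (x * a' * x⁻¹ * a'⁻¹) * (a' * a'') := by group
        _ = (x * a' * x⁻¹ * a'⁻¹) * (a'' * a') := by rw [h2]
        _ = ((x * a' * x⁻¹ * a'⁻¹) * a'') * a' := by group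
        _ = (a'' * (x * a' * x⁻¹ * a'⁻¹)) * a' := by rw [h1]
        _ = a'' * (x * a' * x⁻¹ * a'⁻¹ * a') := by group
  · -- `⁅A, B⁆` central in `A ⊔ B`
    obtain ⟨a, ha, ha1⟩ := exists_ne_one_left h
    obtain ⟨b, hb, hb1, hab⟩ := h.cond_left a ha ha1
    have h1 : b⁻¹ * a * b ∈ conjBy A b⁻¹ := by
      have := conj_mem_conjBy (g := b⁻¹) ha
      simpa using this
    rw [hab, mem_conjBy] at h1
    have hz : a⁻¹ * b⁻¹ * a * b ∈ ⁅A, B⁆ := by
      have := Subgroup.commutator_mem_commutator (A.inv_mem ha) (B.inv_mem hb)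
      rw [commutatorElement_def, inv_inv, inv_inv] at this
      exact this
    apply ha1
    apply eq_one_of_mem_of_normalizes h ha
    apply mem_normalizer_of_forall_comm
    intro b'' hb''
    have hza := hcen _ hz a (Subgroup.mem_sup_left ha)
    have hzb'' := hcen _ hz b'' (Subgroup.mem_sup_right hb'')
    have e : a⁻¹⁻¹ * (b⁻¹ * a * b) * a⁻¹ = a * (a⁻¹ * b⁻¹ * a * b) := by
      have e2 : (a⁻¹ * b⁻¹ * a * b) * a⁻¹ = a⁻¹ * (a⁻¹ * b⁻¹ * a * b) := by
        calc (a⁻¹ * b⁻¹ * a * b) * a⁻¹ = a⁻¹ * (a * (a⁻¹ * b⁻¹ * a * b)) * a⁻¹ := by group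
          _ = a⁻¹ * ((a⁻¹ * b⁻¹ * a * b) * a) * a⁻¹ := by rw [hza]
          _ = a⁻¹ * (a⁻¹ * b⁻¹ * a * b) := by group
      calc a⁻¹⁻¹ * (b⁻¹ * a * b) * a⁻¹ = a * a * ((a⁻¹ * b⁻¹ * a * b) * a⁻¹) := by group
        _ = a * a * (a⁻¹ * (a⁻¹ * b⁻¹ * a * b)) := by rw [e2]
        _ = a * (a⁻¹ * b⁻¹ * a * b) := by group
    rw [e] at h1
    have hc := comm_of_isMulCommutative (hS.commutative B hB) hb'' h1
    have h3 : b'' * a * (a⁻¹ * b⁻¹ * a * b) = a * b'' * (a⁻¹ * b⁻¹ * a * b) := by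
      calc b'' * a * (a⁻¹ * b⁻¹ * a * b) = b'' * (a * (a⁻¹ * b⁻¹ * a * b)) := by group
        _ = (a * (a⁻¹ * b⁻¹ * a * b)) * b'' := hc
        _ = a * ((a⁻¹ * b⁻¹ * a * b) * b'') := by group
        _ = a * (b'' * (a⁻¹ * b⁻¹ * a * b)) := by rw [hzb'']
        _ = a * b'' * (a⁻¹ * b⁻¹ * a * b) := by group
    exact mul_right_cancel h3

theorem rootCommutatorCase_of_mem {S : Set (Subgroup G)} (hS : IsRootSubgroupSet S)
    {A B : Subgroup G} (hA : A ∈ S) (hB : B ∈ S) (hC : ⁅A, B⁆ ∈ S) : RootCommutatorCase S A B := by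
  rcases hS.pair A hA B hB with h | h | h
  · exact absurd h (hS.ne_bot _ hC)
  · exact absurd hC (commutator_not_mem_of_rankOne hS hA hB h)
  · exact h


/-- the element `a⁻¹ b⁻¹ a b` lies in `⁅A, B⁆` -/
theorem commElt_mem {A B : Subgroup G} {a b : G} (ha : a ∈ A) (hb : b ∈ B) :
    a⁻¹ * b⁻¹ * a * b ∈ ⁅A, B⁆ := by
  have := Subgroup.commutator_mem_commutator (A.inv_mem ha) (B.inv_mem hb)
  rw [commutatorElement_def, inv_inv, inv_inv] at this
  exact this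

/-- the commutator map `b ↦ a⁻¹ b⁻¹ a b` as a homomorphism `B →* ⁅A, B⁆` in the commutator case -/
def commHom {S : Set (Subgroup G)} {A B : Subgroup G} (h : RootCommutatorCase S A B) {a : G}
    (ha : a ∈ A) : ↥B →* ↥⁅A, B⁆ where
  toFun b := ⟨a⁻¹ * (b : G)⁻¹ * a * b, commElt_mem ha b.2⟩
  map_one' := by
    apply Subtype.ext
    simp
  map_mul' := by
    intro b b'
    apply Subtype.ext
    show a⁻¹ * ((b : G) * (b' : G))⁻¹ * a * ((b : G) * (b' : G)) =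
      (a⁻¹ * (b : G)⁻¹ * a * b) * (a⁻¹ * (b' : G)⁻¹ * a * b')
    have hx : a⁻¹ * (b' : G)⁻¹ * a ∈ A ⊔ B :=
      Subgroup.mul_mem _ (Subgroup.mul_mem _ (Subgroup.mem_sup_left (A.inv_mem ha))
        (Subgroup.mem_sup_right (B.inv_mem b'.2))) (Subgroup.mem_sup_left ha)
    have hz := h.2.1 _ (commElt_mem ha b.2) _ hx
    calc a⁻¹ * ((b : G) * (b' : G))⁻¹ * a * ((b : G) * (b' : G))
        = (a⁻¹ * (b' : G)⁻¹ * a) * (a⁻¹ * (b : G)⁻¹ * a * b) * b' := by group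
      _ = (a⁻¹ * (b : G)⁻¹ * a * b) * (a⁻¹ * (b' : G)⁻¹ * a) * b' := by rw [← hz]
      _ = (a⁻¹ * (b : G)⁻¹ * a * b) * (a⁻¹ * (b' : G)⁻¹ * a * b') := by group

theorem commHom_coe {S : Set (Subgroup G)} {A B : Subgroup G} (h : RootCommutatorCase S A B)
    {a : G} (ha : a ∈ A) (b : ↥B) : ((commHom h ha b : ↥⁅A, B⁆) : G) = a⁻¹ * (b : G)⁻¹ * a * b :=
  rfl

theorem exists_commElt_eq {S : Set (Subgroup G)} {A B : Subgroup G}
    (h : RootCommutatorCase S A B) {a : G} (ha : a ∈ A) (ha1 : a ≠ 1) {c : G} (hc : c ∈ ⁅A, B⁆) :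
    ∃ b ∈ B, a⁻¹ * b⁻¹ * a * b = c := by
  have hcl := h.2.2.1 a⁻¹ (A.inv_mem ha) (by simpa using ha1)
  have hle : Subgroup.closure ((fun b : G => a⁻¹ * b * a⁻¹⁻¹ * b⁻¹) '' (B : Set G)) ≤
      ((commHom h ha).range).map (Subgroup.subtype _) := by
    rw [Subgroup.closure_le]
    rintro _ ⟨b, hb, rfl⟩
    refine ⟨commHom h ha ⟨b⁻¹, B.inv_mem hb⟩, ⟨_, rfl⟩, ?_⟩
    simp [commHom_coe]
  rw [hcl] at hle
  obtain ⟨_, ⟨b, rfl⟩, rfl⟩ := hle hc
  exact ⟨b, b.2, rfl⟩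

theorem commHom_surjective {S : Set (Subgroup G)} {A B : Subgroup G}
    (h : RootCommutatorCase S A B) {a : G} (ha : a ∈ A) (ha1 : a ≠ 1) :
    Function.Surjective (commHom h ha) := by
  rintro ⟨c, hc⟩
  obtain ⟨b, hb, e⟩ := exists_commElt_eq h ha ha1 hc
  exact ⟨⟨b, hb⟩, Subtype.ext e⟩

/-- in the commutator case `A ≠ ⁅A, B⁆` -/
theorem ne_commutator_of_commCase {S : Set (Subgroup G)} (hS : IsRootSubgroupSet S)
    {A B : Subgroup G} (h : RootCommutatorCase S A B) : A ≠ ⁅A, B⁆ := by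
  intro hAC
  apply hS.ne_bot _ h.1
  rw [Subgroup.commutator_eq_bot_iff_le_centralizer]
  intro a' ha'
  rw [Subgroup.mem_centralizer_iff]
  intro b' hb'
  exact (h.2.1 a' (hAC.le ha') b' (Subgroup.mem_sup_right hb')).symm

/-- in the commutator case, with `A` not isolated, no non-identity element of `A` commutes
with a non-identity element of `B` -/
theorem eq_one_of_comm_of_commCase {S : Set (Subgroup G)} (hS : IsRootSubgroupSet S)
    {A B : Subgroup G} (hA : ¬ IsIsolatedIn (FAdj S) S A) (hAS : A ∈ S)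
    (h : RootCommutatorCase S A B) {a b : G} (ha : a ∈ A) (ha1 : a ≠ 1) (hb : b ∈ B)
    (hab : a * b = b * a) : b = 1 := by
  by_contra hb1
  have hCne : ⁅A, B⁆ ≠ ⊥ := hS.ne_bot _ h.1
  have h1 : a ∈ A ⊓ conjBy A b := by
    refine ⟨ha, ?_⟩
    show a ∈ conjBy A b
    rw [mem_conjBy]
    have : b⁻¹ * a * b = a := by rw [mul_assoc, hab]; group
    rw [this]; exact ha
  have hAb : A = conjBy A b := by
    rcases Cfsg.Agent.S5028.result hS hA hAS _ (hS.conj_mem A hAS b) with h2 | h2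
    · rw [h2] at h1; exact absurd (Subgroup.mem_bot.mp h1) ha1
    · exact h2
  have hAC : A ⊓ ⁅A, B⁆ = ⊥ := by
    rcases Cfsg.Agent.S5028.result hS hA hAS _ h.1 with h2 | h2
    · exact h2
    · exact absurd h2 (ne_commutator_of_commCase hS h)
  apply hCne
  rw [← h.2.2.2 b hb hb1, Subgroup.closure_eq_bot_iff]
  rintro _ ⟨a', ha', rfl⟩
  have hmem : a' * b * a'⁻¹ * b⁻¹ ∈ A ⊓ ⁅A, B⁆ := by
    refine ⟨?_, Subgroup.commutator_mem_commutator ha' hb⟩
    have h3 : b * a'⁻¹ * b⁻¹ ∈ conjBy A b := conj_mem_conjBy (A.inv_mem ha')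
    rw [← hAb] at h3
    have e : a' * b * a'⁻¹ * b⁻¹ = a' * (b * a'⁻¹ * b⁻¹) := by group
    show a' * b * a'⁻¹ * b⁻¹ ∈ A
    rw [e]
    exact A.mul_mem ha' h3
  rw [hAC, Subgroup.mem_bot] at hmem
  exact hmem

theorem commHom_injective {S : Set (Subgroup G)} (hS : IsRootSubgroupSet S)
    {A B : Subgroup G} (hA : ¬ IsIsolatedIn (FAdj S) S A) (hAS : A ∈ S)
    (h : RootCommutatorCase S A B) {a : G} (ha : a ∈ A) (ha1 : a ≠ 1) :
    Function.Injective (commHom h ha) := by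
  rw [injective_iff_map_eq_one]
  intro b hb
  have h1 : a⁻¹ * (b : G)⁻¹ * a * b = 1 := by
    rw [← commHom_coe h ha b, hb]; rfl
  have h2 : a * (b : G) = b * a := by
    have : a * (b : G) = (b : G) * a * (a⁻¹ * (b : G)⁻¹ * a * b) := by group
    rw [this, h1, mul_one]
  exact Subtype.ext (eq_one_of_comm_of_commCase hS hA hAS h ha ha1 b.2 h2)

theorem exists_commEquiv {S : Set (Subgroup G)} (hS : IsRootSubgroupSet S)
    {A B : Subgroup G} (hA : ¬ IsIsolatedIn (FAdj S) S A) (hAS : A ∈ S)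
    (h : RootCommutatorCase S A B) {a : G} (ha : a ∈ A) (ha1 : a ≠ 1) :
    ∃ φ : ↥B ≃* ↥⁅A, B⁆, ∀ b : ↥B, (φ b : G) = a⁻¹ * (b : G)⁻¹ * a * b :=
  ⟨MulEquiv.ofBijective (commHom h ha)
    ⟨commHom_injective hS hA hAS h ha ha1, commHom_surjective h ha ha1⟩, fun _ => rfl⟩

theorem exists_ne_one_of_ne_bot {E : Subgroup G} (hE : E ≠ ⊥) : ∃ z ∈ E, z ≠ 1 := by
  by_contra hne
  simp only [not_exists, not_and, not_not] at hne
  apply hE
  rw [eq_bot_iff]
  intro z hz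
  rw [Subgroup.mem_bot]
  exact hne z hz

/-- a member of `S` inside `⁅A, B⁆` does not commute with a rank one partner of `A` -/
theorem commutator_partner_ne_bot {S : Set (Subgroup G)} (hS : IsRootSubgroupSet S)
    {A B D E : Subgroup G} (hAS : A ∈ S) (hD : D ∈ S) (hAD : IsRankOnePair A D)
    (h : RootCommutatorCase S A B) (hE : E ∈ S) (hEC : E ≤ ⁅A, B⁆) : ⁅D, E⁆ ≠ ⊥ := by
  intro hbot
  obtain ⟨z, hz, hz1⟩ := exists_ne_one_of_ne_bot (hS.ne_bot E hE)
  obtain ⟨a₀, ha₀, ha₀1⟩ := exists_ne_one_left hAD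
  have hzC := hEC hz
  have hzcen : z ∈ Subgroup.centralizer ((A ⊔ D : Subgroup G) : Set G) :=
    mem_centralizer_sup (fun a ha => (h.2.1 z hzC a (Subgroup.mem_sup_left ha)).symm)
      (fun d hd => comm_of_commutator_eq_bot hbot hd hz)
  obtain ⟨b, hb, hzb⟩ := exists_commElt_eq h ha₀ ha₀1 hzC
  have hza : z * a₀ = b⁻¹ * a₀ * b := by
    rw [h.2.1 z hzC a₀ (Subgroup.mem_sup_left ha₀), ← hzb]; group
  apply Cfsg.Agent.S5025.result hS hAS ⟨hD, hAD⟩ hzcen hz1 a₀ ha₀ ha₀1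
  refine ⟨?_, conjBy A b⁻¹, hS.conj_mem A hAS b⁻¹, ?_⟩
  · intro h1
    rw [hza] at h1
    apply ha₀1
    have : a₀ = b * (b⁻¹ * a₀ * b) * b⁻¹ := by group
    rw [this, h1]; group
  · rw [hza, mem_conjBy]
    have : b⁻¹⁻¹ * (b⁻¹ * a₀ * b) * b⁻¹ = a₀ := by group
    rw [this]; exact ha₀

/-- the only member of `S` inside `⁅A, B⁆` is `⁅A, B⁆` itself -/
theorem eq_commutator_of_le {S : Set (Subgroup G)} (hS : IsRootSubgroupSet S)
    {A B E : Subgroup G} (hA : ¬ IsIsolatedIn (FAdj S) S A) (hAS : A ∈ S)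
    (h : RootCommutatorCase S A B) (hE : E ∈ S) (hEC : E ≤ ⁅A, B⁆) : E = ⁅A, B⁆ := by
  obtain ⟨D, hD, hAD⟩ := exists_partner hA hAS
  have hDne : ¬ IsIsolatedIn (FAdj S) S D := not_isolated_of_partner hD hAS (RankOnePair_symm hAD)
  have hC := h.1
  have hEne := hS.ne_bot E hE
  have hinf : ⁅A, B⁆ ⊓ E = E := inf_eq_right.mpr hEC
  rcases hS.pair D hD _ hC with h1 | h1 | h1
  · exact absurd h1 (commutator_partner_ne_bot hS hAS hD hAD h hC le_rfl)
  · rcases Cfsg.Agent.S5028.result hS (not_isolated_of_partner hC hD (RankOnePair_symm h1)) hC E hE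
      with h2 | h2
    · rw [hinf] at h2; exact absurd h2 hEne
    · exact h2.symm
  · rcases hS.pair D hD E hE with h3 | h3 | h3
    · exact absurd h3 (commutator_partner_ne_bot hS hAS hD hAD h hE hEC)
    · rcases Cfsg.Agent.S5028.result hS (not_isolated_of_partner hE hD (RankOnePair_symm h3)) hE _ hC
        with h2 | h2
      · rw [inf_comm, hinf] at h2; exact absurd h2 hEne
      · exact h2
    · obtain ⟨e, he, he1⟩ := exists_ne_one_of_ne_bot hEne
      obtain ⟨d, hd, hd1⟩ := exists_ne_one_left (RankOnePair_symm hAD)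
      have heq : ⁅D, E⁆ = ⁅D, ⁅A, B⁆⁆ := by
        rw [← h3.2.2.2 e he he1, ← h1.2.2.2 e (hEC he) he1]
      apply le_antisymm hEC
      intro c hc
      have hfc : d⁻¹ * c⁻¹ * d * c ∈ ⁅D, E⁆ := by rw [heq]; exact commElt_mem hd hc
      obtain ⟨e', he', hee⟩ := exists_commElt_eq h3 hd hd1 hfc
      have hinj := commHom_injective hS hDne hD h1 hd hd1
        (a₁ := ⟨e', hEC he'⟩) (a₂ := ⟨c, hc⟩) (Subtype.ext hee)
      have hec : e' = c := congrArg Subtype.val hinj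
      rw [← hec]; exact he'

theorem mem_sup_commutator {S : Set (Subgroup G)} {A B : Subgroup G}
    (h : RootCommutatorCase S A B) {x : G} (hx : x ∈ A ⊔ ⁅A, B⁆) :
    ∃ a ∈ A, ∃ c ∈ ⁅A, B⁆, x = a * c := by
  refine sup_induction' (C := fun x => ∃ a ∈ A, ∃ c ∈ ⁅A, B⁆, x = a * c) hx ?_ ?_ ?_ ?_
  · intro a ha; exact ⟨a, ha, 1, Subgroup.one_mem _, by simp⟩
  · intro c hc; exact ⟨1, Subgroup.one_mem _, c, hc, by simp⟩
  · exact ⟨1, Subgroup.one_mem _, 1, Subgroup.one_mem _, by simp⟩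
  · rintro _ _ ⟨a, ha, c, hc, rfl⟩ ⟨a', ha', c', hc', rfl⟩
    refine ⟨a * a', A.mul_mem ha ha', c * c', Subgroup.mul_mem _ hc hc', ?_⟩
    have := h.2.1 c hc a' (Subgroup.mem_sup_left ha')
    calc a * c * (a' * c') = a * (c * a') * c' := by group
      _ = a * (a' * c) * c' := by rw [this]
      _ = a * a' * (c * c') := by group

theorem conjBy_le_sup_commutator {A B : Subgroup G} {b : G} (hb : b ∈ B) :
    conjBy A b ≤ A ⊔ ⁅A, B⁆ := by
  rintro _ ⟨a, ha, rfl⟩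
  show b * a * b⁻¹ ∈ A ⊔ ⁅A, B⁆
  have e : b * a * b⁻¹ = a * (a⁻¹ * b⁻¹⁻¹ * a * b⁻¹) := by group
  rw [e]
  exact Subgroup.mul_mem _ (Subgroup.mem_sup_left ha)
    (Subgroup.mem_sup_right (commElt_mem ha (B.inv_mem hb)))

theorem exists_conj_of_mul {S : Set (Subgroup G)} {A B : Subgroup G}
    (h : RootCommutatorCase S A B) {a c : G} (ha : a ∈ A) (ha1 : a ≠ 1) (hc : c ∈ ⁅A, B⁆) :
    ∃ b ∈ B, a * c = b * a * b⁻¹ := by
  obtain ⟨b, hb, e⟩ := exists_commElt_eq h ha ha1 hc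
  refine ⟨b⁻¹, B.inv_mem hb, ?_⟩
  rw [← e]; group

/-- Timmesfeld II (2.3)-type statement: the structure of `A ⁅A, B⁆` in the commutator case -/
theorem commutator_partition {S : Set (Subgroup G)} (hS : IsRootSubgroupSet S) {A B : Subgroup G}
    (hA : ¬ IsIsolatedIn (FAdj S) S A) (hAS : A ∈ S) (hB : B ∈ S) (hC : ⁅A, B⁆ ∈ S) :
    membersIn S (A ⊔ ⁅A, B⁆) = (fun b : G => conjBy A b) '' (B : Set G) ∪ {⁅A, B⁆} ∧
    IsSubgroupPartition (A ⊔ ⁅A, B⁆) (membersIn S (A ⊔ ⁅A, B⁆)) ∧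
    A ∈ linePartners S ⁅A, B⁆ ∧
    ∀ a ∈ A, a ≠ 1 → ∃ φ : ↥B ≃* ↥⁅A, B⁆, ∀ b : ↥B, (φ b : G) = a⁻¹ * (b : G)⁻¹ * a * b := by
  have h := rootCommutatorCase_of_mem hS hAS hB hC
  obtain ⟨D, hD, hAD⟩ := exists_partner hA hAS
  have hconj_ni : ∀ b : G, ¬ IsIsolatedIn (FAdj S) S (conjBy A b) := fun b =>
    not_isolated_of_partner (hS.conj_mem A hAS b) (hS.conj_mem D hD b) (rankOnePair_conj hAD b)
  have h1 : membersIn S (A ⊔ ⁅A, B⁆) = (fun b : G => conjBy A b) '' (B : Set G) ∪ {⁅A, B⁆} := by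
    ext E
    constructor
    · rintro ⟨hE, hEle⟩
      by_cases hEC : E ≤ ⁅A, B⁆
      · right; exact eq_commutator_of_le hS hA hAS h hE hEC
      · left
        obtain ⟨x, hxE, hxC⟩ := SetLike.not_le_iff_exists.mp hEC
        obtain ⟨a, ha, c, hc, rfl⟩ := mem_sup_commutator h (hEle hxE)
        have ha1 : a ≠ 1 := by rintro rfl; apply hxC; simpa using hc
        obtain ⟨b, hb, e⟩ := exists_conj_of_mul h ha ha1 hc
        refine ⟨b, hb, ?_⟩
        show conjBy A b = E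
        rcases Cfsg.Agent.S5028.result hS (hconj_ni b) (hS.conj_mem A hAS b) E hE with h2 | h2
        · exfalso
          have hmem : a * c ∈ conjBy A b ⊓ E :=
            ⟨by rw [e]; exact conj_mem_conjBy ha, hxE⟩
          rw [h2, Subgroup.mem_bot] at hmem
          apply hxC; rw [hmem]; exact Subgroup.one_mem _
        · exact h2
    · rintro (⟨b, hb, rfl⟩ | rfl)
      · exact ⟨hS.conj_mem A hAS b, conjBy_le_sup_commutator hb⟩
      · exact ⟨hC, le_sup_right⟩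
  have hpart : IsSubgroupPartition (A ⊔ ⁅A, B⁆) (membersIn S (A ⊔ ⁅A, B⁆)) := by
    refine ⟨fun E hE => hE.2, ?_, ?_⟩
    · intro x hx hx1
      obtain ⟨a, ha, c, hc, rfl⟩ := mem_sup_commutator h hx
      by_cases ha1 : a = 1
      · subst ha1
        exact ⟨⁅A, B⁆, ⟨hC, le_sup_right⟩, by simpa using hc⟩
      · obtain ⟨b, hb, e⟩ := exists_conj_of_mul h ha ha1 hc
        exact ⟨conjBy A b, ⟨hS.conj_mem A hAS b, conjBy_le_sup_commutator hb⟩,
          by rw [e]; exact conj_mem_conjBy ha⟩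
    · intro E hE E' hE' hne
      have key : ∀ E₁ ∈ (fun b : G => conjBy A b) '' (B : Set G), ∀ E₂ ∈ S, E₁ ≠ E₂ →
          E₁ ⊓ E₂ = ⊥ := by
        rintro _ ⟨b, hb, rfl⟩ E₂ hE₂ hne'
        rcases Cfsg.Agent.S5028.result hS (hconj_ni b) (hS.conj_mem A hAS b) E₂ hE₂ with h2 | h2
        · exact h2
        · exact absurd h2 hne'
      have hE1 := hE
      have hE1' := hE'
      rw [h1] at hE1 hE1'
      rcases hE1 with hE1 | hE1
      · exact key E hE1 E' hE'.1 hne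
      · rcases hE1' with hE1' | hE1'
        · rw [inf_comm]; exact key E' hE1' E hE.1 (Ne.symm hne)
        · exact absurd (hE1.trans hE1'.symm) hne
  refine ⟨h1, hpart, ⟨⟨hAS, ne_commutator_of_commCase hS h, ?_⟩, ?_⟩, ?_⟩
  · rw [Subgroup.commutator_eq_bot_iff_le_centralizer]
    intro c hc
    rw [Subgroup.mem_centralizer_iff]
    intro a' ha'
    exact (h.2.1 c hc a' (Subgroup.mem_sup_left ha')).symm
  · rw [sup_comm]; exact hpart
  · intro a ha ha1
    exact exists_commEquiv hS hA hAS h ha ha1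

end Cfsg.Agent.Helper26
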