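import Mathlib
import Cfsg.Agent.Helper26.RootComm

set_option autoImplicit false

namespace Cfsg.Agent.Helper26

open Cfsg
open scoped commutatorElement

variable {G : Type*} [Group G]

theorem rootCommutatorCase_symm {S : Set (Subgroup G)} {A B : Subgroup G}
    (h : RootCommutatorCase S A B) : RootCommutatorCase S B A := by
  have hc : ⁅B, A⁆ = ⁅A, B⁆ := Subgroup.commutator_comm B A
  have key : ∀ (X : Subgroup G) (y : G), (fun x : G => y * x * y⁻¹ * x⁻¹) '' (X : Set G) =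
      ((fun x : G => x * y * x⁻¹ * y⁻¹) '' (X : Set G))⁻¹ := by
    intro X y
    ext g
    simp only [Set.mem_image, Set.mem_inv]
    constructor
    · rintro ⟨x, hx, rfl⟩; exact ⟨x, hx, by group⟩
    · rintro ⟨x, hx, e⟩; refine ⟨x, hx, ?_⟩; rw [← inv_inv g, ← e]; group
  refine ⟨by rw [hc]; exact h.1, ?_, ?_, ?_⟩
  · rw [hc, sup_comm]; exact h.2.1
  · intro b hb hb1; rw [key, Subgroup.closure_inv, hc]; exact h.2.2.2 b hb hb1
  · intro a ha ha1; rw [← Subgroup.closure_inv, ← key, hc]; exact h.2.2.1 a ha ha1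

theorem exists_commElt_eq' {S : Set (Subgroup G)} {A B : Subgroup G}
    (h : RootCommutatorCase S A B) {b : G} (hb : b ∈ B) (hb1 : b ≠ 1) {c : G} (hc : c ∈ ⁅A, B⁆) :
    ∃ a ∈ A, a⁻¹ * b⁻¹ * a * b = c := by
  have hc' : c⁻¹ ∈ ⁅B, A⁆ := by
    rw [Subgroup.commutator_comm]; exact Subgroup.inv_mem _ hc
  obtain ⟨a, ha, e⟩ := exists_commElt_eq (rootCommutatorCase_symm h) hb hb1 hc'
  refine ⟨a, ha, ?_⟩
  rw [← inv_inv c, ← e]; group

theorem conjBy_eq_of_forall_comm {K : Subgroup G} {g : G} (h : ∀ k ∈ K, k * g = g * k) :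
    conjBy K g = K :=
  conjBy_eq_self_iff.mpr (mem_normalizer_of_forall_comm h)

/-- if `⁅A, B⁆ = C ∈ S` and `⁅D, C⁆ = A`, then `(B, D)` is a rank one pair -/
theorem rankOne_of_commutator_back {S : Set (Subgroup G)} (hS : IsRootSubgroupSet S)
    {A B D : Subgroup G} (hA : A ∈ S) (hB : B ∈ S) (hC : ⁅A, B⁆ ∈ S) (hD : D ∈ S)
    (hDC : ⁅D, ⁅A, B⁆⁆ = A) : IsRankOnePair B D := by
  have h := rootCommutatorCase_of_mem hS hA hB hC
  have hA' : ⁅D, ⁅A, B⁆⁆ ∈ S := by rw [hDC]; exact hA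
  have h' := rootCommutatorCase_of_mem hS hD hC hA'
  have hDA : ∀ d ∈ D, ∀ a ∈ A, d * a = a * d := by
    intro d hd a ha
    have := h'.2.1 a (by rw [hDC]; exact ha) d (Subgroup.mem_sup_left hd)
    exact this.symm
  have hCA : ∀ c ∈ ⁅A, B⁆, ∀ a ∈ A, c * a = a * c :=
    fun c hc a ha => h.2.1 c hc a (Subgroup.mem_sup_left ha)
  have key : ∀ b ∈ B, b ≠ 1 → ∀ d ∈ D, d ≠ 1 → d * (b * d * b⁻¹) ≠ (b * d * b⁻¹) * d := by
    intro b hb hb1 d hd hd1 hcomm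
    have s1 : ∀ a ∈ A, Commute d (b * ((a⁻¹ * b⁻¹ * a * b)⁻¹ * d * (a⁻¹ * b⁻¹ * a * b) * d⁻¹) * b⁻¹) := by
      intro a ha
      have hda := hDA d hd a ha
      have e1 : (b * d * b⁻¹) * a * (b * d * b⁻¹)⁻¹ =
          a * (b * ((a⁻¹ * b⁻¹ * a * b)⁻¹ * d * (a⁻¹ * b⁻¹ * a * b) * d⁻¹) * b⁻¹) := by
        calc (b * d * b⁻¹) * a * (b * d * b⁻¹)⁻¹
            = b * (d * a) * (a⁻¹ * b⁻¹ * a * b) * d⁻¹ * b⁻¹ := by group
          _ = b * (a * d) * (a⁻¹ * b⁻¹ * a * b) * d⁻¹ * b⁻¹ := by rw [hda]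
          _ = a * (b * ((a⁻¹ * b⁻¹ * a * b)⁻¹ * d * (a⁻¹ * b⁻¹ * a * b) * d⁻¹) * b⁻¹) := by group
      have hc1 : Commute d (b * d * b⁻¹) := hcomm
      have hc2 : Commute d a := hda
      have hc3 : Commute d ((b * d * b⁻¹) * a * (b * d * b⁻¹)⁻¹) :=
        (hc1.mul_right hc2).mul_right hc1.inv_right
      rw [e1] at hc3
      have hc4 := hc2.inv_right.mul_right hc3
      rwa [inv_mul_cancel_left] at hc4
    have s2 : ∀ α ∈ A, Commute d (b * α * b⁻¹) := by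
      intro α hα
      have hα' : α ∈ ⁅D, ⁅A, B⁆⁆ := by rw [hDC]; exact hα
      obtain ⟨γ₀, hγ₀, e⟩ := exists_commElt_eq h' (D.inv_mem hd) (by simpa using hd1) hα'
      have hγ : γ₀⁻¹ ∈ ⁅A, B⁆ := Subgroup.inv_mem _ hγ₀
      obtain ⟨a, ha, e2⟩ := exists_commElt_eq' h hb hb1 hγ
      have h3 := s1 a ha
      rw [e2] at h3
      have e3 : γ₀⁻¹⁻¹ * d * γ₀⁻¹ * d⁻¹ = α := by
        have hcomm2 := hCA γ₀ hγ₀ α hα
        calc γ₀⁻¹⁻¹ * d * γ₀⁻¹ * d⁻¹ = γ₀ * (d⁻¹⁻¹ * γ₀⁻¹ * d⁻¹ * γ₀) * γ₀⁻¹ := by group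
          _ = γ₀ * α * γ₀⁻¹ := by rw [e]
          _ = α := by rw [hcomm2]; group
      rw [e3] at h3
      exact h3
    have s3 : ∀ c ∈ ⁅A, B⁆, Commute d c := by
      intro c hc
      obtain ⟨a, ha, e⟩ := exists_commElt_eq' h (B.inv_mem hb) (by simpa using hb1) hc
      have h1 : Commute d a⁻¹ := (show Commute d a from hDA d hd a ha).inv_right
      have h2 := s2 a ha
      have e' : c = a⁻¹ * (b * a * b⁻¹) := by rw [← e]; group
      rw [e']
      exact h1.mul_right h2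
    apply hS.ne_bot _ hA'
    rw [← h'.2.2.1 d hd hd1, Subgroup.closure_eq_bot_iff]
    rintro _ ⟨c, hc, rfl⟩
    have h4 := s3 c hc
    show d * c * d⁻¹ * c⁻¹ = 1
    rw [h4.eq]; group
  obtain ⟨b, hb, hb1⟩ := exists_ne_one_of_ne_bot (hS.ne_bot B hB)
  obtain ⟨d, hd, hd1⟩ := exists_ne_one_of_ne_bot (hS.ne_bot D hD)
  rcases hS.pair B hB D hD with h1 | h1 | h1
  · exfalso
    apply key b hb hb1 d hd hd1
    have h2 := comm_of_commutator_eq_bot h1 hb hd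
    rw [h2]; group
  · exact h1
  · exfalso
    have hm := h1.2.1 (b * d * b⁻¹ * d⁻¹) (Subgroup.commutator_mem_commutator hb hd) d
      (Subgroup.mem_sup_right hd)
    apply key b hb hb1 d hd hd1
    calc d * (b * d * b⁻¹) = d * (b * d * b⁻¹ * d⁻¹) * d := by group
      _ = (b * d * b⁻¹ * d⁻¹ * d) * d := by rw [hm]
      _ = b * d * b⁻¹ * d := by group


/-- Timmesfeld II (2.11)-type statement -/
theorem commutator_back_structure {S : Set (Subgroup G)} (hS : IsRootSubgroupSet S)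
    {A B D : Subgroup G} (hA : A ∈ S) (hB : B ∈ S) (hC : ⁅A, B⁆ ∈ S) (hD : D ∈ S)
    (hDC : ⁅D, ⁅A, B⁆⁆ = A) :
    IsRankOnePair B D ∧
    {E | ∃ x ∈ B ⊔ D, E = conjBy A x} = {E | ∃ x ∈ B ⊔ D, E = conjBy ⁅A, B⁆ x} ∧
    {E | ∃ x ∈ B ⊔ D, E = conjBy A x} = (fun b : G => conjBy A b) '' (B : Set G) ∪ {⁅A, B⁆} ∧
    {E | ∃ x ∈ B ⊔ D, E = conjBy A x} = (fun d : G => conjBy ⁅A, B⁆ d) '' (D : Set G) ∪ {A} ∧
    IsSubgroupPartition (A ⊔ ⁅A, B⁆) {E | ∃ x ∈ B ⊔ D, E = conjBy A x} ∧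
    ∀ x ∈ (B ⊔ D) ⊓ Subgroup.centralizer ((A ⊔ ⁅A, B⁆ : Subgroup G) : Set G),
      ∀ y ∈ B ⊔ D, x * y = y * x := by
  have hBD := rankOne_of_commutator_back hS hA hB hC hD hDC
  have h := rootCommutatorCase_of_mem hS hA hB hC
  have hA' : ⁅D, ⁅A, B⁆⁆ ∈ S := by rw [hDC]; exact hA
  have h' := rootCommutatorCase_of_mem hS hD hC hA'
  have hs := rootCommutatorCase_symm h
  have hBni : ¬ IsIsolatedIn (FAdj S) S B := not_isolated_of_partner hB hD hBD
  have hDni : ¬ IsIsolatedIn (FAdj S) S D :=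
    not_isolated_of_partner hD hB (RankOnePair_symm hBD)
  have hDA : ∀ d ∈ D, ∀ a ∈ A, d * a = a * d := by
    intro d hd a ha
    have := h'.2.1 a (by rw [hDC]; exact ha) d (Subgroup.mem_sup_left hd)
    exact this.symm
  have hCA : ∀ c ∈ ⁅A, B⁆, ∀ a ∈ A, c * a = a * c :=
    fun c hc a ha => h.2.1 c hc a (Subgroup.mem_sup_left ha)
  have hCB : ∀ c ∈ ⁅A, B⁆, ∀ b ∈ B, c * b = b * c :=
    fun c hc b hb => h.2.1 c hc b (Subgroup.mem_sup_right hb)
  have hBinj : ∀ b ∈ B, b ≠ 1 → ∀ a ∈ A, b * a = a * b → a = 1 := fun b hb hb1 a ha hab =>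
    eq_one_of_comm_of_commCase hS hBni hB hs hb hb1 ha hab
  have hDinj : ∀ d ∈ D, d ≠ 1 → ∀ c ∈ ⁅A, B⁆, d * c = c * d → c = 1 := fun d hd hd1 c hc hdc =>
    eq_one_of_comm_of_commCase hS hDni hD h' hd hd1 hc hdc
  -- `N = A ⊔ ⁅A, B⁆` is invariant under `B` and `D`
  have hNB : ∀ b ∈ B, ∀ y ∈ A ⊔ ⁅A, B⁆, b * y * b⁻¹ ∈ A ⊔ ⁅A, B⁆ := by
    intro b hb y hy
    obtain ⟨a, ha, c, hc, rfl⟩ := mem_sup_commutator h hy
    have e : b * (a * c) * b⁻¹ = (b * a * b⁻¹) * (b * c) * b⁻¹ := by group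
    rw [e, ← hCB c hc b hb]
    have e2 : b * a * b⁻¹ * (c * b) * b⁻¹ = (b * a * b⁻¹) * c := by group
    rw [e2]
    exact Subgroup.mul_mem _ (conjBy_le_sup_commutator hb (conj_mem_conjBy ha))
      (Subgroup.mem_sup_right hc)
  have hND : ∀ d ∈ D, ∀ y ∈ A ⊔ ⁅A, B⁆, d * y * d⁻¹ ∈ A ⊔ ⁅A, B⁆ := by
    intro d hd y hy
    obtain ⟨a, ha, c, hc, rfl⟩ := mem_sup_commutator h hy
    have hmem : c⁻¹ * d * c * d⁻¹ ∈ A := by
      have h1 := Subgroup.commutator_mem_commutator (Subgroup.inv_mem _ hc) hd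
      rw [Subgroup.commutator_comm ⁅A, B⁆ D, hDC, commutatorElement_def, inv_inv] at h1
      exact h1
    have e : d * (a * c) * d⁻¹ = (d * a) * d⁻¹ * c * (c⁻¹ * d * c * d⁻¹) := by group
    rw [e, hDA d hd a ha]
    have e2 : a * d * d⁻¹ * c * (c⁻¹ * d * c * d⁻¹) = a * c * (c⁻¹ * d * c * d⁻¹) := by group
    rw [e2]
    exact Subgroup.mul_mem _ (Subgroup.mul_mem _ (Subgroup.mem_sup_left ha)
      (Subgroup.mem_sup_right hc)) (Subgroup.mem_sup_left hmem)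
  -- centralizers in `N`
  have hCNB : ∀ y ∈ A ⊔ ⁅A, B⁆, (∀ b ∈ B, b * y = y * b) → y ∈ ⁅A, B⁆ := by
    intro y hy hyB
    obtain ⟨a, ha, c, hc, rfl⟩ := mem_sup_commutator h hy
    obtain ⟨b, hb, hb1⟩ := exists_ne_one_of_ne_bot (hS.ne_bot B hB)
    have hab : b * a = a * b := by
      have h1 := hyB b hb
      have h2 := hCB c hc b hb
      calc b * a = (b * (a * c)) * c⁻¹ := by group
        _ = (a * c * b) * c⁻¹ := by rw [h1]
        _ = a * (c * b) * c⁻¹ := by group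
        _ = a * (b * c) * c⁻¹ := by rw [h2]
        _ = a * b := by group
    have h3 := hBinj b hb hb1 a ha hab
    rw [h3, one_mul]; exact hc
  have hCND : ∀ y ∈ A ⊔ ⁅A, B⁆, (∀ d ∈ D, d * y = y * d) → y ∈ A := by
    intro y hy hyD
    obtain ⟨a, ha, c, hc, rfl⟩ := mem_sup_commutator h hy
    obtain ⟨d, hd, hd1⟩ := exists_ne_one_of_ne_bot (hS.ne_bot D hD)
    have hdc : d * c = c * d := by
      have h1 := hyD d hd
      have h2 := hDA d hd a ha
      calc d * c = a⁻¹ * (a * d) * c := by group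
        _ = a⁻¹ * (d * a) * c := by rw [h2]
        _ = a⁻¹ * (d * (a * c)) := by group
        _ = a⁻¹ * (a * c * d) := by rw [h1]
        _ = c * d := by group
    have h3 := hDinj d hd hd1 c hc hdc
    rw [h3, mul_one]; exact ha
  -- the key relation between conjugates
  have hkey : ∀ b ∈ B, ∀ d ∈ D, conjBy D b⁻¹ = conjBy B d⁻¹ →
      conjBy A b⁻¹ = conjBy ⁅A, B⁆ d⁻¹ := by
    intro b hb d hd hconj
    apply le_antisymm
    · intro x hx
      rw [mem_conjBy, inv_inv] at hx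
      rw [mem_conjBy, inv_inv]
      have hxN : x ∈ A ⊔ ⁅A, B⁆ := by
        have h1 := hNB b⁻¹ (B.inv_mem hb) (b * x * b⁻¹) (Subgroup.mem_sup_left hx)
        have e : b⁻¹ * (b * x * b⁻¹) * b⁻¹⁻¹ = x := by group
        rw [e] at h1; exact h1
      apply hCNB _ (hND d hd x hxN)
      intro b' hb'
      have h1 : d⁻¹ * b' * d ∈ conjBy B d⁻¹ := by
        have := conj_mem_conjBy (g := d⁻¹) hb'
        simpa using this
      rw [← hconj, mem_conjBy, inv_inv] at h1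
      have h2 := hDA _ h1 _ hx
      have h3 : (d⁻¹ * b' * d) * x = x * (d⁻¹ * b' * d) := by
        have e1 : (d⁻¹ * b' * d) * x =
            b⁻¹ * ((b * (d⁻¹ * b' * d) * b⁻¹) * (b * x * b⁻¹)) * b := by group
        rw [e1, h2]; group
      calc b' * (d * x * d⁻¹) = d * ((d⁻¹ * b' * d) * x) * d⁻¹ := by group
        _ = d * (x * (d⁻¹ * b' * d)) * d⁻¹ := by rw [h3]
        _ = d * x * d⁻¹ * b' := by group
    · intro x hx
      rw [mem_conjBy, inv_inv] at hx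
      rw [mem_conjBy, inv_inv]
      have hxN : x ∈ A ⊔ ⁅A, B⁆ := by
        have h1 := hND d⁻¹ (D.inv_mem hd) (d * x * d⁻¹) (Subgroup.mem_sup_right hx)
        have e : d⁻¹ * (d * x * d⁻¹) * d⁻¹⁻¹ = x := by group
        rw [e] at h1; exact h1
      apply hCND _ (hNB b hb x hxN)
      intro d' hd'
      have h1 : b⁻¹ * d' * b ∈ conjBy D b⁻¹ := by
        have := conj_mem_conjBy (g := b⁻¹) hd'
        simpa using this
      rw [hconj, mem_conjBy, inv_inv] at h1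
      have h2 := hCB _ hx _ h1
      have h3 : (b⁻¹ * d' * b) * x = x * (b⁻¹ * d' * b) := by
        have e1 : (b⁻¹ * d' * b) * x =
            d⁻¹ * ((d * (b⁻¹ * d' * b) * d⁻¹) * (d * x * d⁻¹)) * d := by group
        rw [e1, ← h2]; group
      calc d' * (b * x * b⁻¹) = b * ((b⁻¹ * d' * b) * x) * b⁻¹ := by group
        _ = b * (x * (b⁻¹ * d' * b)) * b⁻¹ := by rw [h3]
        _ = b * x * b⁻¹ * d' := by group
  -- the two descriptions of the line agree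
  have hΛ : (fun b : G => conjBy A b) '' (B : Set G) ∪ {⁅A, B⁆} =
      (fun d : G => conjBy ⁅A, B⁆ d) '' (D : Set G) ∪ {A} := by
    apply Set.Subset.antisymm
    · rintro E (⟨b, hb, rfl⟩ | rfl)
      · by_cases hb1 : b = 1
        · right; subst hb1; exact conjBy_one A
        · left
          obtain ⟨d, hd, -, hc⟩ := hBD.cond_left b⁻¹ (B.inv_mem hb) (by simpa using hb1)
          have h1 := hkey b⁻¹ (B.inv_mem hb) d hd hc.symm
          rw [inv_inv] at h1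
          exact ⟨d⁻¹, D.inv_mem hd, h1.symm⟩
      · left; exact ⟨1, D.one_mem, conjBy_one _⟩
    · rintro E (⟨d, hd, rfl⟩ | rfl)
      · by_cases hd1 : d = 1
        · right; subst hd1; exact conjBy_one _
        · left
          obtain ⟨b, hb, -, hc⟩ := hBD.cond_right d⁻¹ (D.inv_mem hd) (by simpa using hd1)
          have h1 := hkey b hb d⁻¹ (D.inv_mem hd) hc
          rw [inv_inv] at h1
          exact ⟨b⁻¹, B.inv_mem hb, h1⟩
      · left; exact ⟨1, B.one_mem, conjBy_one _⟩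
  -- invariance
  have hinv : ∀ x ∈ B ⊔ D, ∀ E ∈ (fun b : G => conjBy A b) '' (B : Set G) ∪ {⁅A, B⁆},
      conjBy E x ∈ (fun b : G => conjBy A b) '' (B : Set G) ∪ {⁅A, B⁆} := by
    intro x hx
    refine sup_induction' (C := fun x => ∀ E ∈ (fun b : G => conjBy A b) '' (B : Set G) ∪ {⁅A, B⁆},
      conjBy E x ∈ (fun b : G => conjBy A b) '' (B : Set G) ∪ {⁅A, B⁆}) hx ?_ ?_ ?_ ?_
    · intro b' hb' E hE
      rcases hE with ⟨b, hb, rfl⟩ | rfl
      · left; exact ⟨b' * b, B.mul_mem hb' hb, (conjBy_conjBy A b b').symm⟩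
      · right
        exact conjBy_eq_of_forall_comm (fun c hc => hCB c hc b' hb')
    · intro d' hd' E hE
      rw [hΛ] at hE ⊢
      rcases hE with ⟨d, hd, rfl⟩ | rfl
      · left; exact ⟨d' * d, D.mul_mem hd' hd, (conjBy_conjBy _ d d').symm⟩
      · right
        exact conjBy_eq_of_forall_comm (fun a ha => (hDA d' hd' a ha).symm)
    · intro E hE; rw [conjBy_one]; exact hE
    · intro x y hx hy E hE
      rw [← conjBy_conjBy]; exact hx _ (hy E hE)
  have hO : {E | ∃ x ∈ B ⊔ D, E = conjBy A x} =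
      (fun b : G => conjBy A b) '' (B : Set G) ∪ {⁅A, B⁆} := by
    apply Set.Subset.antisymm
    · rintro E ⟨x, hx, rfl⟩
      exact hinv x hx A (Or.inl ⟨1, B.one_mem, conjBy_one A⟩)
    · rintro E (⟨b, hb, rfl⟩ | rfl)
      · exact ⟨b, Subgroup.mem_sup_left hb, rfl⟩
      · obtain ⟨d, hd, hd1⟩ := exists_ne_one_of_ne_bot (hS.ne_bot D hD)
        obtain ⟨b, hb, -, hc⟩ := hBD.cond_right d hd hd1
        have h1 := hkey b hb d hd hc
        refine ⟨d * b⁻¹, Subgroup.mul_mem _ (Subgroup.mem_sup_right hd)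
          (Subgroup.mem_sup_left (B.inv_mem hb)), ?_⟩
        rw [← conjBy_conjBy, h1, conjBy_conjBy, mul_inv_cancel, conjBy_one]
  -- `N` is invariant under `B ⊔ D`
  have hNX : ∀ x ∈ B ⊔ D, ∀ y ∈ A ⊔ ⁅A, B⁆, x * y * x⁻¹ ∈ A ⊔ ⁅A, B⁆ := by
    intro x hx
    refine sup_induction' (C := fun x => ∀ y ∈ A ⊔ ⁅A, B⁆, x * y * x⁻¹ ∈ A ⊔ ⁅A, B⁆)
      hx hNB hND ?_ ?_
    · intro y hy; simpa using hy
    · intro x₁ x₂ h1 h2 y hy
      have e : x₁ * x₂ * y * (x₁ * x₂)⁻¹ = x₁ * (x₂ * y * x₂⁻¹) * x₁⁻¹ := by group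
      rw [e]; exact h1 _ (h2 y hy)
  refine ⟨hBD, ?_, hO, ?_, ?_, ?_⟩
  · have hCO : ⁅A, B⁆ ∈ {E | ∃ x ∈ B ⊔ D, E = conjBy A x} := by
      rw [hO]; right; rfl
    obtain ⟨x₀, hx₀, hCx₀⟩ := hCO
    apply Set.Subset.antisymm
    · rintro E ⟨x, hx, rfl⟩
      refine ⟨x * x₀⁻¹, Subgroup.mul_mem _ hx (Subgroup.inv_mem _ hx₀), ?_⟩
      have e : conjBy ⁅A, B⁆ (x * x₀⁻¹) = conjBy (conjBy A x₀) (x * x₀⁻¹) := by rw [← hCx₀]
      rw [e, conjBy_conjBy]
      congr 1; group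
    · rintro E ⟨x, hx, rfl⟩
      refine ⟨x * x₀, Subgroup.mul_mem _ hx hx₀, ?_⟩
      rw [← conjBy_conjBy, ← hCx₀]
  · rw [hO]; exact hΛ
  · rw [hO]
    refine ⟨?_, ?_, ?_⟩
    · rintro E (⟨b, hb, rfl⟩ | rfl)
      · exact conjBy_le_sup_commutator hb
      · exact le_sup_right
    · intro x hx hx1
      obtain ⟨a, ha, c, hc, rfl⟩ := mem_sup_commutator h hx
      by_cases ha1 : a = 1
      · subst ha1
        exact ⟨⁅A, B⁆, Or.inr rfl, by simpa using hc⟩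
      · obtain ⟨b, hb, e⟩ := exists_conj_of_mul h ha ha1 hc
        exact ⟨conjBy A b, Or.inl ⟨b, hb, rfl⟩, by rw [e]; exact conj_mem_conjBy ha⟩
    · have hAC : ∀ z ∈ A, z ∈ ⁅A, B⁆ → z = 1 := by
        intro z hzA hzC
        obtain ⟨b, hb, hb1⟩ := exists_ne_one_of_ne_bot (hS.ne_bot B hB)
        exact hBinj b hb hb1 z hzA (hCB z hzC b hb).symm
      have hAb : ∀ b ∈ B, b ≠ 1 → ∀ a ∈ A, b * a * b⁻¹ ∈ A → a = 1 := by
        intro b hb hb1 a ha hmem
        have h1 : a⁻¹ * (b * a * b⁻¹) ∈ A := A.mul_mem (A.inv_mem ha) hmem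
        have h2 : a⁻¹ * (b * a * b⁻¹) ∈ ⁅A, B⁆ := by
          have h3 := commElt_mem ha (B.inv_mem hb)
          have e : a⁻¹ * (b * a * b⁻¹) = a⁻¹ * b⁻¹⁻¹ * a * b⁻¹ := by group
          rw [e]; exact h3
        have h3 := hAC _ h1 h2
        apply hBinj b hb hb1 a ha
        have e : b * a = a * (a⁻¹ * (b * a * b⁻¹)) * b := by group
        rw [e, h3, mul_one]
      have key1 : ∀ b ∈ B, ∀ b' ∈ B, conjBy A b ≠ conjBy A b' →
          conjBy A b ⊓ conjBy A b' = ⊥ := by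
        intro b hb b' hb' hne
        rw [eq_bot_iff]
        rintro x ⟨hx, hx'⟩
        rw [Subgroup.mem_bot]
        have hx1 := mem_conjBy.mp hx
        have hx2 := mem_conjBy.mp hx'
        have hbb : b'⁻¹ * b ≠ 1 := by
          intro hbb
          apply hne
          have e : b = b' := by
            have e' : b = b' * (b'⁻¹ * b) := by group
            rw [e', hbb, mul_one]
          rw [e]
        have h4 := hAb (b'⁻¹ * b) (B.mul_mem (B.inv_mem hb') hb) hbb (b⁻¹ * x * b) hx1 (by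
          have e : b'⁻¹ * b * (b⁻¹ * x * b) * (b'⁻¹ * b)⁻¹ = b'⁻¹ * x * b' := by group
          rw [e]; exact hx2)
        have e : x = b * (b⁻¹ * x * b) * b⁻¹ := by group
        rw [e, h4]; group
      have key2 : ∀ b ∈ B, conjBy A b ⊓ ⁅A, B⁆ = ⊥ := by
        intro b hb
        rw [eq_bot_iff]
        rintro x ⟨hx, hxC⟩
        rw [Subgroup.mem_bot]
        have hx1 := mem_conjBy.mp hx
        have e : b⁻¹ * x * b = x := by
          rw [mul_assoc, hCB x hxC b hb]; group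
        rw [e] at hx1
        exact hAC x hx1 hxC
      rintro E (⟨b, hb, rfl⟩ | rfl) E' (⟨b', hb', rfl⟩ | rfl) hne
      · exact key1 b hb b' hb' hne
      · exact key2 b hb
      · rw [inf_comm]; exact key2 b' hb'
      · exact absurd rfl hne
  · have hKn : ∀ x ∈ B ⊔ D,
        ∀ n ∈ (B ⊔ D) ⊓ Subgroup.centralizer ((A ⊔ ⁅A, B⁆ : Subgroup G) : Set G),
        x * n * x⁻¹ ∈ (B ⊔ D) ⊓ Subgroup.centralizer ((A ⊔ ⁅A, B⁆ : Subgroup G) : Set G) := by
      intro x hx n hn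
      refine ⟨Subgroup.mul_mem _ (Subgroup.mul_mem _ hx hn.1) (Subgroup.inv_mem _ hx), ?_⟩
      show x * n * x⁻¹ ∈ Subgroup.centralizer ((A ⊔ ⁅A, B⁆ : Subgroup G) : Set G)
      rw [Subgroup.mem_centralizer_iff]
      intro y hy
      have hy' : x⁻¹ * y * x⁻¹⁻¹ ∈ A ⊔ ⁅A, B⁆ := hNX x⁻¹ (Subgroup.inv_mem _ hx) y hy
      have h1 := Subgroup.mem_centralizer_iff.mp hn.2 _ hy'
      calc y * (x * n * x⁻¹) = x * ((x⁻¹ * y * x⁻¹⁻¹) * n) * x⁻¹ := by group
        _ = x * (n * (x⁻¹ * y * x⁻¹⁻¹)) * x⁻¹ := by rw [h1]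
        _ = x * n * x⁻¹ * y := by group
    rcases rel_normal_sup_or_central hBD _ inf_le_left hKn with hsup | hcen
    · exfalso
      obtain ⟨d, hd, hd1⟩ := exists_ne_one_of_ne_bot (hS.ne_bot D hD)
      have hdec : ∀ y ∈ ((B ⊔ D) ⊓ Subgroup.centralizer ((A ⊔ ⁅A, B⁆ : Subgroup G) : Set G)) ⊔ B,
          ∃ k ∈ (B ⊔ D) ⊓ Subgroup.centralizer ((A ⊔ ⁅A, B⁆ : Subgroup G) : Set G),
            ∃ b ∈ B, y = k * b := by
        intro y hy
        refine sup_induction' (C := fun y =>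
          ∃ k ∈ (B ⊔ D) ⊓ Subgroup.centralizer ((A ⊔ ⁅A, B⁆ : Subgroup G) : Set G),
            ∃ b ∈ B, y = k * b) hy ?_ ?_ ?_ ?_
        · intro k hk; exact ⟨k, hk, 1, B.one_mem, by simp⟩
        · intro b hb; exact ⟨1, Subgroup.one_mem _, b, hb, by simp⟩
        · exact ⟨1, Subgroup.one_mem _, 1, B.one_mem, by simp⟩
        · rintro _ _ ⟨k, hk, b, hb, rfl⟩ ⟨k', hk', b', hb', rfl⟩
          exact ⟨k * (b * k' * b⁻¹), Subgroup.mul_mem _ hk (hKn b (Subgroup.mem_sup_left hb) k' hk'),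
            b * b', B.mul_mem hb hb', by group⟩
      obtain ⟨k, hk, b, hb, hdkb⟩ := hdec d (hsup hd)
      have hkc : ∀ y ∈ A ⊔ ⁅A, B⁆, y * k = k * y :=
        fun y hy => Subgroup.mem_centralizer_iff.mp hk.2 y hy
      obtain ⟨a, ha, ha1⟩ := exists_ne_one_of_ne_bot (hS.ne_bot A hA)
      have hb1 : b = 1 := by
        by_contra hb1
        apply ha1
        apply hBinj b hb hb1 a ha
        have h1 := hDA d hd a ha
        have h2 := hkc (b * a * b⁻¹) (hNB b hb a (Subgroup.mem_sup_left ha))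
        rw [hdkb] at h1
        have h3 : (b * a * b⁻¹) * (k * b) = a * (k * b) := by
          calc (b * a * b⁻¹) * (k * b) = ((b * a * b⁻¹) * k) * b := by group
            _ = (k * (b * a * b⁻¹)) * b := by rw [h2]
            _ = k * b * a := by group
            _ = a * (k * b) := h1
        have h4 := mul_right_cancel h3
        calc b * a = (b * a * b⁻¹) * b := by group
          _ = a * b := by rw [h4]
      rw [hb1, mul_one] at hdkb
      obtain ⟨c, hc, hc1⟩ := exists_ne_one_of_ne_bot (hS.ne_bot _ hC)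
      apply hc1
      apply hDinj d hd hd1 c hc
      rw [hdkb]
      exact (hkc c (Subgroup.mem_sup_right hc)).symm
    · exact hcen

end Cfsg.Agent.Helper26
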