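import Mathlib
import Cfsg.Agent.Helper26.RootLine

set_option autoImplicit false

namespace Cfsg.Agent.Helper26

open Cfsg
open scoped commutatorElement

variable {G : Type*} [Group G]

/-- commutators `x g x⁻¹ g⁻¹` with `x` in a join lie in `K` once this holds for both parts -/
theorem commutator_mem_of_sup_left {K H₁ H₂ T : Subgroup G}
    (hn : ∀ x ∈ H₁ ⊔ H₂, ∀ k ∈ K, x * k * x⁻¹ ∈ K)
    (h1 : ∀ x ∈ H₁, ∀ g ∈ T, x * g * x⁻¹ * g⁻¹ ∈ K)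
    (h2 : ∀ x ∈ H₂, ∀ g ∈ T, x * g * x⁻¹ * g⁻¹ ∈ K) :
    ∀ x ∈ H₁ ⊔ H₂, ∀ g ∈ T, x * g * x⁻¹ * g⁻¹ ∈ K := by
  intro x hx
  have key := sup_induction' (C := fun x => x ∈ H₁ ⊔ H₂ ∧ ∀ g ∈ T, x * g * x⁻¹ * g⁻¹ ∈ K) hx
    (fun x hx => ⟨Subgroup.mem_sup_left hx, h1 x hx⟩)
    (fun x hx => ⟨Subgroup.mem_sup_right hx, h2 x hx⟩)
    ⟨Subgroup.one_mem _, fun g _ => by simp⟩ ?_
  · exact key.2
  · rintro x₁ x₂ ⟨hx₁, h₁⟩ ⟨hx₂, h₂⟩
    refine ⟨Subgroup.mul_mem _ hx₁ hx₂, fun g hg => ?_⟩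
    have e : x₁ * x₂ * g * (x₁ * x₂)⁻¹ * g⁻¹ =
        (x₁ * (x₂ * g * x₂⁻¹ * g⁻¹) * x₁⁻¹) * (x₁ * g * x₁⁻¹ * g⁻¹) := by group
    rw [e]
    exact K.mul_mem (hn x₁ hx₁ _ (h₂ g hg)) (h₁ g hg)

theorem commutator_mem_of_sup_right {K H T₁ T₂ : Subgroup G}
    (hn : ∀ g ∈ T₁ ⊔ T₂, ∀ k ∈ K, g * k * g⁻¹ ∈ K)
    (h1 : ∀ x ∈ H, ∀ g ∈ T₁, x * g * x⁻¹ * g⁻¹ ∈ K)
    (h2 : ∀ x ∈ H, ∀ g ∈ T₂, x * g * x⁻¹ * g⁻¹ ∈ K) :
    ∀ x ∈ H, ∀ g ∈ T₁ ⊔ T₂, x * g * x⁻¹ * g⁻¹ ∈ K := by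
  intro x hx g hg
  have key := sup_induction' (C := fun g => g ∈ T₁ ⊔ T₂ ∧ x * g * x⁻¹ * g⁻¹ ∈ K) hg
    (fun g hg => ⟨Subgroup.mem_sup_left hg, h1 x hx g hg⟩)
    (fun g hg => ⟨Subgroup.mem_sup_right hg, h2 x hx g hg⟩)
    ⟨Subgroup.one_mem _, by simp⟩ ?_
  · exact key.2
  · rintro g₁ g₂ ⟨hg₁, h₁⟩ ⟨hg₂, h₂⟩
    refine ⟨Subgroup.mul_mem _ hg₁ hg₂, ?_⟩
    have e : x * (g₁ * g₂) * x⁻¹ * (g₁ * g₂)⁻¹ =
        (x * g₁ * x⁻¹ * g₁⁻¹) * (g₁ * (x * g₂ * x⁻¹ * g₂⁻¹) * g₁⁻¹) := by group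
    rw [e]
    exact K.mul_mem h₁ (hn g₁ hg₁ _ h₂)

theorem commutator_mem_of_sup_sup {K U V : Subgroup G}
    (hn : ∀ x ∈ U ⊔ V, ∀ k ∈ K, x * k * x⁻¹ ∈ K)
    (hUU : ∀ x ∈ U, ∀ g ∈ U, x * g * x⁻¹ * g⁻¹ ∈ K)
    (hUV : ∀ x ∈ U, ∀ g ∈ V, x * g * x⁻¹ * g⁻¹ ∈ K)
    (hVU : ∀ x ∈ V, ∀ g ∈ U, x * g * x⁻¹ * g⁻¹ ∈ K)
    (hVV : ∀ x ∈ V, ∀ g ∈ V, x * g * x⁻¹ * g⁻¹ ∈ K) :
    ∀ x ∈ U ⊔ V, ∀ g ∈ U ⊔ V, x * g * x⁻¹ * g⁻¹ ∈ K :=
  commutator_mem_of_sup_left hn (commutator_mem_of_sup_right hn hUU hUV)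
    (commutator_mem_of_sup_right hn hVU hVV)

/-- nilpotency of a subgroup from a descending series with central factors -/
theorem isNilpotent_of_series {R : Subgroup G} (H : ℕ → Subgroup G) (n : ℕ) (h0 : R ≤ H 0)
    (hn : H n = ⊥)
    (hstep : ∀ i, ∀ x ∈ H i, ∀ g ∈ R, x * g * x⁻¹ * g⁻¹ ∈ H (i + 1)) :
    Group.IsNilpotent ↥R := by
  rw [nilpotent_iff_finite_descending_central_series]
  refine ⟨n, fun i => (H i).subgroupOf R, ⟨?_, ?_⟩, ?_⟩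
  · exact Subgroup.subgroupOf_eq_top.mpr h0
  · intro x i hx g
    rw [Subgroup.mem_subgroupOf] at hx ⊢
    exact hstep i _ hx _ g.2
  · show (H n).subgroupOf R = ⊥
    rw [hn, Subgroup.bot_subgroupOf]

theorem commute_sup_sup {U₁ U₂ V₁ V₂ : Subgroup G}
    (h11 : ∀ u ∈ U₁, ∀ v ∈ V₁, u * v = v * u) (h12 : ∀ u ∈ U₁, ∀ v ∈ V₂, u * v = v * u)
    (h21 : ∀ u ∈ U₂, ∀ v ∈ V₁, u * v = v * u) (h22 : ∀ u ∈ U₂, ∀ v ∈ V₂, u * v = v * u) :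
    ∀ x ∈ U₁ ⊔ U₂, ∀ y ∈ V₁ ⊔ V₂, x * y = y * x := by
  have hle : U₁ ⊔ U₂ ≤ Subgroup.centralizer ((V₁ ⊔ V₂ : Subgroup G) : Set G) := by
    apply sup_le
    · intro u hu
      exact mem_centralizer_sup (fun v hv => (h11 u hu v hv).symm) (fun v hv => (h12 u hu v hv).symm)
    · intro u hu
      exact mem_centralizer_sup (fun v hv => (h21 u hu v hv).symm) (fun v hv => (h22 u hu v hv).symm)
  intro x hx y hy
  exact (Subgroup.mem_centralizer_iff.mp (hle hx) y hy).symm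

theorem isMulCommutative_sup {U V : Subgroup G} (hU : IsMulCommutative U) (hV : IsMulCommutative V)
    (h : ⁅U, V⁆ = ⊥) : IsMulCommutative ↥(U ⊔ V) := by
  have key := commute_sup_sup (U₁ := U) (U₂ := V) (V₁ := U) (V₂ := V)
    (fun u hu v hv => comm_of_isMulCommutative hU hu hv)
    (fun u hu v hv => comm_of_commutator_eq_bot h hu hv)
    (fun u hu v hv => (comm_of_commutator_eq_bot h hv hu).symm)
    (fun u hu v hv => comm_of_isMulCommutative hV hu hv)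
  exact ⟨⟨fun x y => Subtype.ext (key x x.2 y y.2)⟩⟩

theorem commutator_eq_bot_of_isMulCommutative_sup {U V : Subgroup G}
    (h : IsMulCommutative ↥(U ⊔ V)) : ⁅U, V⁆ = ⊥ := by
  rw [Subgroup.commutator_eq_bot_iff_le_centralizer]
  intro u hu
  rw [Subgroup.mem_centralizer_iff]
  intro v hv
  exact comm_of_isMulCommutative h (Subgroup.mem_sup_right hv) (Subgroup.mem_sup_left hu)

/-- two abelian subgroups whose commutator is central in their join: the join has class ≤ 2 -/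
theorem commutator_mem_of_central {U V : Subgroup G} (hU : IsMulCommutative U)
    (hV : IsMulCommutative V) (hcen : ∀ k ∈ ⁅U, V⁆, ∀ x ∈ U ⊔ V, k * x = x * k) :
    ∀ x ∈ U ⊔ V, ∀ g ∈ U ⊔ V, x * g * x⁻¹ * g⁻¹ ∈ ⁅U, V⁆ := by
  apply commutator_mem_of_sup_sup
  · intro x hx k hk
    rw [← hcen k hk x hx, mul_inv_cancel_right]
    exact hk
  · intro x hx g hg
    rw [comm_of_isMulCommutative hU hx hg]
    simp
  · intro x hx g hg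
    exact Subgroup.commutator_mem_commutator hx hg
  · intro x hx g hg
    have h1 := Subgroup.inv_mem _ (Subgroup.commutator_mem_commutator hg hx)
    rw [commutatorElement_def] at h1
    have e : (g * x * g⁻¹ * x⁻¹)⁻¹ = x * g * x⁻¹ * g⁻¹ := by group
    rw [e] at h1
    exact h1
  · intro x hx g hg
    rw [comm_of_isMulCommutative hV hx hg]
    simp

theorem class_two_of_central {U V : Subgroup G} (hU : IsMulCommutative U)
    (hV : IsMulCommutative V) (hcen : ∀ k ∈ ⁅U, V⁆, ∀ x ∈ U ⊔ V, k * x = x * k) :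
    ⁅⁅U ⊔ V, U ⊔ V⁆, U ⊔ V⁆ = ⊥ := by
  have h1 : ⁅U ⊔ V, U ⊔ V⁆ ≤ ⁅U, V⁆ := by
    rw [Subgroup.commutator_le]
    intro x hx g hg
    exact commutator_mem_of_central hU hV hcen x hx g hg
  rw [Subgroup.commutator_eq_bot_iff_le_centralizer]
  intro k hk
  rw [Subgroup.mem_centralizer_iff]
  intro x hx
  exact (hcen k (h1 hk) x hx).symm

theorem rankOne_commutator_ne_bot {A B : Subgroup G} (h : IsRankOnePair A B) : ⁅A, B⁆ ≠ ⊥ := by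
  intro hbot
  obtain ⟨b, hb, hb1⟩ := exists_ne_one_right h
  apply hb1
  apply eq_one_of_mem_of_normalizes' h hb
  apply mem_normalizer_of_forall_comm
  intro a ha
  exact comm_of_commutator_eq_bot hbot ha hb


theorem commElt_mem' {A B : Subgroup G} {a g : G} (ha : a ∈ A) (hg : g ∈ B) :
    a⁻¹ * g * a * g⁻¹ ∈ ⁅A, B⁆ := by
  have h1 := commElt_mem ha (B.inv_mem hg)
  rw [inv_inv] at h1
  exact h1

theorem exists_commElt_eq'' {S : Set (Subgroup G)} {A B : Subgroup G}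
    (h : RootCommutatorCase S A B) {g : G} (hg : g ∈ B) (hg1 : g ≠ 1) {k : G} (hk : k ∈ ⁅A, B⁆) :
    ∃ a ∈ A, a⁻¹ * g * a * g⁻¹ = k := by
  obtain ⟨a, ha, e⟩ := exists_commElt_eq' h (B.inv_mem hg) (by simpa using hg1) hk
  rw [inv_inv] at e
  exact ⟨a, ha, e⟩

theorem commutator_le_sup_conjBy {S : Set (Subgroup G)} {A B : Subgroup G}
    (h : RootCommutatorCase S A B) {g : G} (hg : g ∈ B) (hg1 : g ≠ 1) :
    ⁅A, B⁆ ≤ A ⊔ conjBy A g := by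
  intro k hk
  obtain ⟨a, ha, rfl⟩ := exists_commElt_eq'' h hg hg1 hk
  have e : a⁻¹ * g * a * g⁻¹ = a⁻¹ * (g * a * g⁻¹) := by group
  rw [e]
  exact Subgroup.mul_mem _ (Subgroup.mem_sup_left (A.inv_mem ha))
    (Subgroup.mem_sup_right (conj_mem_conjBy ha))

theorem sup_conjBy_eq {S : Set (Subgroup G)} {A B : Subgroup G}
    (h : RootCommutatorCase S A B) {g : G} (hg : g ∈ B) (hg1 : g ≠ 1) :
    A ⊔ conjBy A g = A ⊔ ⁅A, B⁆ :=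
  le_antisymm (sup_le le_sup_left (conjBy_le_sup_commutator hg))
    (sup_le le_sup_left (commutator_le_sup_conjBy h hg hg1))

/-- `A` commutes with its conjugates under `B` in the commutator case -/
theorem commute_conj_of_commCase {S : Set (Subgroup G)} {A B : Subgroup G}
    (h : RootCommutatorCase S A B) (hAc : IsMulCommutative A) {g a a' : G} (hg : g ∈ B)
    (ha : a ∈ A) (ha' : a' ∈ A) : a * (g * a' * g⁻¹) = (g * a' * g⁻¹) * a := by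
  have hm := h.2.1 _ (commElt_mem' ha' hg) a (Subgroup.mem_sup_left ha)
  have hc := comm_of_isMulCommutative hAc ha ha'
  calc a * (g * a' * g⁻¹) = (a * a') * (a'⁻¹ * g * a' * g⁻¹) := by group
    _ = (a' * a) * (a'⁻¹ * g * a' * g⁻¹) := by rw [hc]
    _ = a' * (a * (a'⁻¹ * g * a' * g⁻¹)) := by group
    _ = a' * ((a'⁻¹ * g * a' * g⁻¹) * a) := by rw [hm]
    _ = (g * a' * g⁻¹) * a := by group

/-- `(A, C^g)` is never a rank one pair, for `A, C` commuting and `g ∈ B` not commuting with `A` -/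
theorem not_rankOne_conj {S : Set (Subgroup G)} (hS : IsRootSubgroupSet S) {A B C : Subgroup G}
    (hA : A ∈ S) (hC : C ∈ S) (hM : RootCommutatorCase S A B) (hcomm : ⁅A, C⁆ = ⊥)
    {g : G} (hg : g ∈ B) (hg1 : g ≠ 1) : ¬ IsRankOnePair A (conjBy C g) := by
  intro hrank
  have hex : ∃ a ∈ A, a * g ≠ g * a := by
    by_contra hne
    simp only [not_exists, not_and, not_not] at hne
    apply hS.ne_bot _ hM.1
    rw [← hM.2.2.2 g hg hg1, Subgroup.closure_eq_bot_iff]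
    rintro _ ⟨a, ha, rfl⟩
    show a * g * a⁻¹ * g⁻¹ = 1
    rw [hne a ha]; group
  obtain ⟨a, ha, hag⟩ := hex
  have ha1 : a ≠ 1 := by
    rintro rfl
    apply hag; simp
  have hz : g * a * g⁻¹ ∈ Subgroup.centralizer ((A ⊔ conjBy C g : Subgroup G) : Set G) := by
    apply mem_centralizer_sup
    · intro x hx
      exact commute_conj_of_commCase hM (hS.commutative A hA) hg hx ha
    · rintro _ ⟨c, hc, rfl⟩
      show g * c * g⁻¹ * (g * a * g⁻¹) = g * a * g⁻¹ * (g * c * g⁻¹)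
      have hac := comm_of_commutator_eq_bot hcomm ha hc
      calc g * c * g⁻¹ * (g * a * g⁻¹) = g * (c * a) * g⁻¹ := by group
        _ = g * (a * c) * g⁻¹ := by rw [hac]
        _ = g * a * g⁻¹ * (g * c * g⁻¹) := by group
  have hz1 : g * a * g⁻¹ ≠ 1 := by
    intro h1
    apply ha1
    have e : a = g⁻¹ * (g * a * g⁻¹) * g := by group
    rw [e, h1]; group
  apply Cfsg.Agent.S5025.result hS hA ⟨hS.conj_mem C hC g, hrank⟩ hz hz1 a⁻¹ (A.inv_mem ha)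
    (by simpa using ha1)
  refine ⟨?_, ⁅A, B⁆, hM.1, ?_⟩
  · intro h1
    apply hag
    have e : a * g = (g * a * g⁻¹ * a⁻¹)⁻¹ * (g * a) := by group
    rw [e, h1]; group
  · have h1 := Subgroup.commutator_mem_commutator hg ha
    rw [Subgroup.commutator_comm, commutatorElement_def] at h1
    exact h1

/-- the commutator identity behind `⁅A, C^g⁆ = ⁅A, ⁅C, B⁆⁆` -/
theorem commutator_conj_eq {a c g : G} (hac : a * c = c * a)
    (hcn : c * (c⁻¹ * g * c * g⁻¹) = (c⁻¹ * g * c * g⁻¹) * c) :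
    a * (g * c * g⁻¹) * a⁻¹ * (g * c * g⁻¹)⁻¹ =
      a * (c⁻¹ * g * c * g⁻¹) * a⁻¹ * (c⁻¹ * g * c * g⁻¹)⁻¹ := by
  have hca : Commute c a := hac.symm
  have hcn' : Commute c (c⁻¹ * g * c * g⁻¹) := hcn
  have hck : Commute c (a * (c⁻¹ * g * c * g⁻¹) * a⁻¹ * (c⁻¹ * g * c * g⁻¹)⁻¹) :=
    ((hca.mul_right hcn').mul_right hca.inv_right).mul_right hcn'.inv_right
  calc a * (g * c * g⁻¹) * a⁻¹ * (g * c * g⁻¹)⁻¹
      = (a * c) * (c⁻¹ * g * c * g⁻¹) * a⁻¹ * (c⁻¹ * g * c * g⁻¹)⁻¹ * c⁻¹ := by group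
    _ = (c * a) * (c⁻¹ * g * c * g⁻¹) * a⁻¹ * (c⁻¹ * g * c * g⁻¹)⁻¹ * c⁻¹ := by rw [hac]
    _ = c * (a * (c⁻¹ * g * c * g⁻¹) * a⁻¹ * (c⁻¹ * g * c * g⁻¹)⁻¹) * c⁻¹ := by group
    _ = a * (c⁻¹ * g * c * g⁻¹) * a⁻¹ * (c⁻¹ * g * c * g⁻¹)⁻¹ := by
        rw [hck.eq, mul_inv_cancel_right]

theorem commutator_conjBy_eq {S : Set (Subgroup G)} {A B C : Subgroup G}
    (hN : RootCommutatorCase S C B) (hcomm : ⁅A, C⁆ = ⊥) {g : G} (hg : g ∈ B) (hg1 : g ≠ 1) :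
    ⁅A, conjBy C g⁆ = ⁅A, ⁅C, B⁆⁆ := by
  have hid : ∀ a ∈ A, ∀ c ∈ C, a * (g * c * g⁻¹) * a⁻¹ * (g * c * g⁻¹)⁻¹ =
      a * (c⁻¹ * g * c * g⁻¹) * a⁻¹ * (c⁻¹ * g * c * g⁻¹)⁻¹ := by
    intro a ha c hc
    apply commutator_conj_eq (comm_of_commutator_eq_bot hcomm ha hc)
    exact (hN.2.1 _ (commElt_mem' hc hg) c (Subgroup.mem_sup_left hc)).symm
  apply le_antisymm
  · rw [Subgroup.commutator_le]
    rintro a ha _ ⟨c, hc, rfl⟩
    show a * (g * c * g⁻¹) * a⁻¹ * (g * c * g⁻¹)⁻¹ ∈ ⁅A, ⁅C, B⁆⁆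
    rw [hid a ha c hc]
    exact Subgroup.commutator_mem_commutator ha (commElt_mem' hc hg)
  · rw [Subgroup.commutator_le]
    intro a ha n hn
    obtain ⟨c, hc, rfl⟩ := exists_commElt_eq'' hN hg hg1 hn
    show a * (c⁻¹ * g * c * g⁻¹) * a⁻¹ * (c⁻¹ * g * c * g⁻¹)⁻¹ ∈ ⁅A, conjBy C g⁆
    rw [← hid a ha c hc]
    exact Subgroup.commutator_mem_commutator ha (conj_mem_conjBy hc)


theorem conjBy_commutator (U V : Subgroup G) (g : G) :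
    conjBy ⁅U, V⁆ g = ⁅conjBy U g, conjBy V g⁆ :=
  Subgroup.map_commutator _ _ _

theorem conjBy_sup (U V : Subgroup G) (g : G) : conjBy (U ⊔ V) g = conjBy U g ⊔ conjBy V g :=
  Subgroup.map_sup _ _ _

theorem conjBy_bot (g : G) : conjBy (⊥ : Subgroup G) g = ⊥ :=
  Subgroup.map_bot _

theorem conjBy_eq_bot_iff {K : Subgroup G} {g : G} : conjBy K g = ⊥ ↔ K = ⊥ :=
  Subgroup.map_eq_bot_iff_of_injective _ (MulAut.conj g).injective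

/-- nilpotency from an explicit chain of length five -/
theorem isNilpotent_of_chain4 {R H₁ H₂ H₃ H₄ : Subgroup G}
    (h0 : ∀ x ∈ R, ∀ g ∈ R, x * g * x⁻¹ * g⁻¹ ∈ H₁)
    (h1 : ∀ x ∈ H₁, ∀ g ∈ R, x * g * x⁻¹ * g⁻¹ ∈ H₂)
    (h2 : ∀ x ∈ H₂, ∀ g ∈ R, x * g * x⁻¹ * g⁻¹ ∈ H₃)
    (h3 : ∀ x ∈ H₃, ∀ g ∈ R, x * g * x⁻¹ * g⁻¹ ∈ H₄)
    (h4 : ∀ x ∈ H₄, ∀ g ∈ R, x * g * x⁻¹ * g⁻¹ = 1) : Group.IsNilpotent ↥R := by
  refine isNilpotent_of_series (R := R)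
    (fun i => match i with
      | 0 => R
      | 1 => H₁
      | 2 => H₂
      | 3 => H₃
      | 4 => H₄
      | _ => ⊥) 5 le_rfl rfl ?_
  intro i
  match i with
  | 0 => exact h0
  | 1 => exact h1
  | 2 => exact h2
  | 3 => exact h3
  | 4 =>
    intro x hx g hg
    show x * g * x⁻¹ * g⁻¹ ∈ (⊥ : Subgroup G)
    rw [Subgroup.mem_bot]
    exact h4 x hx g hg
  | (n + 5) =>
    intro x hx g hg
    have hx' : x ∈ (⊥ : Subgroup G) := hx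
    rw [Subgroup.mem_bot] at hx'
    show x * g * x⁻¹ * g⁻¹ ∈ (⊥ : Subgroup G)
    rw [Subgroup.mem_bot, hx']
    simp

end Cfsg.Agent.Helper26
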