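import Mathlib
import Cfsg.Agent.Helper26.RootNil

set_option autoImplicit false

namespace Cfsg.Agent.Helper26

open Cfsg
open scoped commutatorElement

variable {G : Type*} [Group G]

set_option maxHeartbeats 1000000 in
/-- Timmesfeld II (2.6)-type statement on `⟨A, B, C⟩` with `⁅A, B⁆, ⁅B, C⁆ ∈ S`, `⁅A, C⁆ = 1` -/
theorem triple_structure {S : Set (Subgroup G)} (hS : IsRootSubgroupSet S)
    {A B C : Subgroup G} (hA : A ∈ S) (hB : B ∈ S) (hC : C ∈ S) (hAB : ⁅A, B⁆ ∈ S)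
    (hBC : ⁅B, C⁆ ∈ S) (hAC : C ∈ commutingPartners S A) {b : G} (hb : b ∈ B) (hb1 : b ≠ 1) :
    ((IsMulCommutative ↥(A ⊔ conjBy C b⁻¹) ∧ IsMulCommutative ↥(conjBy A b⁻¹ ⊔ C)) ∨
      ((¬ IsMulCommutative ↥(A ⊔ conjBy C b⁻¹) ∧
          ⁅⁅A ⊔ conjBy C b⁻¹, A ⊔ conjBy C b⁻¹⁆, A ⊔ conjBy C b⁻¹⁆ = ⊥) ∧
        (¬ IsMulCommutative ↥(conjBy A b⁻¹ ⊔ C) ∧
          ⁅⁅conjBy A b⁻¹ ⊔ C, conjBy A b⁻¹ ⊔ C⁆, conjBy A b⁻¹ ⊔ C⁆ = ⊥))) ∧
    ⁅A ⊔ conjBy C b⁻¹, conjBy A b⁻¹ ⊔ C⁆ = ⊥ ∧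
    (∀ r ∈ A ⊔ B ⊔ C, conjBy ((A ⊔ conjBy C b⁻¹) ⊔ (conjBy A b⁻¹ ⊔ C)) r =
      (A ⊔ conjBy C b⁻¹) ⊔ (conjBy A b⁻¹ ⊔ C)) ∧
    ((A ⊔ conjBy C b⁻¹) ⊔ (conjBy A b⁻¹ ⊔ C)) ⊔ B = A ⊔ B ⊔ C ∧
    Group.IsNilpotent ↥(A ⊔ B ⊔ C) := by
  have hM := rootCommutatorCase_of_mem hS hA hB hAB
  have hN := rootCommutatorCase_symm (rootCommutatorCase_of_mem hS hB hC hBC)
  have hcomm : ⁅A, C⁆ = ⊥ := hAC.2.2
  have hcomm' : ⁅C, A⁆ = ⊥ := by rw [Subgroup.commutator_comm]; exact hcomm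
  have hAc := hS.commutative A hA
  have hBc := hS.commutative B hB
  have hCc := hS.commutative C hC
  have hbi : b⁻¹ ∈ B := B.inv_mem hb
  have hbi1 : b⁻¹ ≠ 1 := by simpa using hb1
  have hCb : conjBy C b⁻¹ ∈ S := hS.conj_mem C hC b⁻¹
  have hAb : conjBy A b⁻¹ ∈ S := hS.conj_mem A hA b⁻¹
  have hCbc := hS.commutative _ hCb
  have hAbc := hS.commutative _ hAb
  have hP : ∀ g ∈ B, g ≠ 1 → ⁅A, conjBy C g⁆ = ⁅A, ⁅C, B⁆⁆ :=
    fun g hg hg1 => commutator_conjBy_eq hN hcomm hg hg1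
  have hQ : ∀ g ∈ B, g ≠ 1 → ⁅C, conjBy A g⁆ = ⁅C, ⁅A, B⁆⁆ :=
    fun g hg hg1 => commutator_conjBy_eq hM hcomm' hg hg1
  have hPQ : ∀ g ∈ B, g ≠ 1 → conjBy ⁅A, ⁅C, B⁆⁆ g = ⁅C, ⁅A, B⁆⁆ := by
    intro g hg hg1
    rw [← hP g⁻¹ (B.inv_mem hg) (by simpa using hg1), ← hQ g hg hg1, conjBy_commutator,
      conjBy_conjBy, mul_inv_cancel, conjBy_one, Subgroup.commutator_comm]
  have hQP : ∀ g ∈ B, g ≠ 1 → conjBy ⁅C, ⁅A, B⁆⁆ g = ⁅A, ⁅C, B⁆⁆ := by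
    intro g hg hg1
    rw [← hQ g⁻¹ (B.inv_mem hg) (by simpa using hg1), ← hP g hg hg1, conjBy_commutator,
      conjBy_conjBy, mul_inv_cancel, conjBy_one, Subgroup.commutator_comm]
  have hYY' : conjBy A b⁻¹ ⊔ C = C ⊔ conjBy A b⁻¹ := sup_comm _ _
  -- `X` and `Y` commute
  have hXY : ∀ x ∈ A ⊔ conjBy C b⁻¹, ∀ y ∈ conjBy A b⁻¹ ⊔ C, x * y = y * x := by
    apply commute_sup_sup
    · rintro a ha _ ⟨a', ha', rfl⟩
      exact commute_conj_of_commCase hM hAc hbi ha ha'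
    · intro a ha c hc
      exact comm_of_commutator_eq_bot hcomm ha hc
    · rintro _ ⟨c, hc, rfl⟩ _ ⟨a, ha, rfl⟩
      show b⁻¹ * c * b⁻¹⁻¹ * (b⁻¹ * a * b⁻¹⁻¹) = b⁻¹ * a * b⁻¹⁻¹ * (b⁻¹ * c * b⁻¹⁻¹)
      have hac := comm_of_commutator_eq_bot hcomm ha hc
      calc b⁻¹ * c * b⁻¹⁻¹ * (b⁻¹ * a * b⁻¹⁻¹) = b⁻¹ * (c * a) * b⁻¹⁻¹ := by group
        _ = b⁻¹ * (a * c) * b⁻¹⁻¹ := by rw [hac]
        _ = b⁻¹ * a * b⁻¹⁻¹ * (b⁻¹ * c * b⁻¹⁻¹) := by group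
    · rintro _ ⟨c, hc, rfl⟩ c' hc'
      exact (commute_conj_of_commCase hN hCc hbi hc' hc).symm
  have hXYbot : ⁅A ⊔ conjBy C b⁻¹, conjBy A b⁻¹ ⊔ C⁆ = ⊥ := by
    rw [Subgroup.commutator_eq_bot_iff_le_centralizer]
    intro x hx
    rw [Subgroup.mem_centralizer_iff]
    intro y hy
    exact (hXY x hx y hy).symm
  have hX : ⁅A, conjBy C b⁻¹⁆ = ⊥ ∨ RootCommutatorCase S A (conjBy C b⁻¹) := by
    rcases hS.pair A hA _ hCb with h | h | h
    · exact Or.inl h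
    · exact absurd h (not_rankOne_conj hS hA hC hM hcomm hbi hbi1)
    · exact Or.inr h
  have hY : ⁅C, conjBy A b⁻¹⁆ = ⊥ ∨ RootCommutatorCase S C (conjBy A b⁻¹) := by
    rcases hS.pair C hC _ hAb with h | h | h
    · exact Or.inl h
    · exact absurd h (not_rankOne_conj hS hC hA hN hcomm' hbi hbi1)
    · exact Or.inr h
  have hPcen : ∀ k ∈ ⁅A, conjBy C b⁻¹⁆, ∀ x ∈ A ⊔ conjBy C b⁻¹, k * x = x * k := by
    rcases hX with h | h
    · intro k hk x _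
      rw [h, Subgroup.mem_bot] at hk
      rw [hk]; simp
    · exact h.2.1
  have hQcen : ∀ k ∈ ⁅C, conjBy A b⁻¹⁆, ∀ x ∈ C ⊔ conjBy A b⁻¹, k * x = x * k := by
    rcases hY with h | h
    · intro k hk x _
      rw [h, Subgroup.mem_bot] at hk
      rw [hk]; simp
    · exact h.2.1
  -- part 1
  have part1 : (IsMulCommutative ↥(A ⊔ conjBy C b⁻¹) ∧ IsMulCommutative ↥(conjBy A b⁻¹ ⊔ C)) ∨
      ((¬ IsMulCommutative ↥(A ⊔ conjBy C b⁻¹) ∧
          ⁅⁅A ⊔ conjBy C b⁻¹, A ⊔ conjBy C b⁻¹⁆, A ⊔ conjBy C b⁻¹⁆ = ⊥) ∧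
        (¬ IsMulCommutative ↥(conjBy A b⁻¹ ⊔ C) ∧
          ⁅⁅conjBy A b⁻¹ ⊔ C, conjBy A b⁻¹ ⊔ C⁆, conjBy A b⁻¹ ⊔ C⁆ = ⊥)) := by
    have hiff : ⁅A, conjBy C b⁻¹⁆ = ⊥ ↔ ⁅C, conjBy A b⁻¹⁆ = ⊥ := by
      rw [hP b⁻¹ hbi hbi1, hQ b⁻¹ hbi hbi1]
      constructor
      · intro h; rw [← hPQ b hb hb1, h]; exact conjBy_bot b
      · intro h; rw [← hQP b hb hb1, h]; exact conjBy_bot b
    have hY2 : ⁅⁅conjBy A b⁻¹ ⊔ C, conjBy A b⁻¹ ⊔ C⁆, conjBy A b⁻¹ ⊔ C⁆ = ⊥ := by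
      rw [hYY']
      exact class_two_of_central hCc hAbc hQcen
    have hX2 := class_two_of_central hAc hCbc hPcen
    by_cases h0 : ⁅A, conjBy C b⁻¹⁆ = ⊥
    · left
      refine ⟨isMulCommutative_sup hAc hCbc h0, ?_⟩
      have h0' := hiff.mp h0
      rw [hYY']
      exact isMulCommutative_sup hCc hAbc h0'
    · right
      refine ⟨⟨fun hc => h0 (commutator_eq_bot_of_isMulCommutative_sup hc), hX2⟩,
        ⟨fun hc => ?_, hY2⟩⟩
      apply h0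
      apply hiff.mpr
      rw [hYY'] at hc
      exact commutator_eq_bot_of_isMulCommutative_sup hc
  -- the subgroup `W = X ⊔ Y`
  have hW : (A ⊔ conjBy C b⁻¹) ⊔ (conjBy A b⁻¹ ⊔ C) = (A ⊔ ⁅A, B⁆) ⊔ (C ⊔ ⁅C, B⁆) := by
    rw [← sup_conjBy_eq hM hbi hbi1, ← sup_conjBy_eq hN hbi hbi1, sup_sup_sup_comm,
      sup_comm (conjBy C b⁻¹) C]
  have hMg : ∀ g ∈ B, conjBy ⁅A, B⁆ g = ⁅A, B⁆ := fun g hg =>
    conjBy_eq_of_forall_comm (fun m hm => hM.2.1 m hm g (Subgroup.mem_sup_right hg))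
  have hNg : ∀ g ∈ B, conjBy ⁅C, B⁆ g = ⁅C, B⁆ := fun g hg =>
    conjBy_eq_of_forall_comm (fun m hm => hN.2.1 m hm g (Subgroup.mem_sup_right hg))
  have hWB : ∀ g ∈ B, conjBy ((A ⊔ ⁅A, B⁆) ⊔ (C ⊔ ⁅C, B⁆)) g ≤ (A ⊔ ⁅A, B⁆) ⊔ (C ⊔ ⁅C, B⁆) := by
    intro g hg
    rw [conjBy_sup, conjBy_sup, conjBy_sup, hMg g hg, hNg g hg]
    apply sup_le
    · apply sup_le
      · exact (conjBy_le_sup_commutator hg).trans le_sup_left
      · exact le_sup_right.trans le_sup_left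
    · apply sup_le
      · exact (conjBy_le_sup_commutator hg).trans le_sup_right
      · exact le_sup_right.trans le_sup_right
  have hWn : ∀ r ∈ A ⊔ B ⊔ C, conjBy ((A ⊔ ⁅A, B⁆) ⊔ (C ⊔ ⁅C, B⁆)) r =
      (A ⊔ ⁅A, B⁆) ⊔ (C ⊔ ⁅C, B⁆) := by
    have hBeq : ∀ g ∈ B, conjBy ((A ⊔ ⁅A, B⁆) ⊔ (C ⊔ ⁅C, B⁆)) g =
        (A ⊔ ⁅A, B⁆) ⊔ (C ⊔ ⁅C, B⁆) := by
      intro g hg
      apply le_antisymm (hWB g hg)
      have h1 := conjBy_mono (hWB g⁻¹ (B.inv_mem hg)) g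
      rw [conjBy_conjBy, mul_inv_cancel, conjBy_one] at h1
      exact h1
    intro r hr
    refine sup_induction' (C := fun r => conjBy ((A ⊔ ⁅A, B⁆) ⊔ (C ⊔ ⁅C, B⁆)) r =
      (A ⊔ ⁅A, B⁆) ⊔ (C ⊔ ⁅C, B⁆)) hr ?_ ?_ ?_ ?_
    · intro x hx
      refine sup_induction' (C := fun r => conjBy ((A ⊔ ⁅A, B⁆) ⊔ (C ⊔ ⁅C, B⁆)) r =
        (A ⊔ ⁅A, B⁆) ⊔ (C ⊔ ⁅C, B⁆)) hx ?_ ?_ ?_ ?_
      · intro a ha
        exact conjBy_of_mem (Subgroup.mem_sup_left (Subgroup.mem_sup_left ha))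
      · exact hBeq
      · exact conjBy_one _
      · intro x y hx hy
        rw [← conjBy_conjBy, hy, hx]
    · intro c hc
      exact conjBy_of_mem (Subgroup.mem_sup_right (Subgroup.mem_sup_left hc))
    · exact conjBy_one _
    · intro x y hx hy
      rw [← conjBy_conjBy, hy, hx]
  have hRW : ((A ⊔ ⁅A, B⁆) ⊔ (C ⊔ ⁅C, B⁆)) ⊔ B = A ⊔ B ⊔ C := by
    apply le_antisymm
    · apply sup_le
      · apply sup_le
        · apply sup_le
          · exact le_sup_left.trans le_sup_left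
          · exact (commutator_le_sup A B).trans le_sup_left
        · apply sup_le
          · exact le_sup_right
          · exact (commutator_le_sup C B).trans
              (sup_le le_sup_right (le_sup_right.trans le_sup_left))
      · exact le_sup_right.trans le_sup_left
    · apply sup_le
      · apply sup_le
        · exact le_sup_left.trans (le_sup_left.trans le_sup_left)
        · exact le_sup_right
      · exact le_sup_left.trans (le_sup_right.trans le_sup_left)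
  refine ⟨part1, hXYbot, ?_, ?_, ?_⟩
  · rw [hW]; exact hWn
  · rw [hW]; exact hRW
  · -- nilpotency
    have hYW' := hW
    rw [hYY'] at hYW'
    have hXY' := hXY
    rw [hYY'] at hXY'
    obtain ⟨W, hWdef⟩ : ∃ W : Subgroup G, W = (A ⊔ ⁅A, B⁆) ⊔ (C ⊔ ⁅C, B⁆) := ⟨_, rfl⟩
    obtain ⟨P, hPdef⟩ : ∃ P : Subgroup G, P = ⁅A, ⁅C, B⁆⁆ := ⟨_, rfl⟩
    obtain ⟨Q, hQdef⟩ : ∃ Q : Subgroup G, Q = ⁅C, ⁅A, B⁆⁆ := ⟨_, rfl⟩
    have hPX : ⁅A, conjBy C b⁻¹⁆ = P := by rw [hPdef]; exact hP b⁻¹ hbi hbi1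
    have hQY : ⁅C, conjBy A b⁻¹⁆ = Q := by rw [hQdef]; exact hQ b⁻¹ hbi hbi1
    have hPcen' := hPcen
    have hQcen' := hQcen
    rw [hPX] at hPcen'
    rw [hQY] at hQcen'
    rw [← hWdef] at hWn hRW hYW'
    rw [← hPdef, ← hQdef] at hPQ hQP
    have hAW : A ≤ W := by rw [hWdef]; exact le_sup_left.trans le_sup_left
    have hMW : ⁅A, B⁆ ≤ W := by rw [hWdef]; exact le_sup_right.trans le_sup_left
    have hCW : C ≤ W := by rw [hWdef]; exact le_sup_left.trans le_sup_right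
    have hNW : ⁅C, B⁆ ≤ W := by rw [hWdef]; exact le_sup_right.trans le_sup_right
    have hXW : A ⊔ conjBy C b⁻¹ ≤ W := by rw [← hYW']; exact le_sup_left
    have hYW : C ⊔ conjBy A b⁻¹ ≤ W := by rw [← hYW']; exact le_sup_right
    have hPle : P ≤ A ⊔ conjBy C b⁻¹ := by rw [← hPX]; exact commutator_le_sup _ _
    have hQle : Q ≤ C ⊔ conjBy A b⁻¹ := by rw [← hQY]; exact commutator_le_sup _ _
    have hPQW : P ⊔ Q ≤ W := sup_le (hPle.trans hXW) (hQle.trans hYW)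
    have hPQcen : ∀ k ∈ P ⊔ Q, ∀ w ∈ W, k * w = w * k := by
      rw [← hYW']
      apply commute_sup_sup
      · exact hPcen'
      · intro p hp y hy; exact hXY' p (hPle hp) y hy
      · intro q hq x hx; exact (hXY' x hx q (hQle hq)).symm
      · exact hQcen'
    have hWW : ∀ x ∈ W, ∀ g ∈ W, x * g * x⁻¹ * g⁻¹ ∈ P ⊔ Q := by
      rw [← hYW']
      apply commutator_mem_of_sup_sup
      · intro x hx k hk
        rw [hYW'] at hx
        rw [← hPQcen k hk x hx, mul_inv_cancel_right]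
        exact hk
      · intro x hx g hg
        have h1 := commutator_mem_of_central hAc hCbc hPcen x hx g hg
        rw [hPX] at h1
        exact Subgroup.mem_sup_left h1
      · intro x hx g hg
        rw [hXY' x hx g hg]; simp
      · intro x hx g hg
        rw [← hXY' g hg x hx]; simp
      · intro x hx g hg
        have h1 := commutator_mem_of_central hCc hAbc hQcen x hx g hg
        rw [hQY] at h1
        exact Subgroup.mem_sup_right h1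
    have hPg : ∀ g ∈ B, g ≠ 1 → conjBy P g = Q := hPQ
    have hQg : ∀ g ∈ B, g ≠ 1 → conjBy Q g = P := hQP
    have hPQB : ∀ g ∈ B, conjBy (P ⊔ Q) g = P ⊔ Q := by
      intro g hg
      by_cases hg1 : g = 1
      · rw [hg1, conjBy_one]
      · rw [conjBy_sup, hPg g hg hg1, hQg g hg hg1, sup_comm]
    have hPgle : ∀ g ∈ B, conjBy P g ≤ P ⊔ Q := by
      intro g hg
      by_cases hg1 : g = 1
      · rw [hg1, conjBy_one]; exact le_sup_left
      · rw [hPg g hg hg1]; exact le_sup_right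
    have hPS : P = ⊥ ∨ P ∈ S := by
      rcases hX with h | h
      · left; rw [← hPX]; exact h
      · right; rw [← hPX]; exact h.1
    have hPQbot : ⁅P, Q⁆ = ⊥ := by
      rw [Subgroup.commutator_eq_bot_iff_le_centralizer]
      intro p hp
      rw [Subgroup.mem_centralizer_iff]
      intro q hq
      exact (hXY' p (hPle hp) q (hQle hq)).symm
    have hH₄B : ∀ k ∈ ⁅P, B⁆, ∀ g ∈ B, k * g = g * k := by
      rcases hPS with h0 | hPmem
      · intro k hk g _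
        rw [h0, Subgroup.commutator_bot_left, Subgroup.mem_bot] at hk
        rw [hk]; simp
      · rcases hS.pair P hPmem B hB with h | h | h
        · intro k hk g _
          rw [h, Subgroup.mem_bot] at hk
          rw [hk]; simp
        · exfalso
          obtain ⟨p, hp, -, hc⟩ := h.cond_right b⁻¹ hbi hbi1
          rw [inv_inv, hPg b hb hb1] at hc
          apply rankOne_commutator_ne_bot h
          rw [← conjBy_eq_bot_iff (g := p⁻¹), conjBy_commutator, conjBy_of_mem (P.inv_mem hp), hc]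
          exact hPQbot
        · intro k hk g hg
          exact h.2.1 k hk g (Subgroup.mem_sup_right hg)
    have hH₄le : ⁅P, B⁆ ≤ P ⊔ Q := by
      rw [Subgroup.commutator_le]
      intro p hp g hg
      have e : ⁅p, g⁆ = p * (g * p⁻¹ * g⁻¹) := by rw [commutatorElement_def]; group
      rw [e]
      exact Subgroup.mul_mem _ (Subgroup.mem_sup_left hp)
        (hPgle g hg (conj_mem_conjBy (P.inv_mem hp)))
    have hH₄cen : ∀ k ∈ ⁅P, B⁆, ∀ r ∈ W ⊔ B, k * r = r * k := by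
      intro k hk r hr
      have hz : k ∈ Subgroup.centralizer ((W ⊔ B : Subgroup G) : Set G) :=
        mem_centralizer_sup (fun w hw => (hPQcen k (hH₄le hk) w hw).symm)
          (fun g hg => (hH₄B k hk g hg).symm)
      exact (Subgroup.mem_centralizer_iff.mp hz r hr).symm
    have hWn' : ∀ r ∈ W ⊔ B, ∀ w ∈ W, r * w * r⁻¹ ∈ W := by
      intro r hr w hw
      rw [hRW] at hr
      have h1 : r * w * r⁻¹ ∈ conjBy W r := conj_mem_conjBy hw
      rw [hWn r hr] at h1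
      exact h1
    have hH₃n : ∀ r ∈ W ⊔ B, ∀ k ∈ P ⊔ Q, r * k * r⁻¹ ∈ P ⊔ Q := by
      intro r hr
      refine sup_induction' (C := fun r => ∀ k ∈ P ⊔ Q, r * k * r⁻¹ ∈ P ⊔ Q) hr ?_ ?_ ?_ ?_
      · intro w hw k hk
        rw [← hPQcen k hk w hw, mul_inv_cancel_right]
        exact hk
      · intro g hg k hk
        have h1 : g * k * g⁻¹ ∈ conjBy (P ⊔ Q) g := conj_mem_conjBy hk
        rw [hPQB g hg] at h1
        exact h1
      · intro k hk; simpa using hk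
      · intro x y hx hy k hk
        have e : x * y * k * (x * y)⁻¹ = x * (y * k * y⁻¹) * x⁻¹ := by group
        rw [e]; exact hx _ (hy k hk)
    have hH₂W : (⁅A, B⁆ ⊔ ⁅C, B⁆) ⊔ (P ⊔ Q) ≤ W := sup_le (sup_le hMW hNW) hPQW
    have hH₂n : ∀ r ∈ W ⊔ B, ∀ h ∈ (⁅A, B⁆ ⊔ ⁅C, B⁆) ⊔ (P ⊔ Q),
        r * h * r⁻¹ ∈ (⁅A, B⁆ ⊔ ⁅C, B⁆) ⊔ (P ⊔ Q) := by
      intro r hr
      refine sup_induction' (C := fun r => ∀ h ∈ (⁅A, B⁆ ⊔ ⁅C, B⁆) ⊔ (P ⊔ Q),
        r * h * r⁻¹ ∈ (⁅A, B⁆ ⊔ ⁅C, B⁆) ⊔ (P ⊔ Q)) hr ?_ ?_ ?_ ?_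
      · intro w hw h hh
        have e : w * h * w⁻¹ = (w * h * w⁻¹ * h⁻¹) * h := by group
        rw [e]
        exact Subgroup.mul_mem _ (Subgroup.mem_sup_right (hWW w hw h (hH₂W hh))) hh
      · intro g hg h hh
        have h1 : g * h * g⁻¹ ∈ conjBy ((⁅A, B⁆ ⊔ ⁅C, B⁆) ⊔ (P ⊔ Q)) g := conj_mem_conjBy hh
        rw [conjBy_sup, conjBy_sup, hMg g hg, hNg g hg, hPQB g hg] at h1
        exact h1
      · intro k hk; simpa using hk
      · intro x y hx hy k hk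
        have e : x * y * k * (x * y)⁻¹ = x * (y * k * y⁻¹) * x⁻¹ := by group
        rw [e]; exact hx _ (hy k hk)
    have hS0 : ∀ x ∈ W ⊔ B, ∀ g ∈ W ⊔ B, x * g * x⁻¹ * g⁻¹ ∈ W := by
      apply commutator_mem_of_sup_sup hWn'
      · intro x hx g hg
        exact W.mul_mem (W.mul_mem (W.mul_mem hx hg) (W.inv_mem hx)) (W.inv_mem hg)
      · intro x hx g hg
        have e : x * g * x⁻¹ * g⁻¹ = x * (g * x⁻¹ * g⁻¹) := by group
        rw [e]
        exact W.mul_mem hx (hWn' g (Subgroup.mem_sup_right hg) _ (W.inv_mem hx))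
      · intro x hx g hg
        exact W.mul_mem (hWn' x (Subgroup.mem_sup_right hx) g hg) (W.inv_mem hg)
      · intro x hx g hg
        rw [comm_of_isMulCommutative hBc hx hg]; simp
    have hS1 : ∀ x ∈ W, ∀ g ∈ W ⊔ B,
        x * g * x⁻¹ * g⁻¹ ∈ (⁅A, B⁆ ⊔ ⁅C, B⁆) ⊔ (P ⊔ Q) := by
      apply commutator_mem_of_sup_right hH₂n
      · intro x hx g hg
        exact Subgroup.mem_sup_right (hWW x hx g hg)
      · have hnW : ∀ x ∈ (A ⊔ ⁅A, B⁆) ⊔ (C ⊔ ⁅C, B⁆), ∀ k ∈ (⁅A, B⁆ ⊔ ⁅C, B⁆) ⊔ (P ⊔ Q),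
            x * k * x⁻¹ ∈ (⁅A, B⁆ ⊔ ⁅C, B⁆) ⊔ (P ⊔ Q) := by
          intro x hx
          rw [← hWdef] at hx
          exact hH₂n x (Subgroup.mem_sup_left hx)
        rw [hWdef]
        apply commutator_mem_of_sup_left hnW
        · apply commutator_mem_of_sup_left (fun x hx => hnW x (Subgroup.mem_sup_left hx))
          · intro a ha g hg
            exact Subgroup.mem_sup_left (Subgroup.mem_sup_left
              (Subgroup.commutator_mem_commutator ha hg))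
          · intro m hm g hg
            rw [hM.2.1 m hm g (Subgroup.mem_sup_right hg)]; simp
        · apply commutator_mem_of_sup_left (fun x hx => hnW x (Subgroup.mem_sup_right hx))
          · intro c hc g hg
            exact Subgroup.mem_sup_left (Subgroup.mem_sup_right
              (Subgroup.commutator_mem_commutator hc hg))
          · intro n hn g hg
            rw [hN.2.1 n hn g (Subgroup.mem_sup_right hg)]; simp
    have hS2 : ∀ x ∈ (⁅A, B⁆ ⊔ ⁅C, B⁆) ⊔ (P ⊔ Q), ∀ g ∈ W ⊔ B,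
        x * g * x⁻¹ * g⁻¹ ∈ P ⊔ Q := by
      apply commutator_mem_of_sup_right hH₃n
      · intro x hx g hg
        exact hWW x (hH₂W hx) g hg
      · have hn2 : ∀ x ∈ (⁅A, B⁆ ⊔ ⁅C, B⁆) ⊔ (P ⊔ Q), ∀ k ∈ P ⊔ Q, x * k * x⁻¹ ∈ P ⊔ Q :=
          fun x hx => hH₃n x (Subgroup.mem_sup_left (hH₂W hx))
        apply commutator_mem_of_sup_left hn2
        · apply commutator_mem_of_sup_left (fun x hx => hn2 x (Subgroup.mem_sup_left hx))
          · intro m hm g hg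
            rw [hM.2.1 m hm g (Subgroup.mem_sup_right hg)]; simp
          · intro n hn g hg
            rw [hN.2.1 n hn g (Subgroup.mem_sup_right hg)]; simp
        · intro x hx g hg
          have e : x * g * x⁻¹ * g⁻¹ = x * (g * x⁻¹ * g⁻¹) := by group
          rw [e]
          have h1 : g * x⁻¹ * g⁻¹ ∈ conjBy (P ⊔ Q) g := conj_mem_conjBy (Subgroup.inv_mem _ hx)
          rw [hPQB g hg] at h1
          exact Subgroup.mul_mem _ hx h1
    have hH₄n : ∀ r ∈ W ⊔ B, ∀ k ∈ ⁅P, B⁆, r * k * r⁻¹ ∈ ⁅P, B⁆ := by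
      intro r hr k hk
      rw [← hH₄cen k hk r hr, mul_inv_cancel_right]
      exact hk
    have hS3 : ∀ x ∈ P ⊔ Q, ∀ g ∈ W ⊔ B, x * g * x⁻¹ * g⁻¹ ∈ ⁅P, B⁆ := by
      apply commutator_mem_of_sup_right hH₄n
      · intro x hx g hg
        rw [hPQcen x hx g hg]; simp
      · apply commutator_mem_of_sup_left (fun x hx => hH₄n x (Subgroup.mem_sup_left (hPQW hx)))
        · intro p hp g hg
          exact Subgroup.commutator_mem_commutator hp hg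
        · intro q hq g hg
          rw [← hPg b hb hb1] at hq
          obtain ⟨p, hp, rfl⟩ := hq
          show (b * p * b⁻¹) * g * (b * p * b⁻¹)⁻¹ * g⁻¹ ∈ ⁅P, B⁆
          have hbg : b * g = g * b := comm_of_isMulCommutative hBc hb hg
          have e : (b * p * b⁻¹) * g * (b * p * b⁻¹)⁻¹ * g⁻¹ =
              b * (p * g * p⁻¹ * g⁻¹) * b⁻¹ := by
            calc (b * p * b⁻¹) * g * (b * p * b⁻¹)⁻¹ * g⁻¹
                = b * p * (b⁻¹ * (g * b)) * p⁻¹ * b⁻¹ * g⁻¹ := by group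
              _ = b * p * (b⁻¹ * (b * g)) * p⁻¹ * b⁻¹ * g⁻¹ := by rw [hbg]
              _ = b * p * g * p⁻¹ * (g * b)⁻¹ := by group
              _ = b * p * g * p⁻¹ * (b * g)⁻¹ := by rw [hbg]
              _ = b * (p * g * p⁻¹ * g⁻¹) * b⁻¹ := by group
          have hk : p * g * p⁻¹ * g⁻¹ ∈ ⁅P, B⁆ := Subgroup.commutator_mem_commutator hp hg
          rw [e, ← hH₄B _ hk b hb, mul_inv_cancel_right]
          exact hk
    have hS4 : ∀ x ∈ ⁅P, B⁆, ∀ g ∈ W ⊔ B, x * g * x⁻¹ * g⁻¹ = 1 := by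
      intro x hx g hg
      rw [hH₄cen x hx g hg]; simp
    rw [← hRW]
    exact isNilpotent_of_chain4 hS0 hS1 hS2 hS3 hS4

end Cfsg.Agent.Helper26
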