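import Mathlib
import Cfsg.Agent.Helper26.RootTriple

set_option autoImplicit false

namespace Cfsg.Agent.Helper26

open Cfsg
open scoped commutatorElement

variable {G : Type*} [Group G]

theorem mem_sup_of_comm {A B : Subgroup G} (h : ∀ a ∈ A, ∀ b ∈ B, a * b = b * a) {x : G}
    (hx : x ∈ A ⊔ B) : ∃ a ∈ A, ∃ b ∈ B, x = a * b := by
  refine sup_induction' (C := fun x => ∃ a ∈ A, ∃ b ∈ B, x = a * b) hx ?_ ?_ ?_ ?_
  · intro a ha; exact ⟨a, ha, 1, B.one_mem, by simp⟩
  · intro b hb; exact ⟨1, A.one_mem, b, hb, by simp⟩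
  · exact ⟨1, A.one_mem, 1, B.one_mem, by simp⟩
  · rintro _ _ ⟨a, ha, b, hb, rfl⟩ ⟨a', ha', b', hb', rfl⟩
    refine ⟨a * a', A.mul_mem ha ha', b * b', B.mul_mem hb hb', ?_⟩
    have h1 := h a' ha' b hb
    calc a * b * (a' * b') = a * (b * a') * b' := by group
      _ = a * (a' * b) * b' := by rw [h1]
      _ = a * a' * (b * b') := by group

theorem lowerCentralSeries_mono {H K : Subgroup G} (h : H ≤ K) (n : ℕ) :
    H.lowerCentralSeries n ≤ K.lowerCentralSeries n := by
  induction n with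
  | zero => exact h
  | succ n ih =>
    rw [Subgroup.lowerCentralSeries_succ, Subgroup.lowerCentralSeries_succ]
    exact Subgroup.commutator_mono ih h

theorem isNilpotent_of_le {H K : Subgroup G} (h : H ≤ K) (hK : Group.IsNilpotent ↥K) :
    Group.IsNilpotent ↥H := by
  rw [Subgroup.isNilpotent_iff_lowerCentralSeries] at hK ⊢
  obtain ⟨n, hn⟩ := hK
  refine ⟨n, ?_⟩
  rw [eq_bot_iff, ← hn]
  exact lowerCentralSeries_mono h n

/-- a rank one group with abelian unipotent subgroups is not nilpotent -/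
theorem not_isNilpotent_of_rankOne {A C : Subgroup G} (h : IsRankOnePair A C)
    (hA : IsMulCommutative A) : ¬ Group.IsNilpotent ↥(A ⊔ C) := by
  intro hnil
  rw [Subgroup.isNilpotent_iff_lowerCentralSeries] at hnil
  obtain ⟨m, hm⟩ := hnil
  obtain ⟨x, hx, hCx⟩ := exists_conj_eq h
  have key : ∀ n, C ≤ (A ⊔ C).lowerCentralSeries n ⊔ A := by
    intro n
    induction n with
    | zero =>
      rw [Subgroup.lowerCentralSeries_zero]
      exact le_sup_right.trans le_sup_left
    | succ n ih =>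
      have hX : A ⊔ C ≤ (A ⊔ C).lowerCentralSeries n ⊔ A := sup_le le_sup_right ih
      have hLle : (A ⊔ C).lowerCentralSeries n ≤ A ⊔ C := Subgroup.lowerCentralSeries_le_self _ n
      have hnorm : ∀ y ∈ A ⊔ C, ∀ k ∈ (A ⊔ C).lowerCentralSeries (n + 1),
          y * k * y⁻¹ ∈ (A ⊔ C).lowerCentralSeries (n + 1) := by
        intro y hy k hk
        have h1 := Subgroup.self_le_normalizer_lowerCentralSeries (A ⊔ C) (n + 1) hy
        exact (Subgroup.mem_normalizer_iff.mp h1 k).mp hk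
      have hcomm : ∀ y ∈ (A ⊔ C).lowerCentralSeries n ⊔ A,
          ∀ g ∈ (A ⊔ C).lowerCentralSeries n ⊔ A,
          y * g * y⁻¹ * g⁻¹ ∈ (A ⊔ C).lowerCentralSeries (n + 1) := by
        apply commutator_mem_of_sup_sup
        · intro y hy k hk
          exact hnorm y (sup_le hLle le_sup_left hy) k hk
        · intro y hy g hg
          exact Subgroup.commutator_mem_commutator hy (hLle hg)
        · intro y hy g hg
          exact Subgroup.commutator_mem_commutator hy (Subgroup.mem_sup_left hg)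
        · intro y hy g hg
          have h1 := Subgroup.inv_mem _ (Subgroup.commutator_mem_commutator
            (H₂ := A ⊔ C) hg (Subgroup.mem_sup_left hy))
          rw [commutatorElement_def] at h1
          have e : (g * y * g⁻¹ * y⁻¹)⁻¹ = y * g * y⁻¹ * g⁻¹ := by group
          rw [e] at h1
          exact h1
        · intro y hy g hg
          rw [comm_of_isMulCommutative hA hy hg]; simp
      intro c hc
      rw [hCx] at hc
      obtain ⟨a, ha, rfl⟩ := hc
      show x * a * x⁻¹ ∈ (A ⊔ C).lowerCentralSeries (n + 1) ⊔ A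
      have e : x * a * x⁻¹ = (x * a * x⁻¹ * a⁻¹) * a := by group
      rw [e]
      exact Subgroup.mul_mem _
        (Subgroup.mem_sup_left (hcomm x (hX hx) a (Subgroup.mem_sup_right ha)))
        (Subgroup.mem_sup_right ha)
  have hCA : C ≤ A := by
    have h1 := key m
    rw [hm, bot_sup_eq] at h1
    exact h1
  obtain ⟨c, hc, hc1⟩ := exists_ne_one_right h
  exact hc1 (eq_one_of_mem_of_normalizes h (hCA hc) (Subgroup.le_normalizer hc))


/-- the key contradiction behind Timmesfeld II (2.7): a line `A B` met by a member `E` of `S`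
such that a rank one partner `C` of `A` is in rank one position with neither `B` nor `E` -/
theorem line_key {S : Set (Subgroup G)} (hS : IsRootSubgroupSet S) {A B E C : Subgroup G}
    (hA : A ∈ S) (hB : B ∈ S) (hE : E ∈ S) (hcomm : ⁅A, B⁆ = ⊥) (hAB : A ⊓ B = ⊥)
    (hEle : E ≤ A ⊔ B) (hEA : E ⊓ A = ⊥) (hEB : E ⊓ B = ⊥)
    (hroot : ∀ x ∈ A ⊔ B, x ≠ 1 → x ∈ rootElements S) (hC : C ∈ S) (hAC : IsRankOnePair A C)
    (hCB : ¬ IsRankOnePair C B) (hCE : ¬ IsRankOnePair C E) : False := by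
  have hAc := hS.commutative A hA
  have hBc := hS.commutative B hB
  have hABel : ∀ a ∈ A, ∀ b ∈ B, a * b = b * a := fun a ha b hb =>
    comm_of_commutator_eq_bot hcomm ha hb
  have hABc : ∀ x ∈ A ⊔ B, ∀ y ∈ A ⊔ B, x * y = y * x :=
    commute_sup_sup (fun u hu v hv => comm_of_isMulCommutative hAc hu hv) hABel
      (fun u hu v hv => (hABel v hv u hu).symm) (fun u hu v hv => comm_of_isMulCommutative hBc hu hv)
  -- an element of `E`
  obtain ⟨e, he, he1⟩ := exists_ne_one_of_ne_bot (hS.ne_bot E hE)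
  obtain ⟨a₁, ha₁, b₁, hb₁, rfl⟩ := mem_sup_of_comm hABel (hEle he)
  have ha₁1 : a₁ ≠ 1 := by
    rintro rfl
    apply he1
    have h1 : (1 : G) * b₁ ∈ E ⊓ B := ⟨he, by simpa using hb₁⟩
    rw [hEB, Subgroup.mem_bot] at h1
    exact h1
  have hb₁1 : b₁ ≠ 1 := by
    rintro rfl
    apply he1
    have h1 : a₁ * (1 : G) ∈ E ⊓ A := ⟨he, by simpa using ha₁⟩
    rw [hEA, Subgroup.mem_bot] at h1
    exact h1
  have h1 : RootCommutatorCase S C B := by
    rcases hS.pair C hC B hB with h | h | h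
    · exfalso
      obtain ⟨b, hb, hb1⟩ := exists_ne_one_of_ne_bot (hS.ne_bot B hB)
      obtain ⟨a, ha, ha1⟩ := exists_ne_one_left hAC
      have hz : b ∈ Subgroup.centralizer ((A ⊔ C : Subgroup G) : Set G) :=
        mem_centralizer_sup (fun x hx => comm_of_commutator_eq_bot hcomm hx hb)
          (fun x hx => comm_of_commutator_eq_bot h hx hb)
      apply Cfsg.Agent.S5025.result hS hA ⟨hC, hAC⟩ hz hb1 a ha ha1
      apply hroot _ (Subgroup.mul_mem _ (Subgroup.mem_sup_right hb) (Subgroup.mem_sup_left ha))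
      intro h0
      apply ha1
      have h2 : a ∈ A ⊓ B := by
        refine ⟨ha, ?_⟩
        have e : a = b⁻¹ * (b * a) := by group
        rw [e, h0, mul_one]
        exact B.inv_mem hb
      rw [hAB, Subgroup.mem_bot] at h2
      exact h2
    · exact absurd h hCB
    · exact h
  have h2 : RootCommutatorCase S C E := by
    rcases hS.pair C hC E hE with h | h | h
    · exfalso
      have hz : a₁ * b₁ ∈ Subgroup.centralizer ((A ⊔ C : Subgroup G) : Set G) :=
        mem_centralizer_sup (fun x hx => hABc x (Subgroup.mem_sup_left hx) _ (hEle he))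
          (fun x hx => comm_of_commutator_eq_bot h hx he)
      apply Cfsg.Agent.S5025.result hS hA ⟨hC, hAC⟩ hz he1 a₁⁻¹ (A.inv_mem ha₁)
        (by simpa using ha₁1)
      have e : a₁ * b₁ * a₁⁻¹ = b₁ := by
        rw [hABel a₁ ha₁ b₁ hb₁]; group
      rw [e]
      exact ⟨hb₁1, B, hB, hb₁⟩
    · exact absurd h hCE
    · exact h
  obtain ⟨c₀, hc₀, hc₀1⟩ := exists_ne_one_right hAC
  have hBE : ⁅B, E⁆ = ⊥ := by
    rw [Subgroup.commutator_eq_bot_iff_le_centralizer]
    intro b hb
    rw [Subgroup.mem_centralizer_iff]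
    intro e' he'
    exact hABc e' (hEle he') b (Subgroup.mem_sup_right hb)
  have hEneB : E ≠ B := by
    intro h
    rw [h, inf_idem] at hEB
    exact hS.ne_bot B hB hEB
  have hnil : Group.IsNilpotent ↥(B ⊔ C ⊔ E) :=
    (triple_structure hS hB hC hE (by rw [Subgroup.commutator_comm]; exact h1.1) h2.1
      ⟨hE, hEneB, hBE⟩ hc₀ hc₀1).2.2.2.2
  have hBR : B ≤ B ⊔ C ⊔ E := le_sup_left.trans le_sup_left
  have hCR : C ≤ B ⊔ C ⊔ E := le_sup_right.trans le_sup_left
  have hER : E ≤ B ⊔ C ⊔ E := le_sup_right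
  have ha₁R : a₁ ∈ B ⊔ C ⊔ E := by
    have e : a₁ = (a₁ * b₁) * b₁⁻¹ := by group
    rw [e]
    exact Subgroup.mul_mem _ (hER he) (hBR (B.inv_mem hb₁))
  obtain ⟨c, hc, -, hcond⟩ := hAC.cond_left a₁ ha₁ ha₁1
  have hAR : A ≤ B ⊔ C ⊔ E := by
    intro x hx
    have h3 : c⁻¹ * x * c ∈ conjBy A c⁻¹ := by
      have := conj_mem_conjBy (g := c⁻¹) hx
      simpa using this
    rw [hcond] at h3
    obtain ⟨c', hc', e3⟩ := h3
    have e3' : a₁⁻¹ * c' * a₁⁻¹⁻¹ = c⁻¹ * x * c := e3
    have e4 : x = c * (a₁⁻¹ * c' * a₁⁻¹⁻¹) * c⁻¹ := by rw [e3']; group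
    rw [e4]
    exact Subgroup.mul_mem _ (Subgroup.mul_mem _ (hCR hc)
      (Subgroup.mul_mem _ (Subgroup.mul_mem _ (Subgroup.inv_mem _ ha₁R) (hCR hc'))
        (Subgroup.inv_mem _ (Subgroup.inv_mem _ ha₁R)))) (Subgroup.inv_mem _ (hCR hc))
  exact not_isNilpotent_of_rankOne hAC hAc (isNilpotent_of_le (sup_le hAR hCR) hnil)

theorem fAdj_symm {S : Set (Subgroup G)} {A B : Subgroup G} (h : FAdj S A B) : FAdj S B A :=
  ⟨h.2.1, h.1, RankOnePair_symm h.2.2⟩

theorem reach_symm {S : Set (Subgroup G)} {A B : Subgroup G}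
    (h : Relation.ReflTransGen (FAdj S) A B) : Relation.ReflTransGen (FAdj S) B A := by
  induction h with
  | refl => exact Relation.ReflTransGen.refl
  | @tail C D _ hstep ih => exact Relation.ReflTransGen.head (fAdj_symm hstep) ih

theorem componentOf_eq_of_reach {S : Set (Subgroup G)} {A B : Subgroup G}
    (h : Relation.ReflTransGen (FAdj S) A B) :
    componentOf (FAdj S) S A = componentOf (FAdj S) S B := by
  have hsymm : Relation.ReflTransGen (FAdj S) B A := reach_symm h
  ext E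
  constructor
  · rintro ⟨hE, hAE⟩
    exact ⟨hE, hsymm.trans hAE⟩
  · rintro ⟨hE, hBE⟩
    exact ⟨hE, h.trans hBE⟩

theorem exists_partner_of_component {S : Set (Subgroup G)} {A : Subgroup G}
    (hA2 : ∃ A' ∈ componentOf (FAdj S) S A, A' ≠ A) : ∃ C ∈ S, IsRankOnePair A C := by
  obtain ⟨A', ⟨-, hpath⟩, hA'ne⟩ := hA2
  rcases Relation.ReflTransGen.cases_head hpath with h | ⟨C, hAC, -⟩
  · exact absurd h.symm hA'ne
  · exact ⟨C, hAC.2.1, hAC.2.2⟩

/-- Timmesfeld II (2.7): members of different non-trivial components are not line partners -/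
theorem not_linePartner_of_components {S : Set (Subgroup G)} (hS : IsRootSubgroupSet S)
    {A B : Subgroup G} (hA : A ∈ S) (hB : B ∈ S)
    (hne : componentOf (FAdj S) S A ≠ componentOf (FAdj S) S B)
    (hA2 : ∃ A' ∈ componentOf (FAdj S) S A, A' ≠ A)
    (hB2 : ∃ B' ∈ componentOf (FAdj S) S B, B' ≠ B) : B ∉ linePartners S A := by
  rintro ⟨⟨-, hBA, hcomm⟩, hpart⟩
  obtain ⟨C, hC, hAC⟩ := exists_partner_of_component hA2
  obtain ⟨D, hD, hBD⟩ := exists_partner_of_component hB2
  have hAmem : A ∈ membersIn S (A ⊔ B) := ⟨hA, le_sup_left⟩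
  have hBmem : B ∈ membersIn S (A ⊔ B) := ⟨hB, le_sup_right⟩
  have hAB : A ⊓ B = ⊥ := hpart.2.2 A hAmem B hBmem (Ne.symm hBA)
  obtain ⟨a, ha, ha1⟩ := exists_ne_one_of_ne_bot (hS.ne_bot A hA)
  obtain ⟨b, hb, hb1⟩ := exists_ne_one_of_ne_bot (hS.ne_bot B hB)
  have hab1 : a * b ≠ 1 := by
    intro h0
    apply ha1
    have h2 : a ∈ A ⊓ B := by
      refine ⟨ha, ?_⟩
      have e : a = (a * b) * b⁻¹ := by group
      rw [e, h0, one_mul]
      exact B.inv_mem hb
    rw [hAB, Subgroup.mem_bot] at h2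
    exact h2
  obtain ⟨E, hE, habE⟩ := hpart.2.1 (a * b)
    (Subgroup.mul_mem _ (Subgroup.mem_sup_left ha) (Subgroup.mem_sup_right hb)) hab1
  have hEA : E ≠ A := by
    rintro rfl
    apply hb1
    have h2 : b ∈ E ⊓ B := by
      refine ⟨?_, hb⟩
      have e : b = a⁻¹ * (a * b) := by group
      rw [e]
      exact E.mul_mem (E.inv_mem ha) habE
    rw [hAB, Subgroup.mem_bot] at h2
    exact h2
  have hEB : E ≠ B := by
    rintro rfl
    apply ha1
    have h2 : a ∈ A ⊓ E := by
      refine ⟨ha, ?_⟩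
      have e : a = (a * b) * b⁻¹ := by group
      rw [e]
      exact E.mul_mem habE (E.inv_mem hb)
    rw [hAB, Subgroup.mem_bot] at h2
    exact h2
  have hEAinf : E ⊓ A = ⊥ := hpart.2.2 E hE A hAmem hEA
  have hEBinf : E ⊓ B = ⊥ := hpart.2.2 E hE B hBmem hEB
  have hroot : ∀ x ∈ A ⊔ B, x ≠ 1 → x ∈ rootElements S := by
    intro x hx hx1
    obtain ⟨F, hF, hxF⟩ := hpart.2.1 x hx hx1
    exact ⟨hx1, F, hF.1, hxF⟩
  have hstepAC : Relation.ReflTransGen (FAdj S) A C :=
    Relation.ReflTransGen.single ⟨hA, hC, hAC⟩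
  have hstepBD : Relation.ReflTransGen (FAdj S) B D :=
    Relation.ReflTransGen.single ⟨hB, hD, hBD⟩
  by_cases hEcomp : Relation.ReflTransGen (FAdj S) A E
  · -- use `D`
    have hBE : ¬ Relation.ReflTransGen (FAdj S) B E := by
      intro h
      apply hne
      exact componentOf_eq_of_reach
        (hEcomp.trans (reach_symm h))
    have hcomm' : ⁅B, A⁆ = ⊥ := by rw [Subgroup.commutator_comm]; exact hcomm
    have hAB' : B ⊓ A = ⊥ := by rw [inf_comm]; exact hAB
    have hEle : E ≤ B ⊔ A := by rw [sup_comm]; exact hE.2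
    have hroot' : ∀ x ∈ B ⊔ A, x ≠ 1 → x ∈ rootElements S := by
      rw [sup_comm]; exact hroot
    refine line_key hS hB hA hE.1 hcomm' hAB' hEle hEBinf hEAinf hroot' hD hBD ?_ ?_
    · intro h
      apply hne
      exact (componentOf_eq_of_reach
        (hstepBD.trans (Relation.ReflTransGen.single ⟨hD, hA, h⟩))).symm
    · intro h
      exact hBE (hstepBD.trans (Relation.ReflTransGen.single ⟨hD, hE.1, h⟩))
  · refine line_key hS hA hB hE.1 hcomm hAB hE.2 hEAinf hEBinf hroot hC hAC ?_ ?_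
    · intro h
      apply hne
      exact componentOf_eq_of_reach (hstepAC.trans (Relation.ReflTransGen.single ⟨hC, hB, h⟩))
    · intro h
      exact hEcomp (hstepAC.trans (Relation.ReflTransGen.single ⟨hC, hE.1, h⟩))

end Cfsg.Agent.Helper26
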