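import Mathlib
import Cfsg.Agent.Helper26.RootComp

set_option autoImplicit false

namespace Cfsg.Agent.Helper26

open Cfsg
open scoped commutatorElement

variable {G : Type*} [Group G]

/-- in the commutator case with `A` not isolated, `A` and `conjBy A c` (`c ∈ C`, `c ≠ 1`) are
line partners -/
theorem conj_mem_linePartners {S : Set (Subgroup G)} (hS : IsRootSubgroupSet S)
    {A C : Subgroup G} (hA : ¬ IsIsolatedIn (FAdj S) S A) (hAS : A ∈ S) (hC : C ∈ S)
    (h : RootCommutatorCase S A C) {c : G} (hc : c ∈ C) (hc1 : c ≠ 1) :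
    conjBy A c ∈ linePartners S A := by
  have hAc := hS.commutative A hAS
  refine ⟨⟨hS.conj_mem A hAS c, ?_, ?_⟩, ?_⟩
  · intro heq
    have hAK : A ⊓ ⁅A, C⁆ = ⊥ := by
      rcases Cfsg.Agent.S5028.result hS hA hAS _ h.1 with h2 | h2
      · exact h2
      · exact absurd h2 (ne_commutator_of_commCase hS h)
    obtain ⟨a, ha, ha1⟩ := exists_ne_one_of_ne_bot (hS.ne_bot A hAS)
    apply hc1
    apply eq_one_of_comm_of_commCase hS hA hAS h ha ha1 hc
    have h1 : c * a * c⁻¹ ∈ A := by
      have h2 : c * a * c⁻¹ ∈ conjBy A c := conj_mem_conjBy ha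
      rw [heq] at h2
      exact h2
    have h3 : a⁻¹ * c * a * c⁻¹ ∈ A ⊓ ⁅A, C⁆ := by
      refine ⟨?_, commElt_mem' ha hc⟩
      have e : a⁻¹ * c * a * c⁻¹ = a⁻¹ * (c * a * c⁻¹) := by group
      rw [e]
      exact A.mul_mem (A.inv_mem ha) h1
    rw [hAK, Subgroup.mem_bot] at h3
    have e : c * a = a * (a⁻¹ * c * a * c⁻¹) * c := by group
    rw [h3, mul_one] at e
    exact e.symm
  · rw [Subgroup.commutator_eq_bot_iff_le_centralizer]
    intro a ha
    rw [Subgroup.mem_centralizer_iff]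
    rintro _ ⟨a', ha', rfl⟩
    exact (commute_conj_of_commCase h hAc hc ha ha').symm
  · rw [sup_conjBy_eq h hc hc1]
    exact (commutator_partition hS hA hAS hC h.1).2.1

theorem reach_conj_of_mem {S : Set (Subgroup G)} (hS : IsRootSubgroupSet S)
    (hni : ∀ A ∈ S, ¬ IsIsolatedIn (FAdj S) S A) {A C : Subgroup G} (hAS : A ∈ S) (hC : C ∈ S)
    {c : G} (hc : c ∈ C) : Relation.ReflTransGen (FAdj S) A (conjBy A c) := by
  rcases hS.pair A hAS C hC with h | h | h
  · have e : conjBy A c = A :=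
      conjBy_eq_of_forall_comm (fun a ha => comm_of_commutator_eq_bot h ha hc)
    rw [e]
  · have h1 : FAdj S A C := ⟨hAS, hC, h⟩
    have h2 : IsRankOnePair (conjBy A c) (conjBy C c) := rankOnePair_conj h c
    rw [conjBy_of_mem hc] at h2
    have h3 : FAdj S C (conjBy A c) := ⟨hC, hS.conj_mem A hAS c, RankOnePair_symm h2⟩
    exact (Relation.ReflTransGen.single h1).trans (Relation.ReflTransGen.single h3)
  · by_cases hc1 : c = 1
    · rw [hc1, conjBy_one]
    · by_contra hnot
      have hA := hni A hAS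
      have hAc := hni _ (hS.conj_mem A hAS c)
      obtain ⟨D, hD, hAD⟩ := exists_partner hA hAS
      obtain ⟨D', hD', hAD'⟩ := exists_partner hAc (hS.conj_mem A hAS c)
      have hne : componentOf (FAdj S) S A ≠ componentOf (FAdj S) S (conjBy A c) := by
        intro heq
        apply hnot
        have h1 : conjBy A c ∈ componentOf (FAdj S) S (conjBy A c) :=
          ⟨hS.conj_mem A hAS c, Relation.ReflTransGen.refl⟩
        rw [← heq] at h1
        exact h1.2
      refine not_linePartner_of_components hS hAS (hS.conj_mem A hAS c) hne ?_ ?_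
        (conj_mem_linePartners hS hA hAS hC h hc hc1)
      · exact ⟨D, ⟨hD, Relation.ReflTransGen.single ⟨hAS, hD, hAD⟩⟩, hAD.ne.symm⟩
      · exact ⟨D', ⟨hD', Relation.ReflTransGen.single ⟨hS.conj_mem A hAS c, hD', hAD'⟩⟩,
          hAD'.ne.symm⟩

/-- Timmesfeld II (2.8)-type statement: connectedness of `𝓕(S)` -/
theorem connected_iff_conjClass {S : Set (Subgroup G)} (hS : IsRootSubgroupSet S)
    (h2 : ∃ A ∈ S, ∃ B ∈ S, A ≠ B) :
    IsConnectedFamily (FAdj S) S ↔
      (IsConjClassOfSubgroups S ∧ ∃ A ∈ S, ¬ IsIsolatedIn (FAdj S) S A) := by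
  constructor
  · intro hconn
    obtain ⟨A, hA, B, hB, hAB⟩ := h2
    refine ⟨⟨⟨A, hA⟩, ?_⟩, A, hA, ?_⟩
    · intro A₁ hA₁ B₁ hB₁
      have hpath := hconn A₁ hA₁ B₁ hB₁
      clear hB₁
      induction hpath with
      | refl => exact ⟨1, (conjBy_one A₁).symm⟩
      | @tail C D _ hstep ih =>
        obtain ⟨g, hg⟩ := ih
        obtain ⟨x, -, hx⟩ := exists_conj_eq hstep.2.2
        refine ⟨x * g, ?_⟩
        rw [hx, hg, conjBy_conjBy]
    · rintro ⟨-, hiso⟩
      rcases Relation.ReflTransGen.cases_head (hconn A hA B hB) with h | ⟨C, hAC, -⟩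
      · exact hAB h
      · exact (hiso C).1 hAC
  · rintro ⟨⟨-, hconj⟩, A₀, hA₀, hA₀ni⟩
    obtain ⟨C₀, hC₀, hA₀C₀⟩ := exists_partner hA₀ni hA₀
    have hni : ∀ A ∈ S, ¬ IsIsolatedIn (FAdj S) S A := by
      intro A hA
      obtain ⟨g, rfl⟩ := hconj A₀ hA₀ A hA
      exact not_isolated_of_partner hA (hS.conj_mem C₀ hC₀ g) (rankOnePair_conj hA₀C₀ g)
    have key : ∀ g : G, ∀ A ∈ S, Relation.ReflTransGen (FAdj S) A (conjBy A g) := by
      intro g
      have hg : g ∈ ⨆ A ∈ S, A := by rw [hS.generates]; trivial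
      refine biSup_induction (C := fun g => ∀ A ∈ S,
        Relation.ReflTransGen (FAdj S) A (conjBy A g)) hg ?_ ?_ ?_
      · intro C hC c hc A hA
        exact reach_conj_of_mem hS hni hA hC hc
      · intro A hA
        rw [conjBy_one]
      · intro x y hx hy A hA
        rw [← conjBy_conjBy]
        exact (hy A hA).trans (hx _ (hS.conj_mem A hA y))
    intro A hA B hB
    obtain ⟨g, rfl⟩ := hconj A hA B hB
    exact key g A hA

end Cfsg.Agent.Helper26
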