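import Mathlib
import Cfsg.Agent.Helper26.RootConn

set_option autoImplicit false

namespace Cfsg.Agent.Helper26

open Cfsg
open scoped commutatorElement

variable {G : Type*} [Group G]

/-- a rank one partner `C` of `A` does not commute with a member `E` such that `A E` consists of
root elements -/
theorem not_comm_of_line {S : Set (Subgroup G)} (hS : IsRootSubgroupSet S) {A E C : Subgroup G}
    (hA : A ∈ S) (hE : E ∈ S) (hC : C ∈ S) (hAC : IsRankOnePair A C) (hcomm : ⁅A, E⁆ = ⊥)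
    (hinf : A ⊓ E = ⊥) (hroot : ∀ x ∈ A ⊔ E, x ≠ 1 → x ∈ rootElements S) : ⁅C, E⁆ ≠ ⊥ := by
  intro h
  obtain ⟨e, he, he1⟩ := exists_ne_one_of_ne_bot (hS.ne_bot E hE)
  obtain ⟨a, ha, ha1⟩ := exists_ne_one_left hAC
  have hz : e ∈ Subgroup.centralizer ((A ⊔ C : Subgroup G) : Set G) :=
    mem_centralizer_sup (fun x hx => comm_of_commutator_eq_bot hcomm hx he)
      (fun x hx => comm_of_commutator_eq_bot h hx he)
  apply Cfsg.Agent.S5025.result hS hA ⟨hC, hAC⟩ hz he1 a ha ha1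
  apply hroot _ (Subgroup.mul_mem _ (Subgroup.mem_sup_right he) (Subgroup.mem_sup_left ha))
  intro h0
  apply ha1
  have h2 : a ∈ A ⊓ E := by
    refine ⟨ha, ?_⟩
    have e' : a = e⁻¹ * (e * a) := by group
    rw [e', h0, mul_one]
    exact E.inv_mem he
  rw [hinf, Subgroup.mem_bot] at h2
  exact h2

/-- if `B` is a rank one partner of `A`, `C` commutes with `A`, `A C` consists of root elements
and `⁅B, C⁆ ∈ S`, then `⁅A, ⁅B, C⁆⁆ = C` -/
theorem commutator_back {S : Set (Subgroup G)} (hS : IsRootSubgroupSet S) {A B C : Subgroup G}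
    (hA : A ∈ S) (hB : B ∈ S) (hC : C ∈ S) (hAB : IsRankOnePair A B) (hcomm : ⁅A, C⁆ = ⊥)
    (hinf : A ⊓ C = ⊥) (hroot : ∀ x ∈ A ⊔ C, x ≠ 1 → x ∈ rootElements S)
    (hBC : ⁅B, C⁆ ∈ S) : ⁅A, ⁅B, C⁆⁆ = C := by
  have hN := rootCommutatorCase_of_mem hS hB hC hBC
  have hN' := rootCommutatorCase_symm hN
  have hFeq : ⁅B, C⁆ = ⁅C, B⁆ := Subgroup.commutator_comm B C
  rw [hFeq]
  obtain ⟨a, ha, ha1⟩ := exists_ne_one_left hAB
  obtain ⟨b, hb, hb1, hcond⟩ := hAB.cond_left a ha ha1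
  have hAni := not_isolated_of_partner hA hB hAB
  have hCa : conjBy C a⁻¹ = C :=
    conjBy_eq_of_forall_comm (fun c hc => (comm_of_commutator_eq_bot hcomm (A.inv_mem ha) hc).symm)
  have hK : ⁅A, ⁅C, B⁆⁆ ∈ S := by
    have e1 : ⁅A, ⁅C, B⁆⁆ = conjBy (conjBy ⁅B, C⁆ a⁻¹) b := by
      rw [← commutator_conjBy_eq hN' hcomm hb hb1, conjBy_commutator, conjBy_commutator, hCa,
        ← hcond, conjBy_conjBy, mul_inv_cancel, conjBy_one]
    rw [e1]
    exact hS.conj_mem _ (hS.conj_mem _ hBC a⁻¹) b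
  have hAF := rootCommutatorCase_of_mem hS hA hN'.1 hK
  have hle : C ≤ ⁅A, ⁅C, B⁆⁆ := by
    intro c hc
    have hf : c⁻¹ * b⁻¹ * c * b ∈ ⁅C, B⁆ := commElt_mem hc hb
    have hk : (c⁻¹ * b⁻¹ * c * b)⁻¹ * a * (c⁻¹ * b⁻¹ * c * b) * a⁻¹ ∈ ⁅A, ⁅C, B⁆⁆ := by
      have h1 := commElt_mem' (A := ⁅C, B⁆) (B := A) hf ha
      rw [Subgroup.commutator_comm] at h1
      exact h1
    obtain ⟨f, hfdef⟩ : ∃ f, f = c⁻¹ * b⁻¹ * c * b := ⟨_, rfl⟩
    rw [← hfdef] at hf hk
    obtain ⟨k, hkdef⟩ : ∃ k, k = f⁻¹ * a * f * a⁻¹ := ⟨_, rfl⟩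
    rw [← hkdef] at hk
    have hac : a * c = c * a := comm_of_commutator_eq_bot hcomm ha hc
    have hkf : k * f = f * k := hAF.2.1 k hk f (Subgroup.mem_sup_right hf)
    have E1 : a * (b⁻¹ * c * b) * a⁻¹ = c * k * f := by
      calc a * (b⁻¹ * c * b) * a⁻¹ = (a * c) * f * a⁻¹ := by rw [hfdef]; group
        _ = (c * a) * f * a⁻¹ := by rw [hac]
        _ = c * (f * k) := by rw [hkdef]; group
        _ = c * (k * f) := by rw [hkf]
        _ = c * k * f := by group
    have hzB : ∀ b' ∈ B, b' * (c * k) = (c * k) * b' := by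
      intro b' hb'
      have h1 : a⁻¹ * b' * a ∈ conjBy B a⁻¹ := by
        have := conj_mem_conjBy (g := a⁻¹) hb'
        simpa using this
      rw [← hcond, mem_conjBy, inv_inv] at h1
      have h2 := comm_of_commutator_eq_bot hcomm h1 hc
      have h3 : (a⁻¹ * b' * a) * (b⁻¹ * c * b) = (b⁻¹ * c * b) * (a⁻¹ * b' * a) := by
        have e : (a⁻¹ * b' * a) * (b⁻¹ * c * b) = b⁻¹ * ((b * (a⁻¹ * b' * a) * b⁻¹) * c) * b := by
          group
        rw [e, h2]; group
      have h4 : Commute b' (a * (b⁻¹ * c * b) * a⁻¹) := by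
        show b' * (a * (b⁻¹ * c * b) * a⁻¹) = (a * (b⁻¹ * c * b) * a⁻¹) * b'
        calc b' * (a * (b⁻¹ * c * b) * a⁻¹) = a * ((a⁻¹ * b' * a) * (b⁻¹ * c * b)) * a⁻¹ := by
              group
          _ = a * ((b⁻¹ * c * b) * (a⁻¹ * b' * a)) * a⁻¹ := by rw [h3]
          _ = (a * (b⁻¹ * c * b) * a⁻¹) * b' := by group
      have h5 : Commute b' f := (hN'.2.1 f hf b' (Subgroup.mem_sup_right hb')).symm
      have h6 : Commute b' ((a * (b⁻¹ * c * b) * a⁻¹) * f⁻¹) := h4.mul_right h5.inv_right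
      rw [E1, mul_inv_cancel_right] at h6
      exact h6
    have hzA : ∀ x ∈ A, x * (c * k) = (c * k) * x := by
      intro x hx
      have h1 : Commute x c := comm_of_commutator_eq_bot hcomm hx hc
      have h2 : Commute x k := (hAF.2.1 k hk x (Subgroup.mem_sup_left hx)).symm
      exact h1.mul_right h2
    have hz : c * k ∈ Subgroup.centralizer ((A ⊔ B : Subgroup G) : Set G) :=
      mem_centralizer_sup hzA hzB
    by_contra hcK
    have hz1 : c * k ≠ 1 := by
      intro h0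
      apply hcK
      have e : c = (c * k) * k⁻¹ := by group
      rw [e, h0, one_mul]
      exact Subgroup.inv_mem _ hk
    apply Cfsg.Agent.S5025.result hS hA ⟨hB, hAB⟩ hz hz1 a ha ha1
    obtain ⟨f', hf', e'⟩ := exists_conj_of_mul hAF ha ha1 hk
    have hka : k * a = a * k := hAF.2.1 k hk a (Subgroup.mem_sup_left ha)
    have hf'c : f' * c = c * f' := hN'.2.1 f' hf' c (Subgroup.mem_sup_left hc)
    have e2 : c * k * a = f' * (c * a) * f'⁻¹ := by
      calc c * k * a = c * (k * a) := by group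
        _ = c * (a * k) := by rw [hka]
        _ = c * (f' * a * f'⁻¹) := by rw [e']
        _ = (c * f') * a * f'⁻¹ := by group
        _ = (f' * c) * a * f'⁻¹ := by rw [hf'c]
        _ = f' * (c * a) * f'⁻¹ := by group
    have hca1 : c * a ≠ 1 := by
      intro h0
      apply ha1
      have h2 : a ∈ A ⊓ C := by
        refine ⟨ha, ?_⟩
        have e3 : a = c⁻¹ * (c * a) := by group
        rw [e3, h0, mul_one]
        exact C.inv_mem hc
      rw [hinf, Subgroup.mem_bot] at h2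
      exact h2
    obtain ⟨-, E', hE', hmem⟩ := hroot (c * a)
      (Subgroup.mul_mem _ (Subgroup.mem_sup_right hc) (Subgroup.mem_sup_left ha)) hca1
    rw [e2]
    refine ⟨?_, conjBy E' f', hS.conj_mem E' hE' f', conj_mem_conjBy hmem⟩
    intro h0
    apply hca1
    have e3 : c * a = f'⁻¹ * (f' * (c * a) * f'⁻¹) * f' := by group
    rw [e3, h0]; group
  exact (eq_commutator_of_le hS hAni hA hAF hC hle).symm


/-- for a line partner `B` of `A` and a rank one partner `C` of `A`, some member `E ≠ A` on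
the line `A B` has `⁅C, E⁆ ∈ S`; then `⁅A, ⁅C, E⁆⁆ = E` and `A E = A B` -/
theorem exists_commPartner_on_line {S : Set (Subgroup G)} (hS : IsRootSubgroupSet S)
    {A B C : Subgroup G} (hA : A ∈ S) (hC : C ∈ S) (hAC : IsRankOnePair A C)
    (hB : B ∈ linePartners S A) (hBni : ¬ IsIsolatedIn (FAdj S) S B) :
    ∃ E ∈ membersIn S (A ⊔ B), E ≠ A ∧ ⁅C, E⁆ ∈ S ∧ ⁅A, ⁅C, E⁆⁆ = E ∧ A ⊔ E = A ⊔ B := by
  obtain ⟨⟨hBS, hBA, hcomm⟩, hpart⟩ := hB
  have hAc := hS.commutative A hA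
  have hBc := hS.commutative B hBS
  have hAni := not_isolated_of_partner hA hC hAC
  have hAmem : A ∈ membersIn S (A ⊔ B) := ⟨hA, le_sup_left⟩
  have hBmem : B ∈ membersIn S (A ⊔ B) := ⟨hBS, le_sup_right⟩
  have hAB : A ⊓ B = ⊥ := hpart.2.2 A hAmem B hBmem (Ne.symm hBA)
  have hroot : ∀ x ∈ A ⊔ B, x ≠ 1 → x ∈ rootElements S := by
    intro x hx hx1
    obtain ⟨F, hF, hxF⟩ := hpart.2.1 x hx hx1
    exact ⟨hx1, F, hF.1, hxF⟩
  have hABel : ∀ a ∈ A, ∀ b ∈ B, a * b = b * a := fun a ha b hb =>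
    comm_of_commutator_eq_bot hcomm ha hb
  have hABc : ∀ x ∈ A ⊔ B, ∀ y ∈ A ⊔ B, x * y = y * x :=
    commute_sup_sup (fun u hu v hv => comm_of_isMulCommutative hAc hu hv) hABel
      (fun u hu v hv => (hABel v hv u hu).symm) (fun u hu v hv => comm_of_isMulCommutative hBc hu hv)
  -- generic facts for members of the line
  have hgen : ∀ E ∈ membersIn S (A ⊔ B), E ≠ A →
      ⁅A, E⁆ = ⊥ ∧ A ⊓ E = ⊥ ∧ ∀ x ∈ A ⊔ E, x ≠ 1 → x ∈ rootElements S := by
    intro E hE hEA
    refine ⟨?_, hpart.2.2 A hAmem E hE (Ne.symm hEA), ?_⟩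
    · rw [Subgroup.commutator_eq_bot_iff_le_centralizer]
      intro a ha
      rw [Subgroup.mem_centralizer_iff]
      intro e he
      exact hABc e (hE.2 he) a (Subgroup.mem_sup_left ha)
    · intro x hx hx1
      exact hroot x (sup_le le_sup_left hE.2 hx) hx1
  rcases hS.pair C hC B hBS with h | h | h
  · obtain ⟨h1, h2, h3⟩ := hgen B hBmem hBA
    exact absurd h (not_comm_of_line hS hA hBS hC hAC h1 h2 h3)
  · -- `B` is a rank one partner of `C`
    obtain ⟨c, hc, hc1⟩ := exists_ne_one_right hAC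
    obtain ⟨a, ha, ha1, hca⟩ := hAC.cond_right c hc hc1
    obtain ⟨b, hb, hb1, hcb⟩ := h.cond_left c hc hc1
    have hx1 : b * a⁻¹ ≠ 1 := by
      intro h0
      apply hb1
      have h2 : b ∈ A ⊓ B := by
        refine ⟨?_, hb⟩
        have e : b = (b * a⁻¹) * a := by group
        rw [e, h0, one_mul]
        exact ha
      rw [hAB, Subgroup.mem_bot] at h2
      exact h2
    have hxN : b * a⁻¹ ∈ A ⊔ B :=
      Subgroup.mul_mem _ (Subgroup.mem_sup_right hb) (Subgroup.mem_sup_left (A.inv_mem ha))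
    obtain ⟨E, hE, hxE⟩ := hpart.2.1 _ hxN hx1
    have hEA : E ≠ A := by
      rintro rfl
      apply hb1
      have h2 : b ∈ E ⊓ B := by
        refine ⟨?_, hb⟩
        have e : b = (b * a⁻¹) * a := by group
        rw [e]
        exact E.mul_mem hxE ha
      rw [hAB, Subgroup.mem_bot] at h2
      exact h2
    obtain ⟨hg1, hg2, hg3⟩ := hgen E hE hEA
    have e1 : conjBy C (b * a⁻¹) = conjBy A (b * c⁻¹) := by
      rw [← conjBy_conjBy, hca, conjBy_conjBy]
    have e2 : conjBy B (b * c⁻¹) = C := by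
      have h3 : conjBy (conjBy C b⁻¹) b = conjBy (conjBy B c⁻¹) b := by rw [hcb]
      rw [conjBy_conjBy, conjBy_conjBy, mul_inv_cancel, conjBy_one] at h3
      exact h3.symm
    have hcommCx : ⁅C, conjBy C (b * a⁻¹)⁆ = ⊥ := by
      have h3 : ⁅conjBy B (b * c⁻¹), conjBy A (b * c⁻¹)⁆ = ⊥ := by
        rw [← conjBy_commutator, Subgroup.commutator_comm, hcomm, conjBy_bot]
      rw [e2, ← e1] at h3
      exact h3
    have hCE : RootCommutatorCase S C E := by
      rcases hS.pair C hC E hE.1 with h' | h' | h'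
      · exact absurd h' (not_comm_of_line hS hA hE.1 hC hAC hg1 hg2 hg3)
      · exfalso
        obtain ⟨c₂, hc₂, -, hcc⟩ := h'.cond_right (b * a⁻¹)⁻¹ (E.inv_mem hxE)
          (inv_ne_one.mpr hx1)
        rw [inv_inv] at hcc
        apply rankOne_commutator_ne_bot h'
        rw [← conjBy_eq_bot_iff (g := c₂⁻¹), conjBy_commutator, conjBy_of_mem (C.inv_mem hc₂),
          hcc]
        exact hcommCx
      · exact h'
    have hback := commutator_back hS hA hC hE.1 hAC hg1 hg2 hg3 hCE.1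
    refine ⟨E, hE, hEA, hCE.1, hback, ?_⟩
    apply le_antisymm (sup_le le_sup_left hE.2)
    apply sup_le le_sup_left
    -- `B ≤ A ⊔ E`
    have hK : ⁅A, ⁅C, E⁆⁆ ∈ S := by rw [hback]; exact hE.1
    have hpartE := (commutator_partition hS hAni hA hCE.1 hK).2.1
    rw [hback] at hpartE
    have hbAE : b ∈ A ⊔ E := by
      have e : b = (b * a⁻¹) * a := by group
      rw [e]
      exact Subgroup.mul_mem _ (Subgroup.mem_sup_right hxE) (Subgroup.mem_sup_left ha)
    obtain ⟨E₄, hE₄, hbE₄⟩ := hpartE.2.1 b hbAE hb1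
    rcases Cfsg.Agent.S5028.result hS hBni hBS E₄ hE₄.1 with h4 | h4
    · exfalso
      have h5 : b ∈ B ⊓ E₄ := ⟨hb, hbE₄⟩
      rw [h4, Subgroup.mem_bot] at h5
      exact hb1 h5
    · rw [h4]; exact hE₄.2
  · obtain ⟨h1, h2, h3⟩ := hgen B hBmem hBA
    exact ⟨B, hBmem, hBA, h.1, commutator_back hS hA hC hBS hAC h1 h2 h3 h.1, rfl⟩

end Cfsg.Agent.Helper26
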