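import Mathlib
import Cfsg.Agent.Helper26.RootPartner

set_option autoImplicit false

namespace Cfsg.Agent.Helper26

open Cfsg
open scoped commutatorElement

variable {G : Type*} [Group G]

/-- a "root group" on the line `A B`: some `F ∈ S` normalizing `A ⊔ B`, fixing a member `E ≠ A`
of the line and transitive on the other members -/
theorem line_root_group {S : Set (Subgroup G)} (hS : IsRootSubgroupSet S)
    (hF : ∀ A ∈ S, ¬ IsIsolatedIn (FAdj S) S A) {A B : Subgroup G} (hA : A ∈ S)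
    (hB : B ∈ linePartners S A) :
    ∃ E F : Subgroup G, E ∈ membersIn S (A ⊔ B) ∧ E ≠ A ∧ F ∈ normalizingMembers S (A ⊔ B) ∧
      (∀ f ∈ F, conjBy E f = E) ∧ (∀ f ∈ F, f ≠ 1 → conjBy A f ≠ A) ∧ F ≠ ⊥ ∧
      IsMulCommutative F ∧
      membersIn S (A ⊔ B) = (fun f : G => conjBy A f) '' (F : Set G) ∪ {E} ∧
      A ⊔ E = A ⊔ B ∧ ⁅A, E⁆ = ⊥ := by
  obtain ⟨C, hC, hAC⟩ := exists_partner (hF A hA) hA
  obtain ⟨E, hE, hEA, hCE, hback, hsup⟩ :=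
    exists_commPartner_on_line hS hA hC hAC hB (hF B hB.1.1)
  have hK : ⁅A, ⁅C, E⁆⁆ ∈ S := by rw [hback]; exact hE.1
  have hAF := rootCommutatorCase_of_mem hS hA hCE hK
  have hEF : ∀ e ∈ E, ∀ f ∈ ⁅C, E⁆, e * f = f * e := by
    intro e he f hf
    have he' : e ∈ ⁅A, ⁅C, E⁆⁆ := by rw [hback]; exact he
    exact hAF.2.1 e he' f (Subgroup.mem_sup_right hf)
  have hEfix : ∀ f ∈ ⁅C, E⁆, conjBy E f = E := fun f hf =>
    conjBy_eq_of_forall_comm (fun e he => hEF e he f hf)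
  refine ⟨E, ⁅C, E⁆, hE, hEA, ⟨hCE, ?_⟩, hEfix, ?_, hS.ne_bot _ hCE, hS.commutative _ hCE, ?_,
    hsup, ?_⟩
  · have hle : ∀ f ∈ ⁅C, E⁆, conjBy (A ⊔ B) f ≤ A ⊔ B := by
      intro f hf
      rw [← hsup, conjBy_sup, hEfix f hf]
      apply sup_le _ le_sup_right
      have h1 := conjBy_le_sup_commutator (A := A) hf
      rw [hback] at h1
      exact h1
    intro f hf
    apply conjBy_eq_self_iff.mp
    apply le_antisymm (hle f hf)
    have h1 := conjBy_mono (hle f⁻¹ (Subgroup.inv_mem _ hf)) f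
    rw [conjBy_conjBy, mul_inv_cancel, conjBy_one] at h1
    exact h1
  · intro f hf hf1
    exact (conj_mem_linePartners hS (hF A hA) hA hCE hAF hf hf1).1.2.1
  · have h1 := (commutator_partition hS (hF A hA) hA hCE hK).1
    rw [hback, hsup] at h1
    exact h1
  · rw [Subgroup.commutator_eq_bot_iff_le_centralizer]
    intro a ha
    rw [Subgroup.mem_centralizer_iff]
    intro e he
    have he' : e ∈ ⁅A, ⁅C, E⁆⁆ := by rw [hback]; exact he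
    exact hAF.2.1 e he' a (Subgroup.mem_sup_left ha)

/-- Timmesfeld II (2.19)-type statement: double transitivity on a line -/
theorem line_two_transitive {S : Set (Subgroup G)} (hS : IsRootSubgroupSet S)
    (hF : ∀ A ∈ S, ¬ IsIsolatedIn (FAdj S) S A) {A B : Subgroup G} (hA : A ∈ S)
    (hB : B ∈ linePartners S A) :
    ∀ C₁ ∈ membersIn S (A ⊔ B), ∀ C₂ ∈ membersIn S (A ⊔ B), ∀ D₁ ∈ membersIn S (A ⊔ B),
      ∀ D₂ ∈ membersIn S (A ⊔ B), C₁ ≠ C₂ → D₁ ≠ D₂ →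
        ∃ x ∈ ⨆ E ∈ normalizingMembers S (A ⊔ B), E, conjBy C₁ x = D₁ ∧ conjBy C₂ x = D₂ := by
  obtain ⟨E, F, hE, hEA, hFn, hFE, hFA, hFne, hFc, hP, hsup, hAEc⟩ :=
    line_root_group hS hF hA hB
  have hN' : E ⊔ A = A ⊔ B := by rw [sup_comm, hsup]
  have hAE : A ∈ linePartners S E := by
    refine ⟨⟨hA, Ne.symm hEA, ?_⟩, ?_⟩
    · rw [Subgroup.commutator_comm]; exact hAEc
    · rw [hN']; exact hB.2
  obtain ⟨E', F', hE', hE'E, hF'n, hF'E', -, -, -, hP', -, -⟩ := line_root_group hS hF hE.1 hAE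
  rw [hN'] at hE' hF'n hP'
  obtain ⟨T, hTdef⟩ : ∃ T : Subgroup G, T = ⨆ K ∈ normalizingMembers S (A ⊔ B), K := ⟨_, rfl⟩
  rw [← hTdef]
  have hFT : F ≤ T := by
    rw [hTdef]
    exact le_iSup₂ (f := fun (K : Subgroup G) (_ : K ∈ normalizingMembers S (A ⊔ B)) => K) F hFn
  have hF'T : F' ≤ T := by
    rw [hTdef]
    exact le_iSup₂ (f := fun (K : Subgroup G) (_ : K ∈ normalizingMembers S (A ⊔ B)) => K) F' hF'n
  have hTle : T ≤ Subgroup.normalizer ((A ⊔ B : Subgroup G) : Set G) := by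
    rw [hTdef]
    exact iSup₂_le (fun K hK => hK.2)
  have hTn : ∀ x ∈ T, conjBy (A ⊔ B) x = A ⊔ B := fun x hx => conjBy_eq_self_iff.mpr (hTle hx)
  have hmemT : ∀ x ∈ T, ∀ K ∈ membersIn S (A ⊔ B), conjBy K x ∈ membersIn S (A ⊔ B) := by
    intro x hx K hK
    refine ⟨hS.conj_mem K hK.1 x, ?_⟩
    have h1 := conjBy_mono hK.2 x
    rw [hTn x hx] at h1
    exact h1
  have stepa1 : ∀ C₁ ∈ membersIn S (A ⊔ B), C₁ ≠ E' → ∃ x₁ ∈ T, conjBy C₁ x₁ = E := by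
    intro C₁ hC₁ hne
    rw [hP'] at hC₁
    rcases hC₁ with ⟨f', hf', hfe⟩ | h
    · refine ⟨f'⁻¹, hF'T (F'.inv_mem hf'), ?_⟩
      rw [← hfe]
      show conjBy (conjBy E f') f'⁻¹ = E
      rw [conjBy_conjBy, inv_mul_cancel, conjBy_one]
    · exact absurd h hne
  have stepa : ∀ C₁ ∈ membersIn S (A ⊔ B), ∃ x₁ ∈ T, conjBy C₁ x₁ = E := by
    intro C₁ hC₁
    by_cases hne : C₁ = E'
    · obtain ⟨f, hf, hf1⟩ := exists_ne_one_of_ne_bot hFne
      have hE'P := hE'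
      rw [hP] at hE'P
      rcases hE'P with ⟨f₀, hf₀, hfe⟩ | h
      · have hfe' : conjBy A f₀ = E' := hfe
        have hne2 : conjBy E' f ≠ E' := by
          intro heq
          apply hFA f hf hf1
          rw [← hfe', conjBy_conjBy, comm_of_isMulCommutative hFc hf hf₀, ← conjBy_conjBy] at heq
          exact conjBy_inj.mp heq
        obtain ⟨x₁, hx₁, hx₁E⟩ := stepa1 (conjBy E' f) (hmemT f (hFT hf) E' hE') hne2
        refine ⟨x₁ * f, T.mul_mem hx₁ (hFT hf), ?_⟩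
        rw [hne, ← conjBy_conjBy]
        exact hx₁E
      · exact absurd h hE'E
    · exact stepa1 C₁ hC₁ hne
  have key : ∀ C₁ ∈ membersIn S (A ⊔ B), ∀ C₂ ∈ membersIn S (A ⊔ B), C₁ ≠ C₂ →
      ∃ x ∈ T, conjBy C₁ x = E ∧ conjBy C₂ x = E' := by
    intro C₁ hC₁ C₂ hC₂ hne
    obtain ⟨x₁, hx₁, hx₁E⟩ := stepa C₁ hC₁
    have hC₂' : conjBy C₂ x₁ ∈ membersIn S (A ⊔ B) := hmemT x₁ hx₁ C₂ hC₂
    have hC₂'ne : conjBy C₂ x₁ ≠ E := by
      intro h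
      apply hne
      rw [← hx₁E] at h
      exact (conjBy_inj.mp h).symm
    rw [hP] at hC₂'
    rcases hC₂' with ⟨f₁, hf₁, hf₁e⟩ | h
    · have hf₁e' : conjBy A f₁ = conjBy C₂ x₁ := hf₁e
      have hE'P := hE'
      rw [hP] at hE'P
      rcases hE'P with ⟨f₂, hf₂, hf₂e⟩ | h'
      · have hf₂e' : conjBy A f₂ = E' := hf₂e
        refine ⟨(f₂ * f₁⁻¹) * x₁, T.mul_mem (hFT (F.mul_mem hf₂ (F.inv_mem hf₁))) hx₁, ?_, ?_⟩
        · rw [← conjBy_conjBy, hx₁E]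
          exact hFE _ (F.mul_mem hf₂ (F.inv_mem hf₁))
        · rw [← conjBy_conjBy, ← hf₁e', conjBy_conjBy, inv_mul_cancel_right]
          exact hf₂e'
      · exact absurd h' hE'E
    · exact absurd h hC₂'ne
  intro C₁ hC₁ C₂ hC₂ D₁ hD₁ D₂ hD₂ hCne hDne
  obtain ⟨x, hx, hx1, hx2⟩ := key C₁ hC₁ C₂ hC₂ hCne
  obtain ⟨y, hy, hy1, hy2⟩ := key D₁ hD₁ D₂ hD₂ hDne
  refine ⟨y⁻¹ * x, T.mul_mem (T.inv_mem hy) hx, ?_, ?_⟩
  · rw [← conjBy_conjBy, hx1, ← hy1, conjBy_conjBy, inv_mul_cancel, conjBy_one]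
  · rw [← conjBy_conjBy, hx2, ← hy2, conjBy_conjBy, inv_mul_cancel, conjBy_one]

end Cfsg.Agent.Helper26
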