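import Mathlib
import Cfsg.Agent.Helper26.RootTwoTrans
import Cfsg.Agent.Helper26.RankOneQuad

set_option autoImplicit false

namespace Cfsg.Agent.Helper26

open Cfsg
open scoped commutatorElement

variable {G : Type*} [Group G]

theorem conjBy_subgroupOf (K X : Subgroup G) (x : ↥X) :
    conjBy (K.subgroupOf X) x = (conjBy K (x : G)).subgroupOf X := by
  ext y
  rw [mem_conjBy, Subgroup.mem_subgroupOf, Subgroup.mem_subgroupOf, mem_conjBy]
  rfl

theorem rankOneGroup_subtype {A B : Subgroup G} (h : IsRankOnePair A B) :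
    IsRankOneGroup ↥(A ⊔ B) (A.subgroupOf (A ⊔ B)) (B.subgroupOf (A ⊔ B)) := by
  have hAle : A ≤ A ⊔ B := le_sup_left
  have hBle : B ≤ A ⊔ B := le_sup_right
  have hcond : ∀ {A B : Subgroup G} {X : Subgroup G}, A ≤ X → B ≤ X → RankOneCondition A B →
      RankOneCondition (A.subgroupOf X) (B.subgroupOf X) := by
    intro A B X hA hB hc a ha ha1
    rw [Subgroup.mem_subgroupOf] at ha
    have ha1' : (a : G) ≠ 1 := fun h0 => ha1 (Subtype.ext h0)
    obtain ⟨b, hb, hb1, hab⟩ := hc (a : G) ha ha1'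
    refine ⟨⟨b, hB hb⟩, Subgroup.mem_subgroupOf.mpr hb, fun h0 => hb1 (congrArg Subtype.val h0), ?_⟩
    rw [conjBy_subgroupOf, conjBy_subgroupOf]
    show (conjBy A b⁻¹).subgroupOf X = (conjBy B (a : G)⁻¹).subgroupOf X
    rw [hab]
  refine ⟨?_, ?_, ?_, ?_, hcond hAle hBle h.cond_left, hcond hBle hAle h.cond_right⟩
  · rw [← Subgroup.subgroupOf_sup hAle hBle, Subgroup.subgroupOf_self]
  · intro heq
    apply h.ne
    rw [Subgroup.subgroupOf_inj, inf_eq_left.mpr hAle, inf_eq_left.mpr hBle] at heq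
    exact heq
  · exact (Group.isNilpotent_congr (Subgroup.subgroupOfEquivOfLe hAle)).mpr h.nilpotent_left
  · exact (Group.isNilpotent_congr (Subgroup.subgroupOfEquivOfLe hBle)).mpr h.nilpotent_right

theorem special_of_subtype {A B : Subgroup G} (h : IsRankOnePair A B)
    (hsp : IsSpecialRankOnePair (A.subgroupOf (A ⊔ B)) (B.subgroupOf (A ⊔ B))) :
    IsSpecialRankOnePair A B := by
  refine ⟨h, ?_⟩
  intro a ha ha1 b hb hb1 hc
  have ha' : a ∈ A ⊔ B := Subgroup.mem_sup_left ha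
  have hb' : b ∈ A ⊔ B := Subgroup.mem_sup_right hb
  have h1 := hsp.2 ⟨a, ha'⟩ (Subgroup.mem_subgroupOf.mpr ha) (fun h0 => ha1 (congrArg Subtype.val h0))
    ⟨b, hb'⟩ (Subgroup.mem_subgroupOf.mpr hb) (fun h0 => hb1 (congrArg Subtype.val h0)) (by
      rw [conjBy_subgroupOf, conjBy_subgroupOf]
      show (conjBy A b⁻¹).subgroupOf (A ⊔ B) = (conjBy B a⁻¹).subgroupOf (A ⊔ B)
      rw [hc])
  exact congrArg Subtype.val h1

open scoped IsMulCommutative in
/-- the conjugation action of a subgroup `X` on a commutative subgroup `N` it normalizes -/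
noncomputable def conjAct (X N : Subgroup G) (hc : IsMulCommutative ↥N)
    (hN : ∀ x ∈ X, ∀ n ∈ N, x * n * x⁻¹ ∈ N) : DistribMulAction ↥X (Additive ↥N) where
  smul x n := Additive.ofMul ⟨(x : G) * ((Additive.toMul n : ↥N) : G) * (x : G)⁻¹,
    hN x x.2 _ (Additive.toMul n).2⟩
  one_smul n := by
    apply Additive.toMul.injective
    apply Subtype.ext
    show (1 : G) * ((Additive.toMul n : ↥N) : G) * (1 : G)⁻¹ = ((Additive.toMul n : ↥N) : G)
    simp
  mul_smul x y n := by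
    apply Additive.toMul.injective
    apply Subtype.ext
    show ((x : G) * (y : G)) * ((Additive.toMul n : ↥N) : G) * ((x : G) * (y : G))⁻¹ =
      (x : G) * ((y : G) * ((Additive.toMul n : ↥N) : G) * (y : G)⁻¹) * (x : G)⁻¹
    group
  smul_zero x := by
    apply Additive.toMul.injective
    apply Subtype.ext
    show (x : G) * (1 : G) * (x : G)⁻¹ = 1
    simp
  smul_add x n m := by
    apply Additive.toMul.injective
    apply Subtype.ext
    show (x : G) * (((Additive.toMul n : ↥N) : G) * ((Additive.toMul m : ↥N) : G)) * (x : G)⁻¹ =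
      ((x : G) * ((Additive.toMul n : ↥N) : G) * (x : G)⁻¹) *
        ((x : G) * ((Additive.toMul m : ↥N) : G) * (x : G)⁻¹)
    group

open scoped IsMulCommutative in
/-- the quadratic criterion for speciality (`S5019`), for the conjugation action on an abelian
normalized subgroup -/
theorem special_of_quad_conj {A B N : Subgroup G} (h : IsRankOnePair A B)
    (hAc : IsMulCommutative A) (hBc : IsMulCommutative B) (hNc : IsMulCommutative N)
    (hN : ∀ x ∈ A ⊔ B, ∀ n ∈ N, x * n * x⁻¹ ∈ N)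
    (hq : ∀ a ∈ A, ∀ a' ∈ A, ∀ n ∈ N, a' * (a * n * a⁻¹ * n⁻¹) * a'⁻¹ = a * n * a⁻¹ * n⁻¹)
    (hX : ∃ x ∈ A ⊔ B, ∃ y ∈ A ⊔ B, ∃ n ∈ N,
      y * (x * n * x⁻¹ * n⁻¹) * y⁻¹ ≠ x * n * x⁻¹ * n⁻¹) : IsSpecialRankOnePair A B := by
  letI := conjAct (A ⊔ B) N hNc hN
  apply special_of_subtype h
  have hab : HasAbelianUnipotents (A.subgroupOf (A ⊔ B)) (B.subgroupOf (A ⊔ B)) := by
    constructor
    · refine ⟨⟨fun x y => ?_⟩⟩
      apply Subtype.ext; apply Subtype.ext
      exact comm_of_isMulCommutative hAc (Subgroup.mem_subgroupOf.mp x.2)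
        (Subgroup.mem_subgroupOf.mp y.2)
    · refine ⟨⟨fun x y => ?_⟩⟩
      apply Subtype.ext; apply Subtype.ext
      exact comm_of_isMulCommutative hBc (Subgroup.mem_subgroupOf.mp x.2)
        (Subgroup.mem_subgroupOf.mp y.2)
  refine special_of_quad (N := Additive ↥N) (rankOneGroup_subtype h) hab ?_ ?_
  · intro a ha a' ha' n
    have key := hq (a : G) (Subgroup.mem_subgroupOf.mp ha) (a' : G) (Subgroup.mem_subgroupOf.mp ha')
      ((Additive.toMul n : ↥N) : G) (Additive.toMul n).2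
    apply Additive.toMul.injective
    apply Subtype.ext
    show (a' : G) * ((a : G) * ((Additive.toMul n : ↥N) : G) * (a : G)⁻¹ /
      ((Additive.toMul n : ↥N) : G)) * (a' : G)⁻¹ =
      (a : G) * ((Additive.toMul n : ↥N) : G) * (a : G)⁻¹ / ((Additive.toMul n : ↥N) : G)
    rw [div_eq_mul_inv]
    exact key
  · obtain ⟨x, hx, y, hy, n, hn, hne⟩ := hX
    refine ⟨⟨x, hx⟩, ⟨y, hy⟩, Additive.ofMul ⟨n, hn⟩, ?_⟩
    intro heq
    apply hne
    have h1 := congrArg (fun m : Additive ↥N => ((Additive.toMul m : ↥N) : G)) heq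
    have h2 : y * (x * n * x⁻¹ / n) * y⁻¹ = x * n * x⁻¹ / n := h1
    rw [div_eq_mul_inv] at h2
    exact h2

/-- a rank one pair `A, B` of root subgroups with `⁅B, E⁆ ∈ S` and `⁅A, ⁅B, E⁆⁆ = E` is special -/
theorem special_of_commutator_chain {S : Set (Subgroup G)} (hS : IsRootSubgroupSet S)
    {A B E : Subgroup G} (hA : A ∈ S) (hB : B ∈ S) (hAB : IsRankOnePair A B) (hE : E ∈ S)
    (hF : ⁅B, E⁆ ∈ S) (hAF : ⁅A, ⁅B, E⁆⁆ = E) : IsSpecialRankOnePair A B := by
  have hBE := rootCommutatorCase_of_mem hS hB hE hF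
  have hAFS : ⁅A, ⁅B, E⁆⁆ ∈ S := by rw [hAF]; exact hE
  have hAFc := rootCommutatorCase_of_mem hS hA hF hAFS
  have hAni := not_isolated_of_partner hA hB hAB
  have hBni := not_isolated_of_partner hB hA (RankOnePair_symm hAB)
  obtain ⟨F, hFdef⟩ : ∃ F : Subgroup G, F = ⁅B, E⁆ := ⟨_, rfl⟩
  rw [← hFdef] at hF hAF hAFc
  have f1 : ∀ f ∈ F, ∀ x ∈ B ⊔ E, f * x = x * f := by
    intro f hf x hx
    exact hBE.2.1 f (hFdef ▸ hf) x hx
  have f2 : ∀ e ∈ E, ∀ x ∈ A ⊔ F, e * x = x * e := by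
    intro e he x hx
    exact hAFc.2.1 e (hAF.symm ▸ he) x hx
  have hFE : ∀ f ∈ F, ∀ e ∈ E, f * e = e * f := fun f hf e he =>
    f1 f hf e (Subgroup.mem_sup_right he)
  have hFEbot : ⁅F, E⁆ = ⊥ := by
    rw [Subgroup.commutator_eq_bot_iff_le_centralizer]
    intro f hf
    rw [Subgroup.mem_centralizer_iff]
    intro e he
    exact (hFE f hf e he).symm
  have hNc : IsMulCommutative ↥(F ⊔ E) :=
    isMulCommutative_sup (hS.commutative F hF) (hS.commutative E hE) hFEbot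
  have hAn : ∀ a ∈ A, ∀ n ∈ F ⊔ E, a * n * a⁻¹ * n⁻¹ ∈ E := by
    intro a ha n hn
    obtain ⟨f, hf, e, he, rfl⟩ := mem_sup_of_comm hFE hn
    have hea : e * a⁻¹ = a⁻¹ * e := f2 e he a⁻¹ (Subgroup.mem_sup_left (A.inv_mem ha))
    have e1 : a * (f * e) * a⁻¹ * (f * e)⁻¹ = a * f * (e * a⁻¹) * e⁻¹ * f⁻¹ := by group
    have e2 : a * f * (a⁻¹ * e) * e⁻¹ * f⁻¹ = a * f * a⁻¹ * f⁻¹ := by group
    rw [e1, hea, e2]
    have := Subgroup.commutator_mem_commutator ha hf
    rw [hAF, commutatorElement_def] at this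
    exact this
  have hBn : ∀ b ∈ B, ∀ n ∈ F ⊔ E, b * n * b⁻¹ * n⁻¹ ∈ F := by
    intro b hb n hn
    obtain ⟨f, hf, e, he, rfl⟩ := mem_sup_of_comm hFE hn
    have hfb : f * b = b * f := f1 f hf b (Subgroup.mem_sup_left hb)
    have e1 : b * (f * e) * b⁻¹ * (f * e)⁻¹ = (b * f) * (e * b⁻¹ * e⁻¹) * f⁻¹ := by group
    have e2 : (f * b) * (e * b⁻¹ * e⁻¹) * f⁻¹ = f * (b * e * b⁻¹ * e⁻¹) * f⁻¹ := by group
    rw [e1, ← hfb, e2]
    have := Subgroup.commutator_mem_commutator hb he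
    rw [← hFdef, commutatorElement_def] at this
    exact F.mul_mem (F.mul_mem hf this) (F.inv_mem hf)
  have hNn : ∀ x ∈ A ⊔ B, ∀ n ∈ F ⊔ E, x * n * x⁻¹ ∈ F ⊔ E := by
    intro x hx
    refine sup_induction' (C := fun x => ∀ n ∈ F ⊔ E, x * n * x⁻¹ ∈ F ⊔ E) hx ?_ ?_ ?_ ?_
    · intro a ha n hn
      have e : a * n * a⁻¹ = (a * n * a⁻¹ * n⁻¹) * n := by group
      rw [e]
      exact Subgroup.mul_mem _ (Subgroup.mem_sup_right (hAn a ha n hn)) hn
    · intro b hb n hn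
      have e : b * n * b⁻¹ = (b * n * b⁻¹ * n⁻¹) * n := by group
      rw [e]
      exact Subgroup.mul_mem _ (Subgroup.mem_sup_left (hBn b hb n hn)) hn
    · intro n hn; simpa using hn
    · intro x y hx hy n hn
      have e : x * y * n * (x * y)⁻¹ = x * (y * n * y⁻¹) * x⁻¹ := by group
      rw [e]
      exact hx _ (hy n hn)
  refine special_of_quad_conj hAB (hS.commutative A hA) (hS.commutative B hB) hNc hNn ?_ ?_
  · intro a ha a' ha' n hn
    rw [← f2 _ (hAn a ha n hn) a' (Subgroup.mem_sup_left ha'), mul_inv_cancel_right]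
  · obtain ⟨b, hb, hb1⟩ := exists_ne_one_right hAB
    obtain ⟨a, ha, ha1⟩ := exists_ne_one_left hAB
    obtain ⟨e, he, he1⟩ := exists_ne_one_of_ne_bot (hS.ne_bot E hE)
    refine ⟨b, Subgroup.mem_sup_right hb, a, Subgroup.mem_sup_left ha, e,
      Subgroup.mem_sup_right he, ?_⟩
    intro heq
    have hf0 : b * e * b⁻¹ * e⁻¹ ∈ F := by
      have := Subgroup.commutator_mem_commutator hb he
      rw [← hFdef, commutatorElement_def] at this
      exact this
    have hcomm : a * (b * e * b⁻¹ * e⁻¹) = (b * e * b⁻¹ * e⁻¹) * a := by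
      calc a * (b * e * b⁻¹ * e⁻¹) = (a * (b * e * b⁻¹ * e⁻¹) * a⁻¹) * a := by group
        _ = (b * e * b⁻¹ * e⁻¹) * a := by rw [heq]
    have h1 : b * e * b⁻¹ * e⁻¹ = 1 :=
      eq_one_of_comm_of_commCase hS hAni hA hAFc ha ha1 hf0 hcomm
    have hbe : b * e = e * b := by
      calc b * e = (b * e * b⁻¹ * e⁻¹) * (e * b) := by group
        _ = e * b := by rw [h1, one_mul]
    exact he1 (eq_one_of_comm_of_commCase hS hBni hB hBE hb hb1 he hbe)

/-- line partners are preserved by conjugation -/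
theorem linePartners_conj {S : Set (Subgroup G)} (hS : IsRootSubgroupSet S) {A B : Subgroup G}
    (h : B ∈ linePartners S A) (g : G) : conjBy B g ∈ linePartners S (conjBy A g) := by
  obtain ⟨⟨hBS, hBA, hcomm⟩, hp1, hp2, hp3⟩ := h
  refine ⟨⟨hS.conj_mem B hBS g, fun h0 => hBA (conjBy_inj.mp h0), ?_⟩, ?_, ?_, ?_⟩
  · rw [← conjBy_commutator, hcomm, conjBy_bot]
  · intro C hC; exact hC.2
  · intro x hx hx1
    rw [← conjBy_sup, mem_conjBy] at hx
    have hx1' : g⁻¹ * x * g ≠ 1 := by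
      intro h0
      apply hx1
      have : x = g * (g⁻¹ * x * g) * g⁻¹ := by group
      rw [this, h0]; group
    obtain ⟨C, ⟨hCS, hCle⟩, hxC⟩ := hp2 _ hx hx1'
    refine ⟨conjBy C g, ⟨hS.conj_mem C hCS g, ?_⟩, mem_conjBy.mpr hxC⟩
    rw [← conjBy_sup]
    exact conjBy_mono hCle g
  · intro C hC D hD hCD
    have hmem : ∀ K ∈ membersIn S (conjBy A g ⊔ conjBy B g), conjBy K g⁻¹ ∈ membersIn S (A ⊔ B) := by
      intro K hK
      refine ⟨hS.conj_mem K hK.1 g⁻¹, ?_⟩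
      have h1 := hK.2
      rw [← conjBy_sup] at h1
      have h2 := conjBy_mono h1 g⁻¹
      rw [conjBy_conjBy, inv_mul_cancel, conjBy_one] at h2
      exact h2
    have h3 := hp3 _ (hmem C hC) _ (hmem D hD) (fun h0 => hCD (conjBy_inj.mp h0))
    rw [eq_bot_iff]
    rintro x ⟨hxC, hxD⟩
    have h4 : g⁻¹ * x * g⁻¹⁻¹ ∈ conjBy C g⁻¹ ⊓ conjBy D g⁻¹ :=
      ⟨conj_mem_conjBy hxC, conj_mem_conjBy hxD⟩
    rw [h3, Subgroup.mem_bot] at h4
    rw [Subgroup.mem_bot]
    have : x = g * (g⁻¹ * x * g⁻¹⁻¹) * g⁻¹ := by group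
    rw [this, h4]; group

/-- in a class of root subgroups with some rank one pair, no member is isolated -/
theorem not_isolated_of_class {S : Set (Subgroup G)} (hS : IsRootSubgroupClass S)
    (hr : ∃ A ∈ S, ∃ B ∈ S, IsRankOnePair A B) {D : Subgroup G} (hD : D ∈ S) :
    ¬ IsIsolatedIn (FAdj S) S D := by
  obtain ⟨A, hA, B, hB, hAB⟩ := hr
  obtain ⟨g, rfl⟩ := hS.2.2 A hA D hD
  exact not_isolated_of_partner (hS.1.conj_mem A hA g) (hS.1.conj_mem B hB g)
    (rankOnePair_conj hAB g)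

/-- in a non-degenerate class every member has a line partner -/
theorem exists_linePartner {S : Set (Subgroup G)} (hS : IsRootSubgroupClass S)
    (hnd : IsNondegenerateRootSet S) {A : Subgroup G} (hA : A ∈ S) :
    ∃ B, B ∈ linePartners S A := by
  obtain ⟨A₁, hA₁, B₁, hB₁, hc⟩ := hnd.2.2
  have hni := not_isolated_of_class hS hnd.2.1 hA₁
  have hl := (commutator_partition hS.1 hni hA₁ hB₁ hc.1).2.2.1
  obtain ⟨g, rfl⟩ := hS.2.2 _ hc.1 A hA
  exact ⟨_, linePartners_conj hS.1 hl g⟩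

/-- `S5034` -/
theorem nondegenerate_rankOne_special {S : Set (Subgroup G)} (hS : IsRootSubgroupClass S)
    (hnd : IsNondegenerateRootSet S) {A B : Subgroup G} (hA : A ∈ S)
    (hB : B ∈ rankOnePartners S A) :
    (∃ C ∈ linePartners S A, C ∈ commutatorPartners S B) ∧ IsSpecialRankOnePair A B := by
  obtain ⟨B₀, hB₀⟩ := exists_linePartner hS hnd hA
  have hB₀ni := not_isolated_of_class hS hnd.2.1 hB₀.1.1
  obtain ⟨E, ⟨hES, hEle⟩, hEA, hF, hAF, hsup⟩ :=
    exists_commPartner_on_line hS.1 hA hB.1 hB.2 hB₀ hB₀ni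
  refine ⟨⟨E, ⟨⟨hES, hEA, ?_⟩, ?_⟩, hES, hF⟩,
    special_of_commutator_chain hS.1 hA hB.1 hB.2 hES hF hAF⟩
  · have hc : IsMulCommutative ↥(A ⊔ B₀) :=
      isMulCommutative_sup (hS.1.commutative A hA) (hS.1.commutative B₀ hB₀.1.1) hB₀.1.2.2
    rw [← hsup] at hc
    exact commutator_eq_bot_of_isMulCommutative_sup hc
  · rw [hsup]; exact hB₀.2

end Cfsg.Agent.Helper26
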