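import Mathlib
import Cfsg.Agent.Helper26.RootSpecial

set_option autoImplicit false

namespace Cfsg.Agent.Helper26

open Cfsg
open scoped commutatorElement

variable {G : Type*} [Group G]

theorem linePartners_symm {S : Set (Subgroup G)} {A B : Subgroup G} (hA : A ∈ S)
    (h : B ∈ linePartners S A) : A ∈ linePartners S B := by
  obtain ⟨⟨hBS, hBA, hcomm⟩, hp⟩ := h
  refine ⟨⟨hA, Ne.symm hBA, ?_⟩, ?_⟩
  · rw [Subgroup.commutator_comm]; exact hcomm
  · rw [sup_comm]; exact hp

theorem eAdj_symm {S : Set (Subgroup G)} {A B : Subgroup G} (h : EAdj S S A B) : EAdj S S B A :=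
  ⟨h.2.1, h.1, linePartners_symm h.1 h.2.2⟩

theorem eReach_symm {S : Set (Subgroup G)} {A B : Subgroup G}
    (h : Relation.ReflTransGen (EAdj S S) A B) : Relation.ReflTransGen (EAdj S S) B A := by
  induction h with
  | refl => exact Relation.ReflTransGen.refl
  | @tail C D _ hstep ih => exact Relation.ReflTransGen.head (eAdj_symm hstep) ih

/-- in the commutator case, `C` and its conjugate under `d ∈ D` are joined through `⁅C, D⁆` -/
theorem eReach_conj_of_commCase {S : Set (Subgroup G)} (hS : IsRootSubgroupSet S)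
    {C D : Subgroup G} (hC : C ∈ S) (hD : D ∈ S) (hni : ¬ IsIsolatedIn (FAdj S) S C)
    (h : ⁅C, D⁆ ∈ S) {d : G} (hd : d ∈ D) :
    Relation.ReflTransGen (EAdj S S) C (conjBy C d) := by
  have hcase := rootCommutatorCase_of_mem hS hC hD h
  have hl := (commutator_partition hS hni hC hD h).2.2.1
  have h1 : EAdj S S ⁅C, D⁆ C := ⟨h, hC, hl⟩
  have hl' := linePartners_conj hS hl d
  have hfix : conjBy ⁅C, D⁆ d = ⁅C, D⁆ :=
    conjBy_eq_of_forall_comm (fun k hk => hcase.2.1 k hk d (Subgroup.mem_sup_right hd))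
  rw [hfix] at hl'
  have h2 : EAdj S S ⁅C, D⁆ (conjBy C d) := ⟨h, hS.conj_mem C hC d, hl'⟩
  exact Relation.ReflTransGen.head (eAdj_symm h1) (Relation.ReflTransGen.single h2)

/-- in a non-degenerate class, `A` and its conjugate under an element of a root subgroup are joined
in the graph of line partners -/
theorem eReach_conj_of_mem {S : Set (Subgroup G)} (hS : IsRootSubgroupClass S)
    (hnd : IsNondegenerateRootSet S) {A D : Subgroup G} (hA : A ∈ S) (hD : D ∈ S) {d : G}
    (hd : d ∈ D) : Relation.ReflTransGen (EAdj S S) A (conjBy A d) := by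
  have hni : ∀ K ∈ S, ¬ IsIsolatedIn (FAdj S) S K := fun K hK =>
    not_isolated_of_class hS hnd.2.1 hK
  rcases hS.1.pair A hA D hD with h | h | h
  · have hfix : conjBy A d = A :=
      conjBy_eq_of_forall_comm (fun a ha => comm_of_commutator_eq_bot h ha hd)
    rw [hfix]
  · obtain ⟨C, hCl, hCS, hDC⟩ := (nondegenerate_rankOne_special hS hnd hA ⟨hD, h⟩).1
    have hCD : ⁅C, D⁆ ∈ S := by rw [Subgroup.commutator_comm]; exact hDC
    have h1 : EAdj S S A C := ⟨hA, hCS, hCl⟩
    have h2 := eReach_conj_of_commCase hS.1 hCS hD (hni C hCS) hCD hd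
    have h3 : EAdj S S (conjBy A d) (conjBy C d) :=
      ⟨hS.1.conj_mem A hA d, hS.1.conj_mem C hCS d, linePartners_conj hS.1 hCl d⟩
    exact Relation.ReflTransGen.head h1 (h2.trans (Relation.ReflTransGen.single (eAdj_symm h3)))
  · exact eReach_conj_of_commCase hS.1 hA hD (hni A hA) h.1 hd

/-- `S5041` -/
theorem nondegenerate_graphs_connected {S : Set (Subgroup G)} (hS : IsRootSubgroupClass S)
    (hnd : IsNondegenerateRootSet S) :
    IsConnectedFamily (EAdj S S) S ∧ IsConnectedFamily (DAdj S) S := by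
  have key : ∀ g : G, ∀ A ∈ S, Relation.ReflTransGen (EAdj S S) A (conjBy A g) := by
    intro g
    have hg : g ∈ ⨆ D ∈ S, D := by rw [hS.1.generates]; exact Subgroup.mem_top g
    refine biSup_induction
      (C := fun g => ∀ A ∈ S, Relation.ReflTransGen (EAdj S S) A (conjBy A g)) hg ?_ ?_ ?_
    · intro D hD d hd A hA
      exact eReach_conj_of_mem hS hnd hA hD hd
    · intro A hA
      rw [conjBy_one]
    · intro x y hx hy A hA
      rw [← conjBy_conjBy]
      exact (hy A hA).trans (hx _ (hS.1.conj_mem A hA y))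
  have hE : IsConnectedFamily (EAdj S S) S := by
    intro A hA B hB
    obtain ⟨g, rfl⟩ := hS.2.2 A hA B hB
    exact key g A hA
  refine ⟨hE, ?_⟩
  intro A hA B hB
  refine Relation.ReflTransGen.mono ?_ A B (hE A hA B hB)
  intro K L hKL
  exact ⟨hKL.1, hKL.2.1, Ne.symm hKL.2.2.1.2.1, hKL.2.2.1.2.2⟩

end Cfsg.Agent.Helper26
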