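import Mathlib
import Cfsg.Agent.Helper26.RootGraph

set_option autoImplicit false

namespace Cfsg.Agent.Helper26

open Cfsg
open scoped commutatorElement

variable {G : Type*} [Group G]

/-- the structure of a line `A B` relative to a given rank one partner `C` of `A` -/
theorem line_root_group' {S : Set (Subgroup G)} (hS : IsRootSubgroupSet S)
    (hF : ∀ A ∈ S, ¬ IsIsolatedIn (FAdj S) S A) {A B C : Subgroup G} (hA : A ∈ S)
    (hB : B ∈ linePartners S A) (hC : C ∈ S) (hAC : IsRankOnePair A C) :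
    ∃ E : Subgroup G, E ∈ linePartners S A ∧ E ≤ A ⊔ B ∧ ⁅C, E⁆ ∈ S ∧ ⁅A, ⁅C, E⁆⁆ = E ∧
      A ⊔ E = A ⊔ B ∧
      membersIn S (A ⊔ B) = (fun f : G => conjBy A f) '' ((⁅C, E⁆ : Subgroup G) : Set G) ∪ {E} := by
  obtain ⟨E, hE, hEA, hCE, hback, hsup⟩ :=
    exists_commPartner_on_line hS hA hC hAC hB (hF B hB.1.1)
  have hK : ⁅A, ⁅C, E⁆⁆ ∈ S := by rw [hback]; exact hE.1
  refine ⟨E, ⟨⟨hE.1, hEA, ?_⟩, ?_⟩, hE.2, hCE, hback, hsup, ?_⟩
  · have hc : IsMulCommutative ↥(A ⊔ B) :=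
      isMulCommutative_sup (hS.commutative A hA) (hS.commutative B hB.1.1) hB.1.2.2
    rw [← hsup] at hc
    exact commutator_eq_bot_of_isMulCommutative_sup hc
  · rw [hsup]; exact hB.2
  · have h1 := (commutator_partition hS (hF A hA) hA hCE hK).1
    rw [hback, hsup] at h1
    exact h1

/-- two different members of a line span it -/
theorem line_span {S : Set (Subgroup G)} (hS : IsRootSubgroupSet S)
    (hF : ∀ A ∈ S, ¬ IsIsolatedIn (FAdj S) S A) {A B : Subgroup G} (hA : A ∈ S)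
    (hB : B ∈ linePartners S A) {D₁ D₂ : Subgroup G} (h1 : D₁ ∈ membersIn S (A ⊔ B))
    (h2 : D₂ ∈ membersIn S (A ⊔ B)) (hne : D₁ ≠ D₂) : D₁ ⊔ D₂ = A ⊔ B := by
  obtain ⟨x, hx, hx1, hx2⟩ := line_two_transitive hS hF hA hB A ⟨hA, le_sup_left⟩ B
    ⟨hB.1.1, le_sup_right⟩ D₁ h1 D₂ h2 (Ne.symm hB.1.2.1) hne
  have hle : (⨆ E ∈ normalizingMembers S (A ⊔ B), E) ≤
      Subgroup.normalizer ((A ⊔ B : Subgroup G) : Set G) := iSup₂_le (fun K hK => hK.2)
  have hn : conjBy (A ⊔ B) x = A ⊔ B := conjBy_eq_self_iff.mpr (hle hx)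
  rw [← hx1, ← hx2, ← conjBy_sup, hn]

/-- two different members of a line are line partners -/
theorem linePartners_of_line {S : Set (Subgroup G)} (hS : IsRootSubgroupSet S)
    (hF : ∀ A ∈ S, ¬ IsIsolatedIn (FAdj S) S A) {A B : Subgroup G} (hA : A ∈ S)
    (hB : B ∈ linePartners S A) {D₁ D₂ : Subgroup G} (h1 : D₁ ∈ membersIn S (A ⊔ B))
    (h2 : D₂ ∈ membersIn S (A ⊔ B)) (hne : D₁ ≠ D₂) : D₂ ∈ linePartners S D₁ := by
  have hsp := line_span hS hF hA hB h1 h2 hne
  refine ⟨⟨h2.1, Ne.symm hne, ?_⟩, ?_⟩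
  · have hc : IsMulCommutative ↥(A ⊔ B) :=
      isMulCommutative_sup (hS.commutative A hA) (hS.commutative B hB.1.1) hB.1.2.2
    rw [← hsp] at hc
    exact commutator_eq_bot_of_isMulCommutative_sup hc
  · rw [hsp]; exact hB.2

/-- in a non-degenerate class, `A` lies in the subgroup generated by its line partners -/
theorem le_iSup_linePartners {S : Set (Subgroup G)} (hS : IsRootSubgroupClass S)
    (hnd : IsNondegenerateRootSet S) {A : Subgroup G} (hA : A ∈ S) :
    A ≤ ⨆ C ∈ linePartners S A, C := by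
  have hF : ∀ K ∈ S, ¬ IsIsolatedIn (FAdj S) S K := fun K hK =>
    not_isolated_of_class hS hnd.2.1 hK
  obtain ⟨B₀, hB₀⟩ := exists_linePartner hS hnd hA
  obtain ⟨E, F, hE, hEA, -, hFE, hFA, hFne, -, hP, -, -⟩ := line_root_group hS.1 hF hA hB₀
  obtain ⟨f, hf, hf1⟩ := exists_ne_one_of_ne_bot hFne
  have hAmem : A ∈ membersIn S (A ⊔ B₀) := ⟨hA, le_sup_left⟩
  have hD : conjBy A f ∈ membersIn S (A ⊔ B₀) := by
    rw [hP]; left; exact ⟨f, hf, rfl⟩
  have hDA : A ≠ conjBy A f := fun h => hFA f hf hf1 h.symm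
  have hDE : conjBy A f ≠ E := by
    intro h
    rw [← hFE f hf] at h
    exact hEA (conjBy_inj.mp h).symm
  have h1 := linePartners_of_line hS.1 hF hA hB₀ hAmem hD hDA
  have h2 := linePartners_of_line hS.1 hF hA hB₀ hAmem hE (Ne.symm hEA)
  have h3 := line_span hS.1 hF hA hB₀ hD hE hDE
  have h4 : A ≤ conjBy A f ⊔ E := by rw [h3]; exact le_sup_left
  refine h4.trans (sup_le ?_ ?_)
  · exact le_iSup₂ (f := fun (K : Subgroup G) (_ : K ∈ linePartners S A) => K) _ h1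
  · exact le_iSup₂ (f := fun (K : Subgroup G) (_ : K ∈ linePartners S A) => K) _ h2

/-- if a subgroup `H` contains a rank one partner `B` of `A` and all line partners of `A`, then
every line partner of `A` is conjugate to `A` under `H` -/
theorem linePartner_conj_of_le {S : Set (Subgroup G)} (hS : IsRootSubgroupClass S)
    (hnd : IsNondegenerateRootSet S) {A B H : Subgroup G} (hA : A ∈ S)
    (hB : B ∈ rankOnePartners S A) (hBH : B ≤ H) (hΛ : ∀ T ∈ linePartners S A, T ≤ H)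
    {E : Subgroup G} (hE : E ∈ linePartners S A) : ∃ h ∈ H, E = conjBy A h := by
  have hF : ∀ K ∈ S, ¬ IsIsolatedIn (FAdj S) S K := fun K hK =>
    not_isolated_of_class hS hnd.2.1 hK
  obtain ⟨E', hE'l, hE'le, hF', hback, hsup, hP⟩ := line_root_group' hS.1 hF hA hE hB.1 hB.2
  have hAmem : A ∈ membersIn S (A ⊔ E) := ⟨hA, le_sup_left⟩
  have hEmem : E ∈ membersIn S (A ⊔ E) := ⟨hE.1.1, le_sup_right⟩
  have hE'mem : E' ∈ membersIn S (A ⊔ E) := ⟨hE'l.1.1, hE'le⟩
  have hE'S : E' ∈ S := hE'l.1.1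
  have hFH : ⁅B, E'⁆ ≤ H := by
    rw [Subgroup.commutator_le]
    intro b hb e he
    have h1 := H.mul_mem (H.mul_mem (H.mul_mem (hBH hb) (hΛ E' hE'l he)) (H.inv_mem (hBH hb)))
      (H.inv_mem (hΛ E' hE'l he))
    rw [commutatorElement_def]
    exact h1
  have hEcase : E = E' → ∃ h ∈ H, E = conjBy A h := by
    intro hEE'
    -- an element swapping `A` and `E'`
    obtain ⟨x, -, hx1, hx2⟩ := line_two_transitive hS.1 hF hA hE A hAmem E' hE'mem E' hE'mem A hAmem
      (Ne.symm hE'l.1.2.1) hE'l.1.2.1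
    have hE'B : ⁅E', B⁆ ∈ S := by rw [Subgroup.commutator_comm]; exact hF'
    have hl1 : ⁅E', B⁆ ∈ linePartners S E' :=
      linePartners_symm hE'B (commutator_partition hS.1 (hF E' hE'S) hE'S hB.1 hE'B).2.2.1
    have hl2 := linePartners_conj hS.1 hl1 x
    rw [hx2] at hl2
    obtain ⟨T, hTdef⟩ : ∃ T : Subgroup G, T = conjBy ⁅E', B⁆ x := ⟨_, rfl⟩
    rw [← hTdef] at hl2
    have hTS : T ∈ S := hl2.1.1
    have hE'T : ⁅E', T⁆ = A := by
      have h1 : conjBy ⁅A, ⁅B, E'⁆⁆ x = conjBy E' x := congrArg (fun K => conjBy K x) hback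
      rw [conjBy_commutator, hx1, hx2, Subgroup.commutator_comm B E', ← hTdef] at h1
      exact h1
    have hE'TS : ⁅E', T⁆ ∈ S := by rw [hE'T]; exact hA
    have hcase := rootCommutatorCase_of_mem hS.1 hE'S hTS hE'TS
    obtain ⟨t, ht, ht1⟩ := exists_ne_one_of_ne_bot (hS.1.ne_bot T hTS)
    have hAt : ∀ s ∈ T, conjBy A s = A := fun s hs =>
      conjBy_eq_of_forall_comm (fun a ha => comm_of_commutator_eq_bot hl2.1.2.2 ha hs)
    -- the point `P = t⁻¹ E' t` of the line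
    obtain ⟨P, hPdef⟩ : ∃ P : Subgroup G, P = conjBy E' t⁻¹ := ⟨_, rfl⟩
    have hPS : P ∈ S := by rw [hPdef]; exact hS.1.conj_mem E' hE'S t⁻¹
    have hPle : P ≤ A ⊔ E' := by
      have h1 := conjBy_le_sup_commutator (A := E') (B := T) (T.inv_mem ht)
      rw [hE'T, sup_comm] at h1
      rw [hPdef]; exact h1
    have hPmem : P ∈ membersIn S (A ⊔ E) := ⟨hPS, by rw [← hsup]; exact hPle⟩
    have hPE' : P ≠ E' := by
      rw [hPdef]
      exact (conj_mem_linePartners hS.1 (hF E' hE'S) hE'S hTS hcase (T.inv_mem ht)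
        (inv_ne_one.mpr ht1)).1.2.1
    have hPA : P ≠ A := by
      intro h
      rw [hPdef, ← hAt t⁻¹ (T.inv_mem ht)] at h
      exact hE'l.1.2.1 (conjBy_inj.mp h)
    have hroot : ∀ y ∈ A ⊔ E', y ≠ 1 → y ∈ rootElements S := by
      intro y hy hy1
      rw [hsup] at hy
      obtain ⟨K, hK, hyK⟩ := hE.2.2.1 y hy hy1
      exact ⟨hy1, K, hK.1, hyK⟩
    have hBP : IsRankOnePair B P := by
      by_contra hnot
      exact line_key hS.1 hA hE'S hPS hE'l.1.2.2 (hE.2.2.2 A hAmem E' hE'mem (Ne.symm hE'l.1.2.1))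
        hPle (hE.2.2.2 P hPmem A hAmem hPA) (hE.2.2.2 P hPmem E' hE'mem hPE') hroot hB.1 hB.2
        (fun h => commutator_not_mem_of_rankOne hS.1 hB.1 hE'S h hF') hnot
    obtain ⟨C, hCdef⟩ : ∃ C : Subgroup G, C = conjBy B t := ⟨_, rfl⟩
    have hCS : C ∈ S := by rw [hCdef]; exact hS.1.conj_mem B hB.1 t
    have hAC : IsRankOnePair A C := by
      have h1 := rankOnePair_conj hB.2 t
      rw [hAt t ht, ← hCdef] at h1
      exact h1
    have hCE' : IsRankOnePair C E' := by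
      have h1 := rankOnePair_conj hBP t
      rw [hPdef, conjBy_conjBy, mul_inv_cancel, conjBy_one, ← hCdef] at h1
      exact h1
    have hCH : C ≤ H := by
      rw [hCdef]
      rintro _ ⟨b, hb, rfl⟩
      exact H.mul_mem (H.mul_mem (hΛ T hl2 ht) (hBH hb)) (H.inv_mem (hΛ T hl2 ht))
    obtain ⟨E'', hE''l, -, hF'', -, -, hP''⟩ := line_root_group' hS.1 hF hA hE hCS hAC
    have hF''H : ⁅C, E''⁆ ≤ H := by
      rw [Subgroup.commutator_le]
      intro c hc e he
      have h1 := H.mul_mem (H.mul_mem (H.mul_mem (hCH hc) (hΛ E'' hE''l he)) (H.inv_mem (hCH hc)))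
        (H.inv_mem (hΛ E'' hE''l he))
      rw [commutatorElement_def]
      exact h1
    have hmem := hE'mem
    rw [hP''] at hmem
    rcases hmem with ⟨f, hf, hfe⟩ | h
    · exact ⟨f, hF''H hf, by rw [hEE']; exact hfe.symm⟩
    · have h' : E' = E'' := h
      rw [← h'] at hF''
      exact absurd hF'' (commutator_not_mem_of_rankOne hS.1 hCS hE'S hCE')
  by_cases hEE' : E = E'
  · exact hEcase hEE'
  · have hmem := hEmem
    rw [hP] at hmem
    rcases hmem with ⟨f, hf, hfe⟩ | h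
    · exact ⟨f, hFH hf, hfe.symm⟩
    · exact absurd h hEE'

/-- `S5042` -/
theorem generated_by_linePartners {S : Set (Subgroup G)} (hS : IsRootSubgroupClass S)
    (hnd : IsNondegenerateRootSet S) {A B : Subgroup G} (hA : A ∈ S)
    (hB : B ∈ rankOnePartners S A) : (⨆ C ∈ linePartners S A, C) ⊔ B = ⊤ := by
  obtain ⟨H, hHdef⟩ : ∃ H : Subgroup G, H = (⨆ C ∈ linePartners S A, C) ⊔ B := ⟨_, rfl⟩
  rw [← hHdef]
  have hBH : B ≤ H := by rw [hHdef]; exact le_sup_right
  have hΛ : ∀ T ∈ linePartners S A, T ≤ H := by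
    intro T hT
    rw [hHdef]
    exact le_trans (le_iSup₂ (f := fun (K : Subgroup G) (_ : K ∈ linePartners S A) => K) T hT)
      le_sup_left
  have hAH : A ≤ H := by
    rw [hHdef]
    exact le_trans (le_iSup_linePartners hS hnd hA) le_sup_left
  have key : ∀ D : Subgroup G, Relation.ReflTransGen (EAdj S S) A D → ∃ h ∈ H, D = conjBy A h := by
    intro D hD
    induction hD with
    | refl => exact ⟨1, H.one_mem, (conjBy_one A).symm⟩
    | @tail D D' _ hstep ih =>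
      obtain ⟨h, hh, rfl⟩ := ih
      have h1 := linePartners_conj hS.1 hstep.2.2 h⁻¹
      rw [conjBy_conjBy, inv_mul_cancel, conjBy_one] at h1
      obtain ⟨h', hh', e⟩ := linePartner_conj_of_le hS hnd hA hB hBH hΛ h1
      refine ⟨h * h', H.mul_mem hh hh', ?_⟩
      rw [← conjBy_conjBy, ← e, conjBy_conjBy, mul_inv_cancel, conjBy_one]
  rw [eq_top_iff, ← hS.1.generates]
  refine iSup₂_le (fun D hD => ?_)
  obtain ⟨h, hh, rfl⟩ := key D ((nondegenerate_graphs_connected hS hnd).1 A hA D hD)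
  rintro _ ⟨a, ha, rfl⟩
  exact H.mul_mem (H.mul_mem hh (hAH ha)) (H.inv_mem hh)

end Cfsg.Agent.Helper26
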