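import Mathlib
import Cfsg.Agent.Helper26.RankOne

set_option autoImplicit false

namespace Cfsg.Agent.Helper26

open Cfsg

variable {G H : Type*} [Group G] [Group H]

theorem map_conjBy (f : G →* H) (A : Subgroup G) (g : G) :
    (conjBy A g).map f = conjBy (A.map f) (f g) := by
  ext x
  constructor
  · rintro ⟨y, ⟨a, ha, rfl⟩, rfl⟩
    refine ⟨f a, ⟨a, ha, rfl⟩, ?_⟩
    show f g * f a * (f g)⁻¹ = f (g * a * g⁻¹)
    rw [map_mul, map_mul, map_inv]
  · rintro ⟨y, ⟨a, ha, rfl⟩, rfl⟩
    refine ⟨g * a * g⁻¹, ⟨a, ha, rfl⟩, ?_⟩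
    show f (g * a * g⁻¹) = f g * f a * (f g)⁻¹
    rw [map_mul, map_mul, map_inv]

theorem isMulCommutative_map (f : G →* H) {A : Subgroup G} (hA : IsMulCommutative A) :
    IsMulCommutative (A.map f) := by
  constructor
  constructor
  rintro ⟨x, a, ha, rfl⟩ ⟨y, b, hb, rfl⟩
  apply Subtype.ext
  show f a * f b = f b * f a
  rw [← map_mul, ← map_mul, comm_of_isMulCommutative hA ha hb]

/-- the image of a rank one pair is a rank one pair unless the images coincide -/
theorem rankOnePair_map (f : G →* H) {A B : Subgroup G} (hA : IsMulCommutative A)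
    (hB : IsMulCommutative B) (h : IsRankOnePair A B) (hne : A.map f ≠ B.map f) :
    IsRankOnePair (A.map f) (B.map f) := by
  have key : ∀ {A B : Subgroup G}, IsRankOnePair A B → A.map f ≠ B.map f →
      RankOneCondition (A.map f) (B.map f) := by
    intro A B h hne a' ha' ha'1
    obtain ⟨a, ha, rfl⟩ := ha'
    have ha1 : a ≠ 1 := by
      rintro rfl
      exact ha'1 (map_one f)
    obtain ⟨b, hb, -, hab⟩ := h.cond_left a ha ha1
    refine ⟨f b, ⟨b, hb, rfl⟩, ?_, ?_⟩
    · intro hfb
      have h1 := congrArg (Subgroup.map f) hab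
      rw [map_conjBy, map_conjBy, map_inv, hfb, inv_one, conjBy_one, map_inv] at h1
      apply hne
      have h2 := conjBy_eq_iff.mp h1.symm
      rw [inv_inv, conjBy_of_mem (A := A.map f) ⟨a, ha, rfl⟩] at h2
      exact h2.symm
    · have h1 := congrArg (Subgroup.map f) hab
      rw [map_conjBy, map_conjBy, map_inv, map_inv] at h1
      exact h1
  exact ⟨hne, isNilpotent_of_isMulCommutative (isMulCommutative_map f hA),
    isNilpotent_of_isMulCommutative (isMulCommutative_map f hB), key h hne,
    key (RankOnePair_symm h) hne.symm⟩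


theorem rootCommutatorCase_map (f : G →* H) {S : Set (Subgroup G)} {A B : Subgroup G}
    (h : RootCommutatorCase S A B) :
    RootCommutatorCase ((fun A : Subgroup G => A.map f) '' S) (A.map f) (B.map f) := by
  obtain ⟨h1, h2, h3, h4⟩ := h
  have hcomm : ⁅A.map f, B.map f⁆ = (⁅A, B⁆).map f := (Subgroup.map_commutator A B f).symm
  refine ⟨?_, ?_, ?_, ?_⟩
  · rw [hcomm]
    exact ⟨_, h1, rfl⟩
  · rw [hcomm, ← Subgroup.map_sup]
    rintro _ ⟨c, hc, rfl⟩ _ ⟨x, hx, rfl⟩
    rw [← map_mul, ← map_mul, h2 c hc x hx]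
  · rintro _ ⟨a, ha, rfl⟩ ha1
    have ha1' : a ≠ 1 := by
      rintro rfl
      exact ha1 (map_one f)
    rw [hcomm, ← h3 a ha ha1', MonoidHom.map_closure]
    congr 1
    ext x
    constructor
    · rintro ⟨_, ⟨b, hb, rfl⟩, rfl⟩
      exact ⟨_, ⟨b, hb, rfl⟩, by simp only [map_mul, map_inv]⟩
    · rintro ⟨_, ⟨b, hb, rfl⟩, rfl⟩
      exact ⟨f b, ⟨b, hb, rfl⟩, by simp only [map_mul, map_inv]⟩
  · rintro _ ⟨b, hb, rfl⟩ hb1
    have hb1' : b ≠ 1 := by
      rintro rfl
      exact hb1 (map_one f)
    rw [hcomm, ← h4 b hb hb1', MonoidHom.map_closure]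
    congr 1
    ext x
    constructor
    · rintro ⟨_, ⟨a, ha, rfl⟩, rfl⟩
      exact ⟨_, ⟨a, ha, rfl⟩, by simp only [map_mul, map_inv]⟩
    · rintro ⟨_, ⟨a, ha, rfl⟩, rfl⟩
      exact ⟨f a, ⟨a, ha, rfl⟩, by simp only [map_mul, map_inv]⟩

/-- `S5035`: homomorphic images of sets of abstract root subgroups -/
theorem rootSet_map {S : Set (Subgroup G)} (hS : IsRootSubgroupSet S)
    (hc : IsConnectedFamily (FAdj S) S) (f : G →* H) (hf : Function.Surjective f) :
    (IsRootSubgroupSet ((fun A : Subgroup G => A.map f) '' S) ∧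
      IsConnectedFamily (FAdj ((fun A : Subgroup G => A.map f) '' S))
        ((fun A : Subgroup G => A.map f) '' S)) ∨
    ∃ A ∈ S, A.map f = ⊤ := by
  have hgen : (⨆ A' ∈ (fun A : Subgroup G => A.map f) '' S, A') = ⊤ := by
    rw [iSup_image]
    have h1 : (⨆ A ∈ S, A.map f) = (⨆ A ∈ S, A).map f := by
      simp only [Subgroup.map_iSup]
    rw [h1, hS.generates]
    exact Subgroup.map_top_of_surjective f hf
  by_cases hbot : ∃ A ∈ S, A.map f = ⊥
  · right
    obtain ⟨A, hA, hAbot⟩ := hbot
    refine ⟨A, hA, ?_⟩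
    have hall : ∀ B ∈ S, B.map f = ⊥ := by
      intro B hB
      have hpath := hc A hA B hB
      induction hpath with
      | refl => exact hAbot
      | tail _ hstep ih =>
        obtain ⟨hC, hD, hCD⟩ := hstep
        obtain ⟨x, -, hx⟩ := exists_conj_eq hCD
        rw [hx, map_conjBy, ih hC]
        exact Subgroup.map_bot _
    rw [hAbot, ← hgen, iSup_image]
    symm
    rw [eq_bot_iff]
    exact iSup₂_le (fun B hB => (hall B hB).le)
  · left
    simp only [not_exists, not_and] at hbot
    have hroot : IsRootSubgroupSet ((fun A : Subgroup G => A.map f) '' S) := by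
      refine ⟨?_, ?_, hgen, ?_, ?_⟩
      · rintro _ ⟨A, hA, rfl⟩
        exact isMulCommutative_map f (hS.commutative A hA)
      · rintro _ ⟨A, hA, rfl⟩
        exact hbot A hA
      · rintro _ ⟨A, hA, rfl⟩ h
        obtain ⟨g, rfl⟩ := hf h
        exact ⟨conjBy A g, hS.conj_mem A hA g, map_conjBy f A g⟩
      · rintro _ ⟨A, hA, rfl⟩ _ ⟨B, hB, rfl⟩
        rcases hS.pair A hA B hB with h | h | h
        · left
          show ⁅A.map f, B.map f⁆ = ⊥
          rw [← Subgroup.map_commutator, h, Subgroup.map_bot]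
        · by_cases hAB : A.map f = B.map f
          · left
            show ⁅A.map f, B.map f⁆ = ⊥
            rw [← hAB, Subgroup.commutator_eq_bot_iff_le_centralizer]
            intro x hx y hy
            exact comm_of_isMulCommutative (isMulCommutative_map f (hS.commutative A hA)) hy hx
          · right; left
            exact rankOnePair_map f (hS.commutative A hA) (hS.commutative B hB) h hAB
        · right; right
          exact rootCommutatorCase_map f h
    refine ⟨hroot, ?_⟩
    rintro _ ⟨A, hA, rfl⟩ _ ⟨B, hB, rfl⟩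
    have hpath := hc A hA B hB
    induction hpath with
    | refl => exact Relation.ReflTransGen.refl
    | @tail C D _ hstep ih =>
      obtain ⟨hC, hD, hCD⟩ := hstep
      by_cases hne : C.map f = D.map f
      · show Relation.ReflTransGen _ (A.map f) (D.map f)
        rw [← hne]
        exact ih hC
      · exact Relation.ReflTransGen.tail (ih hC) ⟨⟨C, hC, rfl⟩, ⟨D, hD, rfl⟩,
          rankOnePair_map f (hS.commutative C hC) (hS.commutative D hD) hCD hne⟩

end Cfsg.Agent.Helper26
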