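import Mathlib
import Cfsg.Prelude.Def_RootSubgroups
import Cfsg.Prelude.Def_Transfer
import Cfsg.Agent.Helper26.RankOne

set_option autoImplicit false

namespace Cfsg.Agent.Helper26

open Cfsg

variable {G : Type*} [Group G]

/-- `NuRel A B a c`: `c = ν(a)`, i.e. `1 ≠ a ∈ A`, `1 ≠ c ∈ B` and `c A c⁻¹ = a⁻¹ B a`. -/
def NuRel (A B : Subgroup G) (a c : G) : Prop :=
  a ∈ A ∧ a ≠ 1 ∧ c ∈ B ∧ c ≠ 1 ∧ conjBy A c = conjBy B a⁻¹

theorem nuRel_exists {A B : Subgroup G} (h : IsRankOnePair A B) {a : G} (ha : a ∈ A)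
    (ha1 : a ≠ 1) : ∃ c, NuRel A B a c := by
  obtain ⟨b, hb, hb1, hab⟩ := h.cond_left a ha ha1
  exact ⟨b⁻¹, ha, ha1, B.inv_mem hb, by simpa using hb1, hab⟩

theorem nuRel_unique {A B : Subgroup G} (h : IsRankOnePair A B) {a c c' : G}
    (h1 : NuRel A B a c) (h2 : NuRel A B a c') : c = c' := by
  obtain ⟨-, -, hc, -, e1⟩ := h1
  obtain ⟨-, -, hc', -, e2⟩ := h2
  have := rankOne_unique_left h (C := conjBy B a⁻¹) (B.inv_mem hc) (B.inv_mem hc')
    (by simpa using e1) (by simpa using e2)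
  simpa using this

theorem nuRel_inj {A B : Subgroup G} (h : IsRankOnePair A B) {a a' c : G}
    (h1 : NuRel A B a c) (h2 : NuRel A B a' c) : a = a' := by
  obtain ⟨ha, -, -, -, e1⟩ := h1
  obtain ⟨ha', -, -, -, e2⟩ := h2
  exact rankOne_unique_right h (C := conjBy A c) ha ha' e1.symm e2.symm

theorem nuRel_braid {A B : Subgroup G} (hs : IsSpecialRankOnePair A B) {a c : G}
    (h1 : NuRel A B a c) : c * a * c⁻¹ = a⁻¹ * c * a := by
  obtain ⟨ha, ha1, hc, hc1, e1⟩ := h1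
  have := hs.2 a ha ha1 c⁻¹ (B.inv_mem hc) (by simpa using hc1) (by simpa using e1)
  simpa using this

theorem nuRel_conj {A B : Subgroup G} (hs : IsSpecialRankOnePair A B) {a c : G}
    (h1 : NuRel A B a c) : c = (c * a)⁻¹ * a * (c * a) := by
  have hb := nuRel_braid hs h1
  have h2 : (c * a)⁻¹ * a * (c * a) = (a⁻¹ * c * a)⁻¹ * c * a := by group
  rw [h2, ← hb]; group

theorem conj_pow_inv (g x : G) (n : ℕ) : (g⁻¹ * x * g) ^ n = g⁻¹ * x ^ n * g := by
  have := conj_pow (a := g⁻¹) (b := x) (i := n)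
  simpa using this

theorem nuRel_pow {A B : Subgroup G} (hs : IsSpecialRankOnePair A B) {a c : G}
    (h1 : NuRel A B a c) (n : ℕ) : c ^ n = (c * a)⁻¹ * a ^ n * (c * a) := by
  conv_lhs => rw [nuRel_conj hs h1]
  rw [conj_pow_inv]

theorem nuRel_inv {A B : Subgroup G} (hs : IsSpecialRankOnePair A B) {a c : G}
    (h1 : NuRel A B a c) : NuRel A B a⁻¹ c⁻¹ := by
  have hb := nuRel_braid hs h1
  obtain ⟨ha, ha1, hc, hc1, e1⟩ := h1
  have h := hs.1
  obtain ⟨a', ha', ha'1, e2⟩ := cond_right' h (B.inv_mem hc) (by simpa using hc1)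
  have he : c⁻¹ * a * c = a * c * a⁻¹ := by
    have h2 : a * c * a⁻¹ = c⁻¹ * (a * (a⁻¹ * c * a)) * c * a⁻¹ := by group
    rw [h2, ← hb]; group
  have hmem : a * c * a⁻¹ ∈ conjBy B a' := by
    rw [e2, ← he]
    have := conj_mem_conjBy (g := c⁻¹) ha
    simpa using this
  rw [mem_conjBy] at hmem
  have hta : a'⁻¹ * a = 1 := by
    by_contra ht
    have ht' : (a'⁻¹ * a)⁻¹ ≠ 1 := inv_ne_one.mpr ht
    have htA : (a'⁻¹ * a)⁻¹ ∈ A := A.inv_mem (A.mul_mem (A.inv_mem ha') ha)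
    have hcm : c ∈ conjBy B (a'⁻¹ * a)⁻¹ := by
      rw [mem_conjBy]
      have h3 : ((a'⁻¹ * a)⁻¹)⁻¹ * c * (a'⁻¹ * a)⁻¹ = a'⁻¹ * (a * c * a⁻¹) * a' := by group
      rw [h3]; exact hmem
    exact hc1 (eq_one_of_normalizes_conj' h htA ht' hc (Subgroup.le_normalizer hcm))
  have haa : a = a' := by
    have : a = a' * (a'⁻¹ * a) := by group
    rw [this, hta, mul_one]
  refine ⟨A.inv_mem ha, by simpa using ha1, B.inv_mem hc, by simpa using hc1, ?_⟩
  rw [inv_inv, haa, e2]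

theorem nuRel_symm {A B : Subgroup G} (hs : IsSpecialRankOnePair A B) {a c : G}
    (h1 : NuRel A B a c) : NuRel B A c a := by
  have h2 := nuRel_inv hs h1
  obtain ⟨ha, ha1, hc, hc1, -⟩ := h1
  obtain ⟨-, -, -, -, e2⟩ := h2
  exact ⟨hc, hc1, ha, ha1, by simpa using e2.symm⟩

theorem special_symm {A B : Subgroup G} (hs : IsSpecialRankOnePair A B) :
    IsSpecialRankOnePair B A := by
  refine ⟨RankOnePair_symm hs.1, ?_⟩
  intro b hb hb1 a ha ha1 e
  -- `conjBy B a⁻¹ = conjBy A b⁻¹`, so `NuRel A B a b⁻¹`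
  have h1 : NuRel A B a b⁻¹ := ⟨ha, ha1, B.inv_mem hb, by simpa using hb1, e.symm⟩
  have hb' := nuRel_braid hs h1
  -- `b⁻¹ * a * b = a⁻¹ * b⁻¹ * a`; want `a⁻¹ * b * a = b⁻¹ * a⁻¹ * b`
  rw [inv_inv] at hb'
  have h2 : a⁻¹ * b * a = (a⁻¹ * b⁻¹ * a)⁻¹ := by group
  rw [h2, ← hb']; group

/-- The addition formula. -/
theorem nuRel_add {A B : Subgroup G} (hs : IsSpecialRankOnePair A B) {x y cx cy z : G}
    (hx : NuRel A B x cx) (hy : NuRel A B y cy) (hxy : x * y ≠ 1) (hz : z ∈ A)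
    (e : y⁻¹ * cx * y = cy * z * cy⁻¹) :
    z * y ≠ 1 ∧ ∀ w, NuRel A B (z * y) w → NuRel A B (x * y) (cy * w⁻¹) := by
  have h := hs.1
  have hyi := nuRel_inv hs hy
  obtain ⟨hxA, hx1, hcx, hcx1, ex⟩ := hx
  obtain ⟨hyA, hy1, hcy, hcy1, ey⟩ := hy
  obtain ⟨-, -, -, -, eyi⟩ := hyi
  rw [inv_inv] at eyi
  have key : conjBy B (x * y)⁻¹ = conjBy (conjBy B (z * y)) cy := by
    have e1 : conjBy B (x * y)⁻¹ = conjBy (conjBy B x⁻¹) y⁻¹ := by
      rw [conjBy_conjBy, mul_inv_rev]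
    rw [e1, ← ex, conjBy_conjBy]
    have e2 : conjBy A (y⁻¹ * cx) = conjBy (conjBy A y) (y⁻¹ * cx) := by
      rw [conjBy_of_mem hyA]
    rw [e2, conjBy_conjBy, e]
    have e3 : conjBy A (cy * z * cy⁻¹) = conjBy (conjBy A cy⁻¹) (cy * z) := by
      rw [conjBy_conjBy]
    rw [e3, eyi, conjBy_conjBy, conjBy_conjBy]
    congr 1; group
  have hxyA : x * y ∈ A := A.mul_mem hxA hyA
  have hzy : z * y ≠ 1 := by
    intro hzy
    rw [hzy, conjBy_one, conjBy_of_mem hcy] at key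
    have h1 := eq_one_of_mem_of_normalizes h (A.inv_mem hxyA) (conjBy_eq_self_iff.mp key)
    exact hxy (inv_eq_one.mp h1)
  refine ⟨hzy, ?_⟩
  intro w hw
  have hwi := nuRel_inv hs hw
  obtain ⟨-, -, hwB, -, ew⟩ := hwi
  rw [inv_inv] at ew
  have key2 : conjBy A (cy * w⁻¹) = conjBy B (x * y)⁻¹ := by
    rw [key, ← ew, conjBy_conjBy]
  refine ⟨hxyA, hxy, B.mul_mem hcy hwB, ?_, key2⟩
  intro h1
  rw [h1, conjBy_one] at key2
  exact conjBy_right_ne_left h (A.inv_mem hxyA) key2.symm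

/-- `ν(xⁿ)ⁿ = ν(x)` whenever `xⁿ ≠ 1`. -/
theorem nuRel_root : ∀ n : ℕ, 0 < n → ∀ A B : Subgroup G, IsSpecialRankOnePair A B →
    ∀ x c : G, NuRel A B x c → x ^ n ≠ 1 → ∀ d : G, NuRel A B (x ^ n) d → d ^ n = c := by
  intro n hn
  induction n, hn using Nat.le_induction with
  | base =>
    intro A B hs x c hx _ d hd
    rw [pow_one] at hd ⊢
    exact nuRel_unique hs.1 hd hx
  | succ l hl ih =>
    intro A B hs c cc hc hcl d hd
    have h := hs.1
    by_cases hccl : cc ^ l = 1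
    · have h1 : c ^ l = 1 := by
        have h2 := nuRel_pow hs hc l
        rw [hccl] at h2
        have h3 : c ^ l = (cc * c) * ((cc * c)⁻¹ * c ^ l * (cc * c)) * (cc * c)⁻¹ := by group
        rw [h3, ← h2]; group
      have h4 : c ^ (l + 1) = c := by rw [pow_succ, h1, one_mul]
      rw [h4] at hd
      have h5 := nuRel_unique h hd hc
      rw [h5, pow_succ, hccl, one_mul]
    · have hsym := nuRel_symm hs hc
      have hccB : cc ∈ B := hc.2.2.1
      obtain ⟨a, ha⟩ := nuRel_exists (RankOnePair_symm h) (B.pow_mem hccB l) hccl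
      have hac : a ^ l = c := ih B A (special_symm hs) cc c hsym hccl a ha
      have haA : a ∈ A := ha.2.2.1
      have ha1 : a ≠ 1 := ha.2.2.2.1
      have hcA : c ∈ A := hc.1
      obtain ⟨ca, hca⟩ := nuRel_exists h haA ha1
      have hc' : NuRel A B (a ^ l) cc := by rw [hac]; exact hc
      have hc1 : a ^ l ≠ 1 := by rw [hac]; exact hc.2.1
      have hcca : cc ^ l = ca := ih A B hs a ca hca hc1 cc hc'
      have hb := nuRel_braid hs hc
      have hbl : cc * c ^ l * cc⁻¹ = c⁻¹ * ca * c := by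
        rw [← conj_pow, hb, conj_pow_inv, hcca]
      have hal1 : a * c ≠ 1 := by
        intro h1
        apply hcl
        have h2 : c ^ (l + 1) = (a * c) ^ l := by
          rw [← hac, ← pow_succ', ← pow_mul, ← pow_mul, mul_comm]
        rw [h2, h1, one_pow]
      obtain ⟨-, hF⟩ := nuRel_add hs hca hc hal1 (A.pow_mem hcA l) hbl.symm
      have hd' : NuRel A B (c ^ l * c) d := by rw [← pow_succ]; exact hd
      have h6 := hF d hd'
      have h7 : (a * c) ^ l = c ^ (l + 1) := by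
        rw [← hac, ← pow_succ', ← pow_mul, ← pow_mul, mul_comm]
      have h8 : d ^ l = cc * d⁻¹ :=
        ih A B hs (a * c) (cc * d⁻¹) h6 (by rw [h7]; exact hcl) d (by rw [h7]; exact hd)
      rw [pow_succ, h8]; group

theorem special_elementary_or_divisible {A B : Subgroup G} (hs : IsSpecialRankOnePair A B)
    (hab : HasAbelianUnipotents A B) :
    (∃ p : ℕ, p.Prime ∧ IsElementaryAbelian p A) ∨
    ((∀ a ∈ A, a ≠ 1 → ¬ IsOfFinOrder a) ∧ ∀ a ∈ A, ∀ n : ℕ, 0 < n → ∃ c ∈ A, c ^ n = a) := by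
  have h := hs.1
  by_cases htf : ∀ a ∈ A, a ≠ 1 → ¬ IsOfFinOrder a
  · right
    refine ⟨htf, ?_⟩
    intro a ha n hn
    by_cases ha1 : a = 1
    · exact ⟨1, A.one_mem, by rw [ha1, one_pow]⟩
    · obtain ⟨c, hc⟩ := nuRel_exists h ha ha1
      have han : a ^ n ≠ 1 := by
        intro h1
        exact htf a ha ha1 (isOfFinOrder_iff_pow_eq_one.mpr ⟨n, hn, h1⟩)
      have hcn : c ^ n ≠ 1 := by
        intro h1
        apply han
        have h2 := nuRel_pow hs hc n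
        rw [h1] at h2
        have h3 : a ^ n = (c * a) * ((c * a)⁻¹ * a ^ n * (c * a)) * (c * a)⁻¹ := by group
        rw [h3, ← h2]; group
      have hsym := nuRel_symm hs hc
      obtain ⟨d, hd⟩ := nuRel_exists (RankOnePair_symm h) (B.pow_mem hc.2.2.1 n) hcn
      exact ⟨d, hd.2.2.1, nuRel_root n hn B A (special_symm hs) c a hsym hcn d hd⟩
  · left
    obtain ⟨a, ha, ha1, hfin⟩ : ∃ a ∈ A, a ≠ 1 ∧ IsOfFinOrder a := by
      by_contra hne
      apply htf
      intro a ha ha1 hfin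
      exact hne ⟨a, ha, ha1, hfin⟩
    have hm0 : orderOf a ≠ 0 := (orderOf_pos_iff.mpr hfin).ne'
    have hm1 : orderOf a ≠ 1 := by
      intro h1; exact ha1 (orderOf_eq_one_iff.mp h1)
    have hp : (orderOf a).minFac.Prime := Nat.minFac_prime hm1
    obtain ⟨p, hpdef⟩ : ∃ p, p = (orderOf a).minFac := ⟨_, rfl⟩
    rw [← hpdef] at hp
    have hpd : p ∣ orderOf a := by rw [hpdef]; exact Nat.minFac_dvd _
    have hord : orderOf (a ^ (orderOf a / p)) = p := orderOf_pow_orderOf_div hm0 hpd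
    obtain ⟨a', ha'def⟩ : ∃ a', a' = a ^ (orderOf a / p) := ⟨_, rfl⟩
    rw [← ha'def] at hord
    have ha'A : a' ∈ A := by rw [ha'def]; exact A.pow_mem ha _
    have ha'p : a' ^ p = 1 := by rw [← hord]; exact pow_orderOf_eq_one a'
    have ha'1 : a' ≠ 1 := by
      intro h1
      rw [h1, orderOf_one] at hord
      exact hp.one_lt.ne hord
    refine ⟨p, hp, hab.1, ?_⟩
    intro x hx
    by_contra hxp
    have hcomm : a' * x = x * a' := comm_of_isMulCommutative hab.1 ha'A hx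
    have hpow : (a' * x) ^ p = x ^ p := by
      have hc : Commute a' x := hcomm
      rw [hc.mul_pow, ha'p, one_mul]
    have hax1 : a' * x ≠ 1 := by
      intro h1
      rw [h1, one_pow] at hpow
      exact hxp hpow.symm
    have hx1 : x ≠ 1 := by
      intro h1
      rw [h1, one_pow] at hxp
      exact hxp rfl
    obtain ⟨cx, hcx⟩ := nuRel_exists h hx hx1
    obtain ⟨c2, hc2⟩ := nuRel_exists h (A.mul_mem ha'A hx) hax1
    obtain ⟨d, hd⟩ := nuRel_exists h (A.pow_mem hx p) hxp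
    have e1 : d ^ p = cx := nuRel_root p hp.pos A B hs x cx hcx hxp d hd
    have e2 : d ^ p = c2 :=
      nuRel_root p hp.pos A B hs (a' * x) c2 hc2 (by rw [hpow]; exact hxp) d (by rw [hpow]; exact hd)
    rw [← e2, e1] at hc2
    have e3 := nuRel_inj h hcx hc2
    apply ha'1
    have : a' = (a' * x) * x⁻¹ := by group
    rw [this, ← e3]; group

end Cfsg.Agent.Helper26
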