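import Mathlib
import Cfsg.Prelude.Def_RootSubgroups
import Cfsg.Prelude.Def_CaseTheorems
import Cfsg.Agent.Helper26.SpecialDiv
import Cfsg.Agent.Helper26.RootSpecial
import Cfsg.Agent.Helper26.RootConn

set_option autoImplicit false

namespace Cfsg.Agent.Helper26

open Cfsg
open scoped commutatorElement

variable {G : Type*} [Group G]

/-- under a homomorphism making `x` and `ν(x)` commute, they have the same image -/
theorem nuRel_hom_eq {Q : Type*} [Group Q] {A B : Subgroup G} (hs : IsSpecialRankOnePair A B)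
    (φ : G →* Q) {x c : G} (h1 : NuRel A B x c) (hc : φ x * φ c = φ c * φ x) : φ c = φ x := by
  have e := congrArg φ (nuRel_conj hs h1)
  simp only [map_mul, map_inv] at e
  calc φ c = (φ c * φ x)⁻¹ * φ x * (φ c * φ x) := e
    _ = (φ c * φ x)⁻¹ * (φ x * φ c) * φ x := by group
    _ = (φ c * φ x)⁻¹ * (φ c * φ x) * φ x := by rw [hc]
    _ = φ x := by group

theorem special_hom_rel {Q : Type*} [Group Q] {A B : Subgroup G} (hs : IsSpecialRankOnePair A B)
    (hab : HasAbelianUnipotents A B) (φ : G →* Q)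
    (hφ : ∀ a ∈ A, ∀ b ∈ B, φ a * φ b = φ b * φ a) {x y : G} (hx : x ∈ A) (hy : y ∈ A)
    (hx1 : x ≠ 1) (hy1 : y ≠ 1) (hxy : x * y ≠ 1) : φ x * φ x * φ y = 1 := by
  have h := hs.1
  obtain ⟨cx, hcx⟩ := nuRel_exists h hx hx1
  obtain ⟨cy, hcy⟩ := nuRel_exists h hy hy1
  have hcxB : cx ∈ B := hcx.2.2.1
  have hcyB : cy ∈ B := hcy.2.2.1
  obtain ⟨z, hzdef⟩ : ∃ z, z = cy⁻¹ * (y⁻¹ * cx * y) * cy := ⟨_, rfl⟩
  have hzA : z ∈ A := by
    have h1 : y⁻¹ * cx * y ∈ conjBy B y⁻¹ := by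
      have := conj_mem_conjBy (g := y⁻¹) hcxB
      simpa using this
    rw [← hcy.2.2.2.2, mem_conjBy] at h1
    rw [hzdef]; exact h1
  have e : y⁻¹ * cx * y = cy * z * cy⁻¹ := by rw [hzdef]; group
  obtain ⟨hzy, hF⟩ := nuRel_add hs hcx hcy hxy hzA e
  obtain ⟨w, hw⟩ := nuRel_exists h (A.mul_mem hzA hy) hzy
  have hxyw := hF w hw
  have e1 : φ cx = φ x := nuRel_hom_eq hs φ hcx (hφ x hx cx hcxB)
  have e2 : φ cy = φ y := nuRel_hom_eq hs φ hcy (hφ y hy cy hcyB)
  have e3 : φ w = φ (z * y) := nuRel_hom_eq hs φ hw (hφ _ (A.mul_mem hzA hy) w hw.2.2.1)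
  have e4 : φ (cy * w⁻¹) = φ (x * y) :=
    nuRel_hom_eq hs φ hxyw (hφ _ (A.mul_mem hx hy) _ hxyw.2.2.1)
  have hXY : φ x * φ y = φ y * φ x := by
    rw [← map_mul, ← map_mul, comm_of_isMulCommutative hab.1 hx hy]
  have e5 : φ z = φ x := by
    rw [hzdef]
    simp only [map_mul, map_inv, e1, e2]
    calc (φ y)⁻¹ * ((φ y)⁻¹ * φ x * φ y) * φ y
        = (φ y)⁻¹ * ((φ y)⁻¹ * (φ x * φ y)) * φ y := by group
      _ = (φ y)⁻¹ * ((φ y)⁻¹ * (φ y * φ x)) * φ y := by rw [hXY]
      _ = (φ y)⁻¹ * (φ x * φ y) := by group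
      _ = (φ y)⁻¹ * (φ y * φ x) := by rw [hXY]
      _ = φ x := by group
  have e6 : φ y * (φ x * φ y)⁻¹ = φ x * φ y := by
    have e7 := e4
    rw [map_mul, map_inv, e2, e3, map_mul, e5, map_mul] at e7
    exact e7
  calc φ x * φ x * φ y = φ x * (φ x * φ y) := by group
    _ = φ x * (φ y * (φ x * φ y)⁻¹) := congrArg (fun t => φ x * t) e6.symm
    _ = 1 := by group

theorem special_hom_eq {Q : Type*} [Group Q] {A B : Subgroup G} (hs : IsSpecialRankOnePair A B)
    (hab : HasAbelianUnipotents A B) (φ : G →* Q)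
    (hφ : ∀ a ∈ A, ∀ b ∈ B, φ a * φ b = φ b * φ a) {x y : G} (hx : x ∈ A) (hy : y ∈ A)
    (hx1 : x ≠ 1) (hy1 : y ≠ 1) (hxy : x * y ≠ 1) : φ x = φ y := by
  have h1 := special_hom_rel hs hab φ hφ hx hy hx1 hy1 hxy
  have hyx : y * x ≠ 1 := by rw [comm_of_isMulCommutative hab.1 hy hx]; exact hxy
  have h2 := special_hom_rel hs hab φ hφ hy hx hy1 hx1 hyx
  have hY : φ y = (φ x * φ x)⁻¹ := eq_inv_of_mul_eq_one_right h1
  rw [hY] at h2 ⊢
  have h3 : φ x * (φ x * φ x) = 1 := by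
    have e : (φ x * φ x) * (φ x * φ x) * ((φ x * φ x)⁻¹ * (φ x * φ x)⁻¹ * φ x) = φ x := by group
    rw [h2, mul_one] at e
    have e' : φ x * (φ x * (φ x * φ x)) = φ x * 1 := by rw [mul_one, ← mul_assoc]; exact e
    exact mul_left_cancel e'
  exact eq_inv_of_mul_eq_one_left h3

/-- a special rank one pair with abelian unipotent subgroups of more than three elements has
trivial image under every homomorphism making `A` and `B` commute: the group is perfect -/
theorem special_hom_trivial {Q : Type*} [Group Q] {A B : Subgroup G}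
    (hs : IsSpecialRankOnePair A B) (hab : HasAbelianUnipotents A B) (hcard : 3 < ENat.card A)
    (φ : G →* Q) (hφ : ∀ a ∈ A, ∀ b ∈ B, φ a * φ b = φ b * φ a) : ∀ a ∈ A, φ a = 1 := by
  intro x hx
  by_cases hx1 : x = 1
  · rw [hx1, map_one]
  obtain ⟨y, hy, hy1, hyx, hyxi⟩ : ∃ y ∈ A, y ≠ 1 ∧ y ≠ x ∧ y ≠ x⁻¹ := by
    by_contra hne
    have hsub : (A : Set G) ⊆ {1, x, x⁻¹} := by
      intro y hy
      by_contra hy'
      simp only [Set.mem_insert_iff, Set.mem_singleton_iff, not_or] at hy'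
      exact hne ⟨y, hy, hy'.1, hy'.2.1, hy'.2.2⟩
    have h1 : (A : Set G).encard ≤ 3 := by
      have h2 : (A : Set G).encard ≤ ({1, x, x⁻¹} : Set G).encard := Set.encard_le_encard hsub
      have h3 : ({1, x, x⁻¹} : Set G).encard ≤ 3 := by
        have h4 := Set.encard_insert_le ({x, x⁻¹} : Set G) 1
        have h5 := Set.encard_insert_le ({x⁻¹} : Set G) x
        rw [Set.encard_singleton] at h5
        have h6 : ({x, x⁻¹} : Set G).encard + 1 ≤ 3 := by
          calc ({x, x⁻¹} : Set G).encard + 1 ≤ (1 + 1) + 1 := by gcongr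
            _ = 3 := by norm_num
        exact h4.trans h6
      exact h2.trans h3
    exact absurd hcard (not_lt.mpr h1)
  have hxy : x * y ≠ 1 := fun h0 => hyxi (eq_inv_of_mul_eq_one_right h0)
  have e1 : φ x = φ y := special_hom_eq hs hab φ hφ hx hy hx1 hy1 hxy
  have hxyA : x * y ∈ A := A.mul_mem hx hy
  by_cases hc : x * x * y = 1
  · have hxx1 : x * x ≠ 1 := by
      intro h0; rw [h0, one_mul] at hc; exact hy1 hc
    have hxxx : x * x * x ≠ 1 := by
      intro h0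
      exact hyx (mul_left_cancel (hc.trans h0.symm))
    have e2 : φ (x * x) = φ x :=
      special_hom_eq hs hab φ hφ (A.mul_mem hx hx) hx hxx1 hx1 hxxx
    rw [map_mul] at e2
    exact mul_left_cancel (e2.trans (mul_one _).symm)
  · have hxyx : x * y * x ≠ 1 := by
      intro h0; apply hc
      rw [← h0, mul_assoc, mul_assoc, comm_of_isMulCommutative hab.1 hx hy]
    have e2 : φ (x * y) = φ x := special_hom_eq hs hab φ hφ hxyA hx hxy hx1 hxyx
    rw [map_mul, ← e1] at e2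
    exact mul_left_cancel (e2.trans (mul_one _).symm)

/-- `⁅B, n A n⁻¹⁆ ≤ N` when `B` centralizes `A` and `n ∈ N ⊴ G` -/
theorem commutator_conjBy_le_normal {N A B : Subgroup G} (hN : N.Normal)
    (hBA : ⁅B, A⁆ = ⊥) {n : G} (hn : n ∈ N) : ⁅B, conjBy A n⁆ ≤ N := by
  rw [Subgroup.commutator_le]
  rintro b hb _ ⟨a, ha, rfl⟩
  show ⁅b, n * a * n⁻¹⁆ ∈ N
  have hba : b * a * b⁻¹ = a := by
    have := comm_of_commutator_eq_bot hBA hb ha
    rw [this]; group
  have h1 : ⁅b, n * a * n⁻¹⁆ =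
      (b * n * b⁻¹) * (a * (b * n⁻¹ * b⁻¹) * a⁻¹) * (a * n * a⁻¹) * n⁻¹ := by
    rw [commutatorElement_def]
    calc b * (n * a * n⁻¹) * b⁻¹ * (n * a * n⁻¹)⁻¹
        = (b * n * b⁻¹) * (b * a * b⁻¹) * (b * n⁻¹ * b⁻¹) * a⁻¹ * (a * n * a⁻¹) * n⁻¹ := by group
      _ = _ := by rw [hba]; group
  rw [h1]
  exact N.mul_mem (N.mul_mem (N.mul_mem (hN.conj_mem n hn b)
    (hN.conj_mem _ (hN.conj_mem _ (N.inv_mem hn) b) a)) (hN.conj_mem n hn a)) (N.inv_mem hn)

theorem nondegenerate_of_not_degenerate {S : Set (Subgroup G)} (hS : IsRootSubgroupSet S)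
    (hr : ∃ A ∈ S, ∃ B ∈ S, IsRankOnePair A B) (hdeg : ¬ IsDegenerateRootSet S) :
    IsNondegenerateRootSet S := by
  have hc : ∃ A ∈ S, ∃ B ∈ S, RootCommutatorCase S A B := by
    by_contra hne
    apply hdeg
    intro A hA B hB hAB
    exact hne ⟨A, hA, B, hB, hAB⟩
  refine ⟨?_, hr, hc⟩
  obtain ⟨A, hA, B, hB, hAB⟩ := hc
  refine ⟨A, hA, ⁅A, B⁆, hAB.1, ne_commutator_of_commCase hS hAB, ?_⟩
  rw [Subgroup.commutator_eq_bot_iff_le_centralizer]
  intro a ha
  rw [Subgroup.mem_centralizer_iff]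
  intro z hz
  exact hAB.2.1 z hz a (Subgroup.mem_sup_left ha)

/-- a rank one pair of members cannot have its commutator inside a normal subgroup meeting
every member trivially -/
theorem rankOne_commutator_not_le {S : Set (Subgroup G)} (hcls : IsRootSubgroupClass S)
    (h3 : IsDegenerateRootSet S → ∀ A ∈ S, 3 < ENat.card A)
    (h4 : ∀ A ∈ S, ∀ B ∈ rankOnePartners S A, IsSpecialRankOnePair A B)
    {N : Subgroup G} (hN : N.Normal) (hNS : ∀ D ∈ S, D ⊓ N = ⊥)
    {B C : Subgroup G} (hB : B ∈ S) (hC : C ∈ S) (hBC : IsRankOnePair B C) (hle : ⁅B, C⁆ ≤ N) :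
    False := by
  have hS := hcls.1
  have hs := h4 B hB C ⟨hC, hBC⟩
  have hφ : ∀ b ∈ B, ∀ c ∈ C, (QuotientGroup.mk' N) b * (QuotientGroup.mk' N) c =
      (QuotientGroup.mk' N) c * (QuotientGroup.mk' N) b := by
    intro b hb c hc
    rw [← map_mul, ← map_mul]
    show ((b * c : G) : G ⧸ N) = ((c * b : G) : G ⧸ N)
    rw [QuotientGroup.eq]
    have h1 : (b * c)⁻¹ * (c * b) = ⁅c⁻¹, b⁻¹⁆ := by rw [commutatorElement_def]; group
    rw [h1]
    apply hle
    rw [Subgroup.commutator_comm]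
    exact Subgroup.commutator_mem_commutator (C.inv_mem hc) (B.inv_mem hb)
  by_cases hdeg : IsDegenerateRootSet S
  · have hab : HasAbelianUnipotents B C := ⟨hS.commutative B hB, hS.commutative C hC⟩
    have htriv := special_hom_trivial hs hab (h3 hdeg B hB) (QuotientGroup.mk' N) hφ
    apply hS.ne_bot B hB
    rw [← hNS B hB]
    refine (inf_eq_left.mpr ?_).symm
    intro b hb
    exact (QuotientGroup.eq_one_iff b).mp (htriv b hb)
  · have hnd : IsNondegenerateRootSet S :=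
      nondegenerate_of_not_degenerate hS ⟨B, hB, C, hC, hBC⟩ hdeg
    obtain ⟨⟨E, hEl, hEc⟩, -⟩ := nondegenerate_rankOne_special hcls hnd hB
      (show C ∈ rankOnePartners S B from ⟨hC, hBC⟩)
    have hES : E ∈ S := hEc.1
    have hBE : ⁅B, E⁆ = ⊥ := hEl.1.2.2
    have hCE := rootCommutatorCase_of_mem hS hC hES hEc.2
    obtain ⟨b, hb, hb1⟩ := exists_ne_one_left hBC
    obtain ⟨c, hc⟩ := nuRel_exists hBC hb hb1
    obtain ⟨e, he, he1⟩ := exists_ne_one_of_ne_bot (hS.ne_bot E hES)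
    have hcC : c ∈ C := hc.2.2.1
    have hc1 : c ≠ 1 := hc.2.2.2.1
    have e1 : (QuotientGroup.mk' N) c = (QuotientGroup.mk' N) b :=
      nuRel_hom_eq hs _ hc (hφ b hb c hcC)
    have hmemN : ⁅c, e⁆ ∈ N := by
      rw [← QuotientGroup.eq_one_iff]
      have hbe : b * e = e * b := comm_of_commutator_eq_bot hBE hb he
      show (QuotientGroup.mk' N) ⁅c, e⁆ = 1
      rw [commutatorElement_def, map_mul, map_mul, map_mul, map_inv, map_inv, e1, ← map_inv,
        ← map_inv, ← map_mul, ← map_mul, ← map_mul]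
      have : b * e * b⁻¹ * e⁻¹ = 1 := by rw [hbe]; group
      rw [this, map_one]
    have hmem : ⁅c, e⁆ ∈ ⁅C, E⁆ ⊓ N := ⟨Subgroup.commutator_mem_commutator hcC he, hmemN⟩
    rw [hNS _ hCE.1, Subgroup.mem_bot, commutatorElement_def] at hmem
    have hce : c * e = e * c := by
      calc c * e = (c * e * c⁻¹ * e⁻¹) * (e * c) := by group
        _ = e * c := by rw [hmem, one_mul]
    have hCni := not_isolated_of_partner hC hB (RankOnePair_symm hBC)
    exact he1 (eq_one_of_comm_of_commCase hS hCni hC hCE hcC hc1 he hce)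

theorem commutator_eq_bot_of_le_normal {S : Set (Subgroup G)} (hcls : IsRootSubgroupClass S)
    (h3 : IsDegenerateRootSet S → ∀ A ∈ S, 3 < ENat.card A)
    (h4 : ∀ A ∈ S, ∀ B ∈ rankOnePartners S A, IsSpecialRankOnePair A B)
    {N : Subgroup G} (hN : N.Normal) (hNS : ∀ D ∈ S, D ⊓ N = ⊥)
    {K L : Subgroup G} (hK : K ∈ S) (hL : L ∈ S) (hle : ⁅K, L⁆ ≤ N) : ⁅K, L⁆ = ⊥ := by
  rcases hcls.1.pair K hK L hL with h | h | h
  · exact h
  · exact (rankOne_commutator_not_le hcls h3 h4 hN hNS hK hL h hle).elim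
  · rw [← hNS _ h.1]; exact (inf_eq_left.mpr hle).symm

/-- a normal subgroup meeting every member trivially is central -/
theorem normal_le_center_of_inf_bot {S : Set (Subgroup G)} (hcls : IsRootSubgroupClass S)
    (h2' : ∀ A ∈ S, ∀ C ∈ S, A ≠ C → centralizingMembers S A ≠ centralizingMembers S C)
    (h3 : IsDegenerateRootSet S → ∀ A ∈ S, 3 < ENat.card A)
    (h4 : ∀ A ∈ S, ∀ B ∈ rankOnePartners S A, IsSpecialRankOnePair A B)
    {N : Subgroup G} (hN : N.Normal) (hNS : ∀ D ∈ S, D ⊓ N = ⊥) : N ≤ Subgroup.center G := by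
  have hS := hcls.1
  have hfix : ∀ n ∈ N, ∀ A ∈ S, conjBy A n = A := by
    intro n hn A hA
    by_contra hne
    have hC : conjBy A n ∈ S := hS.conj_mem A hA n
    have hAA : ⁅A, A⁆ = ⊥ :=
      Subgroup.commutator_eq_bot_iff_le_centralizer.mpr (le_centralizer_self (hS.commutative A hA))
    have hcm := h2' A hA _ hC (fun h => hne h.symm)
    have hex : ∃ B ∈ S, (⁅B, A⁆ = ⊥ ∧ ⁅B, conjBy A n⁆ ≠ ⊥) ∨
        (⁅B, conjBy A n⁆ = ⊥ ∧ ⁅B, A⁆ ≠ ⊥) := by
      by_contra hno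
      apply hcm
      ext B
      simp only [centralizingMembers, Set.mem_setOf_eq]
      constructor
      · rintro ⟨hB, hBA⟩
        refine ⟨hB, ?_⟩
        by_contra hBC
        exact hno ⟨B, hB, Or.inl ⟨Subgroup.commutator_eq_bot_iff_le_centralizer.mpr hBA,
          fun h => hBC (Subgroup.commutator_eq_bot_iff_le_centralizer.mp h)⟩⟩
      · rintro ⟨hB, hBC⟩
        refine ⟨hB, ?_⟩
        by_contra hBA
        exact hno ⟨B, hB, Or.inr ⟨Subgroup.commutator_eq_bot_iff_le_centralizer.mpr hBC,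
          fun h => hBA (Subgroup.commutator_eq_bot_iff_le_centralizer.mp h)⟩⟩
    obtain ⟨B, hB, ⟨hBA, hBC⟩ | ⟨hBC, hBA⟩⟩ := hex
    · exact hBC (commutator_eq_bot_of_le_normal hcls h3 h4 hN hNS hB hC
        (commutator_conjBy_le_normal hN hBA hn))
    · have hA' : conjBy (conjBy A n) n⁻¹ = A := by
        rw [conjBy_conjBy, inv_mul_cancel, conjBy_one]
      have h5 := commutator_conjBy_le_normal hN hBC (N.inv_mem hn)
      rw [hA'] at h5
      exact hBA (commutator_eq_bot_of_le_normal hcls h3 h4 hN hNS hB hA h5)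
  have hcomm : ∀ n ∈ N, ∀ A ∈ S, ∀ a ∈ A, a * n = n * a := by
    intro n hn A hA a ha
    have h1 : n * a * n⁻¹ ∈ A := by
      have := conj_mem_conjBy (g := n) ha
      rwa [hfix n hn A hA] at this
    have h2 : n * a * n⁻¹ * a⁻¹ ∈ A ⊓ N := by
      refine ⟨A.mul_mem h1 (A.inv_mem ha), ?_⟩
      have h3' : a * n⁻¹ * a⁻¹ ∈ N := hN.conj_mem _ (N.inv_mem hn) a
      have h4' : n * a * n⁻¹ * a⁻¹ = n * (a * n⁻¹ * a⁻¹) := by group
      rw [h4']; exact N.mul_mem hn h3'
    rw [hNS A hA, Subgroup.mem_bot] at h2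
    calc a * n = (n * a * n⁻¹ * a⁻¹)⁻¹ * (n * a) := by group
      _ = n * a := by rw [h2, inv_one, one_mul]
  intro n hn
  rw [Subgroup.mem_center_iff]
  have hle : (⨆ A ∈ S, A) ≤ Subgroup.centralizer ({n} : Set G) := by
    apply iSup₂_le
    intro A hA a ha
    rw [Subgroup.mem_centralizer_iff]
    intro m hm
    rw [Set.mem_singleton_iff] at hm
    rw [hm]
    exact (hcomm n hn A hA a ha).symm
  intro g
  have hg : g ∈ Subgroup.centralizer ({n} : Set G) := hle (by rw [hS.generates]; trivial)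
  exact (Subgroup.mem_centralizer_iff.mp hg n rfl).symm

/-- a normal subgroup meeting some member nontrivially supplements it -/
theorem normal_sup_eq_top_of_inf_ne_bot {S : Set (Subgroup G)} (hS : IsRootSubgroupSet S)
    (h1 : IsConnectedFamily (FAdj S) S)
    (h4 : ∀ A ∈ S, ∀ B ∈ rankOnePartners S A, IsSpecialRankOnePair A B)
    {N : Subgroup G} (hN : N.Normal) {A : Subgroup G} (hA : A ∈ S) (hAN : A ⊓ N ≠ ⊥) :
    N ⊔ A = ⊤ := by
  have key : ∀ C, Relation.ReflTransGen (FAdj S) A C → C ⊓ N ≠ ⊥ ∧ C ≤ N ⊔ A := by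
    intro C hpath
    induction hpath with
    | refl => exact ⟨hAN, le_sup_right⟩
    | @tail C D _ hstep ih =>
      obtain ⟨hCN, hCle⟩ := ih
      obtain ⟨hC, hD, hCD⟩ := hstep
      have hs := h4 C hC D ⟨hD, hCD⟩
      obtain ⟨c, hc, hc1⟩ := exists_ne_one_of_ne_bot hCN
      obtain ⟨d, hd⟩ := nuRel_exists hCD hc.1 hc1
      have hdN : d ∈ N := by
        rw [nuRel_conj hs hd]
        have := hN.conj_mem c hc.2 (d * c)⁻¹
        simpa using this
      have hdD : d ∈ D := hd.2.2.1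
      have hd1 : d ≠ 1 := hd.2.2.2.1
      refine ⟨?_, ?_⟩
      · intro h0
        have : d ∈ D ⊓ N := ⟨hdD, hdN⟩
        rw [h0, Subgroup.mem_bot] at this
        exact hd1 this
      · have hDeq : D = conjBy C (c * d) := by
          rw [← conjBy_conjBy, hd.2.2.2.2, conjBy_conjBy, mul_inv_cancel, conjBy_one]
        rw [hDeq]
        rintro _ ⟨y, hy, rfl⟩
        show c * d * y * (c * d)⁻¹ ∈ N ⊔ A
        have hc' : c ∈ N ⊔ A := hCle hc.1
        have hd' : d ∈ N ⊔ A := Subgroup.mem_sup_left hdN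
        have hy' : y ∈ N ⊔ A := hCle hy
        exact (N ⊔ A).mul_mem ((N ⊔ A).mul_mem ((N ⊔ A).mul_mem hc' hd') hy')
          ((N ⊔ A).inv_mem ((N ⊔ A).mul_mem hc' hd'))
  rw [eq_top_iff, ← hS.generates]
  apply iSup₂_le
  intro C hC
  exact (key C (h1 A hA C hC)).2

theorem commutator_le_of_sup_eq_top {N A : Subgroup G} (hN : N.Normal) (hA : IsMulCommutative A)
    (h : N ⊔ A = ⊤) : commutator G ≤ N := by
  rw [commutator_def, ← h, Subgroup.commutator_le]
  intro g₁ hg₁ g₂ hg₂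
  haveI := hN
  obtain ⟨n₁, hn₁, a₁, ha₁, rfl⟩ := Subgroup.mem_sup_of_normal_left.mp hg₁
  obtain ⟨n₂, hn₂, a₂, ha₂, rfl⟩ := Subgroup.mem_sup_of_normal_left.mp hg₂
  have hcomm : a₁ * a₂ * a₁⁻¹ = a₂ := by rw [comm_of_isMulCommutative hA ha₁ ha₂]; group
  have h1 : ⁅n₁ * a₁, n₂ * a₂⁆ = n₁ * (a₁ * n₂ * a₁⁻¹) * (a₂ * n₁⁻¹ * a₂⁻¹) * n₂⁻¹ := by
    rw [commutatorElement_def]
    calc n₁ * a₁ * (n₂ * a₂) * (n₁ * a₁)⁻¹ * (n₂ * a₂)⁻¹
        = n₁ * (a₁ * n₂ * a₁⁻¹) * (a₁ * a₂ * a₁⁻¹) * n₁⁻¹ * a₂⁻¹ * n₂⁻¹ := by group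
      _ = _ := by rw [hcomm]; group
  rw [h1]
  exact N.mul_mem (N.mul_mem (N.mul_mem hn₁ (hN.conj_mem n₂ hn₂ a₁))
    (hN.conj_mem _ (N.inv_mem hn₁) a₂)) (N.inv_mem hn₂)

/-- under the hypotheses of the quasisimplicity criterion the group is perfect -/
theorem commutator_eq_top_of_root {S : Set (Subgroup G)} (hS : IsRootSubgroupSet S)
    (h2 : ∃ A ∈ S, ∃ B ∈ S, A ≠ B) (h1 : IsConnectedFamily (FAdj S) S)
    (h3 : IsDegenerateRootSet S → ∀ A ∈ S, 3 < ENat.card A)
    (h4 : ∀ A ∈ S, ∀ B ∈ rankOnePartners S A, IsSpecialRankOnePair A B) :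
    commutator G = ⊤ := by
  obtain ⟨hconj, A₀, hA₀, hni⟩ := (connected_iff_conjClass hS h2).mp h1
  have hcls : IsRootSubgroupClass S := ⟨hS, hconj⟩
  obtain ⟨B₀, hB₀, hAB₀⟩ := exists_partner hni hA₀
  have hr : ∃ A ∈ S, ∃ B ∈ S, IsRankOnePair A B := ⟨A₀, hA₀, B₀, hB₀, hAB₀⟩
  rw [eq_top_iff, ← hS.generates]
  apply iSup₂_le
  intro A hA
  obtain ⟨B, hB, hAB⟩ := exists_partner (not_isolated_of_class hcls hr hA) hA
  by_cases hdeg : IsDegenerateRootSet S
  · have hs := h4 A hA B ⟨hB, hAB⟩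
    have hab : HasAbelianUnipotents A B := ⟨hS.commutative A hA, hS.commutative B hB⟩
    have htriv := special_hom_trivial hs hab (h3 hdeg A hA)
      (Abelianization.of : G →* Abelianization G) (fun a _ b _ => mul_comm _ _)
    intro a ha
    have hk : (Abelianization.of : G →* Abelianization G).ker = commutator G :=
      Abelianization.ker_of G
    rw [← hk]
    exact MonoidHom.mem_ker.mpr (htriv a ha)
  · have hnd := nondegenerate_of_not_degenerate hS hr hdeg
    obtain ⟨L, hL⟩ := exists_linePartner hcls hnd hA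
    have hLni := not_isolated_of_class hcls hnd.2.1 hL.1.1
    obtain ⟨E, ⟨hES, -⟩, -, -, hAF, -⟩ := exists_commPartner_on_line hS hA hB hAB hL hLni
    have hE : E ≤ commutator G := by
      rw [← hAF, commutator_def]
      exact Subgroup.commutator_mono le_top le_top
    obtain ⟨g, hg⟩ := hcls.2.2 E hES A hA
    rw [hg]
    rintro _ ⟨e, he, rfl⟩
    exact (inferInstance : (commutator G).Normal).conj_mem e (hE he) g

theorem map_center_eq_center {H H' : Type*} [Group H] [Group H'] (e : H ≃* H') :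
    (Subgroup.center H).map (e : H →* H') = Subgroup.center H' := by
  ext x
  rw [Subgroup.mem_map, Subgroup.mem_center_iff]
  constructor
  · rintro ⟨y, hy, rfl⟩ g
    rw [Subgroup.mem_center_iff] at hy
    have := congrArg e (hy (e.symm g))
    simpa using this
  · intro hx
    refine ⟨e.symm x, ?_, by simp⟩
    rw [Subgroup.mem_center_iff]
    intro g
    have := congrArg e.symm (hx (e g))
    simpa using this

theorem isQuasisimple_of_equiv {H H' : Type*} [Group H] [Group H'] (e : H ≃* H')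
    (h : IsQuasisimple H) : IsQuasisimple H' := by
  obtain ⟨hp, hs⟩ := h
  refine ⟨Group.IsPerfect.ofSurjective (f := (e : H →* H')) e.surjective, ?_⟩
  have e' : H ⧸ Subgroup.center H ≃* H' ⧸ Subgroup.center H' :=
    QuotientGroup.congr (Subgroup.center H) (Subgroup.center H') e (map_center_eq_center e)
  exact e'.symm.isSimpleGroup

/-- the quasisimplicity criterion (`S5033`) -/
theorem root_quasisimple {S : Set (Subgroup G)} (hS : IsRootSubgroupSet S)
    (h2 : ∃ A ∈ S, ∃ B ∈ S, A ≠ B) (h1 : IsConnectedFamily (FAdj S) S)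
    (h2' : ∀ A ∈ S, ∀ C ∈ S, A ≠ C → centralizingMembers S A ≠ centralizingMembers S C)
    (h3 : IsDegenerateRootSet S → ∀ A ∈ S, 3 < ENat.card A)
    (h4 : ∀ A ∈ S, ∀ B ∈ rankOnePartners S A, IsSpecialRankOnePair A B) :
    commutator G = ⊤ ∧ IsQuasisimple G := by
  have hperf := commutator_eq_top_of_root hS h2 h1 h3 h4
  obtain ⟨hconj, A₀, hA₀, hni⟩ := (connected_iff_conjClass hS h2).mp h1
  have hcls : IsRootSubgroupClass S := ⟨hS, hconj⟩
  obtain ⟨B₀, hB₀, hAB₀⟩ := exists_partner hni hA₀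
  refine ⟨hperf, Group.isPerfect_def.mpr hperf, ?_⟩
  have hnt : Nontrivial (G ⧸ Subgroup.center G) := by
    by_contra hnt
    rw [not_nontrivial_iff_subsingleton] at hnt
    have hc : Subgroup.center G = ⊤ := QuotientGroup.subgroup_eq_top_of_subsingleton _ hnt
    apply rankOne_commutator_ne_bot hAB₀
    rw [Subgroup.commutator_eq_bot_iff_le_centralizer]
    intro a _
    rw [Subgroup.mem_centralizer_iff]
    intro b _
    have ha : a ∈ Subgroup.center G := by rw [hc]; trivial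
    exact Subgroup.mem_center_iff.mp ha b
  refine { toNontrivial := hnt, eq_bot_or_eq_top_of_normal := ?_ }
  intro M hM
  have hNn : (M.comap (QuotientGroup.mk' (Subgroup.center G))).Normal := hM.comap _
  by_cases hall : ∀ D ∈ S, D ⊓ M.comap (QuotientGroup.mk' (Subgroup.center G)) = ⊥
  · left
    have h5 := normal_le_center_of_inf_bot hcls h2' h3 h4 hNn hall
    rw [eq_bot_iff]
    intro m hm
    obtain ⟨x, rfl⟩ := QuotientGroup.mk'_surjective (Subgroup.center G) m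
    have hx : x ∈ M.comap (QuotientGroup.mk' (Subgroup.center G)) := hm
    rw [Subgroup.mem_bot]
    exact (QuotientGroup.eq_one_iff x).mpr (h5 hx)
  · right
    obtain ⟨D, hD, hDN⟩ : ∃ D ∈ S, D ⊓ M.comap (QuotientGroup.mk' (Subgroup.center G)) ≠ ⊥ := by
      by_contra hne
      apply hall
      intro D hD
      by_contra hDN
      exact hne ⟨D, hD, hDN⟩
    have h5 := normal_sup_eq_top_of_inf_ne_bot hS h1 h4 hNn hD hDN
    have h6 := commutator_le_of_sup_eq_top hNn (hS.commutative D hD) h5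
    rw [hperf] at h6
    rw [eq_top_iff]
    intro m _
    obtain ⟨x, rfl⟩ := QuotientGroup.mk'_surjective (Subgroup.center G) m
    have hx : x ∈ M.comap (QuotientGroup.mk' (Subgroup.center G)) := h6 trivial
    exact hx

end Cfsg.Agent.Helper26
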