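import Mathlib
import Cfsg.Agent.Helper26.RootGen

set_option autoImplicit false

namespace Cfsg.Agent.Helper26

open Cfsg
open scoped commutatorElement

variable {G : Type*} [Group G]

/-- the setwise stabilizer of a family of subgroups under conjugation -/
def familyStabilizer (Δ : Set (Subgroup G)) : Subgroup G where
  carrier := {g | ∀ T : Subgroup G, conjBy T g ∈ Δ ↔ T ∈ Δ}
  one_mem' := by
    intro T
    rw [conjBy_one]
  mul_mem' := by
    intro g h hg hh T
    rw [← conjBy_conjBy, hg, hh]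
  inv_mem' := by
    intro g hg T
    have h1 := hg (conjBy T g⁻¹)
    rw [conjBy_conjBy, mul_inv_cancel, conjBy_one] at h1
    exact h1.symm

theorem mem_familyStabilizer {Δ : Set (Subgroup G)} {g : G} :
    g ∈ familyStabilizer Δ ↔ ∀ T : Subgroup G, conjBy T g ∈ Δ ↔ T ∈ Δ := Iff.rfl

/-- a member of `S` fixing some member of a weak TI-subset `Δ` stabilizes `Δ` -/
theorem le_familyStabilizer_of_fix {S Δ : Set (Subgroup G)} (hΔ : IsWeakTISubset S Δ)
    {A E : Subgroup G} (hA : A ∈ Δ) (hE : E ∈ S) (hfix : ∀ e ∈ E, conjBy A e = A) :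
    E ≤ familyStabilizer Δ := by
  intro e he
  by_cases he1 : e = 1
  · rw [he1]; exact Subgroup.one_mem _
  · rcases hΔ.2.2.2 e ⟨he1, E, hE, he⟩ with h | h
    · intro T
      constructor
      · intro hT
        rw [← h] at hT
        obtain ⟨T', hT', e'⟩ := hT
        have e'' : conjBy T' e = conjBy T e := e'
        rw [← conjBy_inj.mp e'']
        exact hT'
      · intro hT
        rw [← h]
        exact ⟨T, hT, rfl⟩
    · exfalso
      exact Set.disjoint_left.mp h ⟨A, hA, hfix e he⟩ hA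

/-- `S5040` -/
theorem weakTI_abelian {S : Set (Subgroup G)} (hS : IsRootSubgroupClass S)
    (hnd : IsNondegenerateRootSet S) {Δ : Set (Subgroup G)} (hΔ : IsWeakTISubset S Δ) :
    IsAbelianFamily Δ := by
  have hF : ∀ K ∈ S, ¬ IsIsolatedIn (FAdj S) S K := fun K hK =>
    not_isolated_of_class hS hnd.2.1 hK
  -- a stabilizer equal to `⊤` is impossible
  have htop : familyStabilizer Δ ≠ ⊤ := by
    intro htop
    apply hΔ.2.2.1
    apply Set.Subset.antisymm hΔ.1
    intro B hB
    obtain ⟨A, hA, -⟩ := hΔ.2.1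
    obtain ⟨g, rfl⟩ := hS.2.2 A (hΔ.1 hA) B hB
    have hg : g ∈ familyStabilizer Δ := by rw [htop]; exact Subgroup.mem_top g
    exact (hg A).mpr hA
  have hcomm_le : ∀ A ∈ Δ, ∀ E ∈ S, ⁅A, E⁆ = ⊥ → E ≤ familyStabilizer Δ := by
    intro A hA E hE hAE
    exact le_familyStabilizer_of_fix hΔ hA hE (fun e he =>
      conjBy_eq_of_forall_comm (fun a ha => comm_of_commutator_eq_bot hAE ha he))
  have hline_le : ∀ A ∈ Δ, (⨆ C ∈ linePartners S A, C) ≤ familyStabilizer Δ := by
    intro A hA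
    exact iSup₂_le (fun C hC => hcomm_le A hA C hC.1.1 hC.1.2.2)
  intro A hA B hB a ha b hb
  have hAS := hΔ.1 hA
  have hBS := hΔ.1 hB
  rcases hS.1.pair A hAS B hBS with h | h | h
  · exact comm_of_commutator_eq_bot h ha hb
  · exfalso
    apply htop
    rw [eq_top_iff, ← generated_by_linePartners hS hnd hAS ⟨hBS, h⟩]
    refine sup_le (hline_le A hA) ?_
    exact le_familyStabilizer_of_fix hΔ hB hBS (fun e he => conjBy_of_mem he)
  · exfalso
    apply htop
    have hK := h.1
    have hAl : A ∈ linePartners S ⁅A, B⁆ := (commutator_partition hS.1 (hF A hAS) hAS hBS hK).2.2.1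
    obtain ⟨x, -, hx1, hx2⟩ := line_two_transitive hS.1 hF hK hAl ⁅A, B⁆ ⟨hK, le_sup_left⟩ A
      ⟨hAS, le_sup_right⟩ A ⟨hAS, le_sup_right⟩ ⁅A, B⁆ ⟨hK, le_sup_left⟩ hAl.1.2.1.symm hAl.1.2.1
    have hB'S : conjBy B x ∈ S := hS.1.conj_mem B hBS x
    have hback : ⁅conjBy B x, ⁅A, B⁆⁆ = A := by
      have h1 : ⁅conjBy B x, conjBy A x⁆ = A := by
        rw [← conjBy_commutator, Subgroup.commutator_comm B A, hx1]
      rw [hx2] at h1
      exact h1
    have hrank : IsRankOnePair B (conjBy B x) :=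
      rankOne_of_commutator_back hS.1 hAS hBS hK hB'S hback
    have hAB' : ⁅A, conjBy B x⁆ = ⊥ := by
      have h1 : ⁅conjBy ⁅A, B⁆ x, conjBy B x⁆ = ⊥ := by
        rw [← conjBy_commutator, conjBy_eq_bot_iff, Subgroup.commutator_eq_bot_iff_le_centralizer]
        intro k hk
        rw [Subgroup.mem_centralizer_iff]
        intro b' hb'
        exact (h.2.1 k hk b' (Subgroup.mem_sup_right hb')).symm
      rw [hx1] at h1
      exact h1
    rw [eq_top_iff, ← generated_by_linePartners hS hnd hBS ⟨hB'S, hrank⟩]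
    exact sup_le (hline_le B hB) (hcomm_le A hA _ hB'S hAB')

end Cfsg.Agent.Helper26
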