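import Mathlib
import Cfsg.Agent.Helper26.RootTI

set_option autoImplicit false

namespace Cfsg.Agent.Helper26

open Cfsg
open scoped commutatorElement

variable {G : Type*} [Group G]

theorem line_facts {S : Set (Subgroup G)} {A B : Subgroup G} (hA : A ∈ S)
    (hB : B ∈ linePartners S A) :
    ⁅A, B⁆ = ⊥ ∧ A ⊓ B = ⊥ ∧ ∀ x ∈ A ⊔ B, x ≠ 1 → x ∈ rootElements S := by
  refine ⟨hB.1.2.2, hB.2.2.2 A ⟨hA, le_sup_left⟩ B ⟨hB.1.1, le_sup_right⟩ (Ne.symm hB.1.2.1), ?_⟩
  intro x hx hx1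
  obtain ⟨K, hK, hxK⟩ := hB.2.2.1 x hx hx1
  exact ⟨hx1, K, hK.1, hxK⟩

theorem rankOnePair_of_conj {A B : Subgroup G} {g : G}
    (h : IsRankOnePair (conjBy A g) (conjBy B g)) : IsRankOnePair A B := by
  have h1 := rankOnePair_conj h g⁻¹
  rw [conjBy_conjBy, conjBy_conjBy, inv_mul_cancel, conjBy_one, conjBy_one] at h1
  exact h1

theorem rankOne_transfer {S : Set (Subgroup G)} (hS : IsRootSubgroupSet S) {A C : Subgroup G}
    (hsub : rankOnePartners S A ⊆ rankOnePartners S C) (g : G) {T : Subgroup G} (hT : T ∈ S)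
    (h : IsRankOnePair (conjBy A g) T) : IsRankOnePair (conjBy C g) T := by
  have h1 := rankOnePair_conj h g⁻¹
  rw [conjBy_conjBy, inv_mul_cancel, conjBy_one] at h1
  have h2 : IsRankOnePair C (conjBy T g⁻¹) := (hsub ⟨hS.conj_mem T hT g⁻¹, h1⟩).2
  have h3 := rankOnePair_conj h2 g
  rw [conjBy_conjBy, mul_inv_cancel, conjBy_one] at h3
  exact h3

/-- commuting members with nested sets of rank one partners have the same rank one partners -/
theorem rankOnePartners_eq_of_subset {S : Set (Subgroup G)} (hS : IsRootSubgroupSet S)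
    {A C : Subgroup G} (hcomm : ⁅A, C⁆ = ⊥) (hne : (rankOnePartners S A).Nonempty)
    (hsub : rankOnePartners S A ⊆ rankOnePartners S C) :
    rankOnePartners S A = rankOnePartners S C := by
  obtain ⟨B', hB'S, hAB'⟩ := hne
  obtain ⟨a, ha, ha1⟩ := exists_ne_one_left hAB'
  have hac : ∀ c ∈ C, a * c = c * a := fun c hc => comm_of_commutator_eq_bot hcomm ha hc
  have key : ∀ a ∈ A, a ≠ 1 → ∃ b : G, ∃ c ∈ C, c ≠ 1 ∧ conjBy A b⁻¹ = B' ∧
      conjBy B' (c⁻¹ * a) = conjBy C b⁻¹ ∧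
      ∀ T ∈ S, IsRankOnePair B' T → IsRankOnePair (conjBy B' (c⁻¹ * a)) T := by
    intro a ha ha1
    have hAB : IsRankOnePair A (conjBy B' a) := by
      have h1 := rankOnePair_conj hAB' a
      rw [conjBy_of_mem ha] at h1
      exact h1
    have hBS : conjBy B' a ∈ S := hS.conj_mem B' hB'S a
    have hCB : IsRankOnePair C (conjBy B' a) := (hsub ⟨hBS, hAB⟩).2
    obtain ⟨b, hb, hb1, hbe⟩ := hAB.cond_left a ha ha1
    obtain ⟨c, hc, hc1, hce⟩ := hCB.cond_right b hb hb1
    have e1 : conjBy A b⁻¹ = B' := by rw [hbe, conjBy_conjBy, inv_mul_cancel, conjBy_one]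
    have e2 : conjBy B' (c⁻¹ * a) = conjBy C b⁻¹ := by rw [← conjBy_conjBy]; exact hce
    refine ⟨b, c, hc, hc1, e1, e2, fun T hT h => ?_⟩
    rw [e2]
    apply rankOne_transfer hS hsub b⁻¹ hT
    rw [e1]; exact h
  obtain ⟨b, c, hc, hc1, e1, e2, P1⟩ := key a ha ha1
  obtain ⟨b₂, c₂, hc₂, hc₂1, -, -, P2⟩ := key a⁻¹ (A.inv_mem ha) (inv_ne_one.mpr ha1)
  have P12 : ∀ T ∈ S, IsRankOnePair B' T → IsRankOnePair (conjBy B' (c⁻¹ * c₂⁻¹)) T := by
    intro T hT h
    have h1 := P1 T hT h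
    have h2 := rankOnePair_conj h1 (c⁻¹ * a)⁻¹
    rw [conjBy_conjBy, inv_mul_cancel, conjBy_one] at h2
    have h3 := P2 _ (hS.conj_mem T hT _) h2
    have h4 := rankOnePair_conj h3 (c⁻¹ * a)
    rw [conjBy_conjBy, conjBy_conjBy, mul_inv_cancel, conjBy_one] at h4
    have e : c⁻¹ * a * (c₂⁻¹ * a⁻¹) = c⁻¹ * c₂⁻¹ := by
      have h5 := hac c₂⁻¹ (C.inv_mem hc₂)
      calc c⁻¹ * a * (c₂⁻¹ * a⁻¹) = c⁻¹ * (a * c₂⁻¹) * a⁻¹ := by group
        _ = c⁻¹ * (c₂⁻¹ * a) * a⁻¹ := by rw [h5]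
        _ = c⁻¹ * c₂⁻¹ := by group
    rw [e] at h4
    exact h4
  have hc3 : c⁻¹ * c₂⁻¹ = 1 := by
    by_contra hne1
    have hCB' : IsRankOnePair C B' := (hsub ⟨hB'S, hAB'⟩).2
    obtain ⟨b', hb', -, hb'e⟩ := hCB'.cond_left (c⁻¹ * c₂⁻¹)⁻¹
      (C.inv_mem (C.mul_mem (C.inv_mem hc) (C.inv_mem hc₂))) (inv_ne_one.mpr hne1)
    rw [inv_inv] at hb'e
    have h1 : IsRankOnePair B' (conjBy C b'⁻¹) := by
      have h0 := rankOnePair_conj (RankOnePair_symm hCB') b'⁻¹
      rw [conjBy_of_mem (B'.inv_mem hb')] at h0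
      exact h0
    rw [hb'e] at h1
    have h2 := P12 _ (hS.conj_mem B' hB'S _) h1
    exact h2.ne rfl
  have hm : c₂⁻¹ * a⁻¹ = (c⁻¹ * a)⁻¹ := by
    have h1 : c₂⁻¹ = c := by
      calc c₂⁻¹ = c * (c⁻¹ * c₂⁻¹) := by group
        _ = c := by rw [hc3, mul_one]
    rw [h1, mul_inv_rev, inv_inv]
    have h2 := hac c hc
    calc c * a⁻¹ = a⁻¹ * (a * c) * a⁻¹ := by group
      _ = a⁻¹ * (c * a) * a⁻¹ := by rw [h2]
      _ = a⁻¹ * c := by group
  apply Set.Subset.antisymm hsub
  rintro D ⟨hDS, hCD⟩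
  refine ⟨hDS, ?_⟩
  have h1 := rankOnePair_conj hCD b⁻¹
  rw [← e2] at h1
  have h2 := rankOnePair_conj h1 (c⁻¹ * a)⁻¹
  rw [conjBy_conjBy, inv_mul_cancel, conjBy_one] at h2
  have h3 := P2 _ (hS.conj_mem _ (hS.conj_mem D hDS _) _) h2
  rw [hm] at h3
  have h4 := rankOnePair_of_conj h3
  rw [← e1] at h4
  exact rankOnePair_of_conj h4

/-- given a rank one partner `B` of `A` and a line partner `E'` of `A` with `⁅B, E'⁆ ∈ S`, some
rank one partner of `A` is in rank one position with `E'` -/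
theorem exists_rankOne_both {S : Set (Subgroup G)} (hS : IsRootSubgroupClass S)
    (hnd : IsNondegenerateRootSet S) {A B E' : Subgroup G} (hA : A ∈ S)
    (hB : B ∈ rankOnePartners S A) (hE'l : E' ∈ linePartners S A) (hF' : ⁅B, E'⁆ ∈ S) :
    ∃ C ∈ rankOnePartners S A, IsRankOnePair C E' := by
  have hF : ∀ K ∈ S, ¬ IsIsolatedIn (FAdj S) S K := fun K hK =>
    not_isolated_of_class hS hnd.2.1 hK
  obtain ⟨hcommAE, hinf, hroot⟩ := line_facts hA hE'l
  have hE'S : E' ∈ S := hE'l.1.1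
  have hback : ⁅A, ⁅B, E'⁆⁆ = E' :=
    commutator_back hS.1 hA hB.1 hE'S hB.2 hcommAE hinf hroot hF'
  have hAmem : A ∈ membersIn S (A ⊔ E') := ⟨hA, le_sup_left⟩
  have hE'mem : E' ∈ membersIn S (A ⊔ E') := ⟨hE'S, le_sup_right⟩
  obtain ⟨x, -, hx1, hx2⟩ := line_two_transitive hS.1 hF hA hE'l A hAmem E' hE'mem E' hE'mem A hAmem
    (Ne.symm hE'l.1.2.1) hE'l.1.2.1
  have hE'B : ⁅E', B⁆ ∈ S := by rw [Subgroup.commutator_comm]; exact hF'
  have hl1 : ⁅E', B⁆ ∈ linePartners S E' :=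
    linePartners_symm hE'B (commutator_partition hS.1 (hF E' hE'S) hE'S hB.1 hE'B).2.2.1
  have hl2 := linePartners_conj hS.1 hl1 x
  rw [hx2] at hl2
  obtain ⟨T, hTdef⟩ : ∃ T : Subgroup G, T = conjBy ⁅E', B⁆ x := ⟨_, rfl⟩
  rw [← hTdef] at hl2
  have hTS : T ∈ S := hl2.1.1
  have hE'T : ⁅E', T⁆ = A := by
    have h1 : conjBy ⁅A, ⁅B, E'⁆⁆ x = conjBy E' x := congrArg (fun K => conjBy K x) hback
    rw [conjBy_commutator, hx1, hx2, Subgroup.commutator_comm B E', ← hTdef] at h1
    exact h1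
  have hE'TS : ⁅E', T⁆ ∈ S := by rw [hE'T]; exact hA
  have hcase := rootCommutatorCase_of_mem hS.1 hE'S hTS hE'TS
  obtain ⟨t, ht, ht1⟩ := exists_ne_one_of_ne_bot (hS.1.ne_bot T hTS)
  have hAt : ∀ s ∈ T, conjBy A s = A := fun s hs =>
    conjBy_eq_of_forall_comm (fun a ha => comm_of_commutator_eq_bot hl2.1.2.2 ha hs)
  obtain ⟨P, hPdef⟩ : ∃ P : Subgroup G, P = conjBy E' t⁻¹ := ⟨_, rfl⟩
  have hPS : P ∈ S := by rw [hPdef]; exact hS.1.conj_mem E' hE'S t⁻¹
  have hPle : P ≤ A ⊔ E' := by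
    have h1 := conjBy_le_sup_commutator (A := E') (B := T) (T.inv_mem ht)
    rw [hE'T, sup_comm] at h1
    rw [hPdef]; exact h1
  have hPmem : P ∈ membersIn S (A ⊔ E') := ⟨hPS, hPle⟩
  have hPE' : P ≠ E' := by
    rw [hPdef]
    exact (conj_mem_linePartners hS.1 (hF E' hE'S) hE'S hTS hcase (T.inv_mem ht)
      (inv_ne_one.mpr ht1)).1.2.1
  have hPA : P ≠ A := by
    intro h
    rw [hPdef, ← hAt t⁻¹ (T.inv_mem ht)] at h
    exact hE'l.1.2.1 (conjBy_inj.mp h)
  have hBP : IsRankOnePair B P := by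
    by_contra hnot
    exact line_key hS.1 hA hE'S hPS hcommAE hinf hPle (hE'l.2.2.2 P hPmem A hAmem hPA)
      (hE'l.2.2.2 P hPmem E' hE'mem hPE') hroot hB.1 hB.2
      (fun h => commutator_not_mem_of_rankOne hS.1 hB.1 hE'S h hF') hnot
  refine ⟨conjBy B t, ⟨hS.1.conj_mem B hB.1 t, ?_⟩, ?_⟩
  · have h1 := rankOnePair_conj hB.2 t
    rw [hAt t ht] at h1
    exact h1
  · have h1 := rankOnePair_conj hBP t
    rw [hPdef, conjBy_conjBy, mul_inv_cancel, conjBy_one] at h1
    exact h1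

/-- `S5037`, first half of part (2) -/
theorem commute_of_rankOnePartners_subset {S : Set (Subgroup G)} (hS : IsRootSubgroupClass S)
    (hdn : IsDegenerateRootSet S ∨ IsNondegenerateRootSet S) {A C : Subgroup G} (hA : A ∈ S)
    (hC : C ∈ S) (hsub : rankOnePartners S A ⊆ rankOnePartners S C) : ⁅A, C⁆ = ⊥ := by
  rcases hS.1.pair A hA C hC with h | h | h
  · exact h
  · exfalso; exact ((hsub ⟨hC, h⟩).2).ne rfl
  · rcases hdn with hd | hnd
    · exact absurd h (hd A hA C hC)
    · exfalso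
      have hF : ∀ K ∈ S, ¬ IsIsolatedIn (FAdj S) S K := fun K hK =>
        not_isolated_of_class hS hnd.2.1 hK
      have hK := h.1
      have hK' : ⁅C, A⁆ ∈ S := by rw [Subgroup.commutator_comm]; exact hK
      have hp := commutator_partition hS.1 (hF C hC) hC hA hK'
      have hl : ⁅C, A⁆ ∈ linePartners S C := linePartners_symm hK' hp.2.2.1
      have hall : ∀ B ∈ rankOnePartners S A, ⁅B, ⁅C, A⁆⁆ ∈ S := by
        rintro B ⟨hBS, hAB⟩
        have hCB : IsRankOnePair C B := (hsub ⟨hBS, hAB⟩).2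
        obtain ⟨E, hEl, hEle, hBE, -, -, -⟩ := line_root_group' hS.1 hF hC hl hBS hCB
        have hEmem : E ∈ membersIn S (C ⊔ ⁅C, A⁆) := ⟨hEl.1.1, hEle⟩
        rw [hp.1] at hEmem
        rcases hEmem with ⟨a₀, ha₀, hae⟩ | h'
        · exfalso
          have hae' : conjBy C a₀ = E := hae
          have h1 := rankOnePair_conj hAB a₀⁻¹
          rw [conjBy_of_mem (A.inv_mem ha₀)] at h1
          have h2 : IsRankOnePair C (conjBy B a₀⁻¹) := (hsub ⟨hS.1.conj_mem B hBS _, h1⟩).2
          have h3 := rankOnePair_conj h2 a₀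
          rw [conjBy_conjBy, mul_inv_cancel, conjBy_one, hae'] at h3
          exact commutator_not_mem_of_rankOne hS.1 hBS hEl.1.1 (RankOnePair_symm h3) hBE
        · have h'' : E = ⁅C, A⁆ := h'
          rw [← h'']; exact hBE
      obtain ⟨B, hBS, hAB⟩ := exists_partner (hF A hA) hA
      have hl' : ⁅A, C⁆ ∈ linePartners S A :=
        linePartners_symm hK (commutator_partition hS.1 (hF A hA) hA hC hK).2.2.1
      have hBK' : ⁅B, ⁅A, C⁆⁆ ∈ S := by
        rw [Subgroup.commutator_comm A C]; exact hall B ⟨hBS, hAB⟩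
      obtain ⟨C', hC', hC'K⟩ := exists_rankOne_both hS hnd hA ⟨hBS, hAB⟩ hl' hBK'
      have h5 := hall C' hC'
      rw [Subgroup.commutator_comm C A] at h5
      exact commutator_not_mem_of_rankOne hS.1 hC'.1 hK hC'K h5

/-- `S5037`, part (2) -/
theorem rankOnePartners_twin {S : Set (Subgroup G)} (hS : IsRootSubgroupClass S)
    (hdn : IsDegenerateRootSet S ∨ IsNondegenerateRootSet S) {A C : Subgroup G} (hA : A ∈ S)
    (hC : C ∈ S) (hsub : rankOnePartners S A ⊆ rankOnePartners S C) :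
    ⁅A, C⁆ = ⊥ ∧ rankOnePartners S A = rankOnePartners S C := by
  have hcomm := commute_of_rankOnePartners_subset hS hdn hA hC hsub
  refine ⟨hcomm, ?_⟩
  by_cases hne : (rankOnePartners S A).Nonempty
  · exact rankOnePartners_eq_of_subset hS.1 hcomm hne hsub
  · rw [Set.not_nonempty_iff_eq_empty] at hne
    rw [hne]
    symm
    rw [Set.eq_empty_iff_forall_notMem]
    rintro D ⟨hDS, hCD⟩
    obtain ⟨g, rfl⟩ := hS.2.2 A hA C hC
    have h1 := rankOnePair_conj hCD g⁻¹
    rw [conjBy_conjBy, inv_mul_cancel, conjBy_one] at h1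
    have h2 : conjBy D g⁻¹ ∈ rankOnePartners S A := ⟨hS.1.conj_mem D hDS _, h1⟩
    rw [hne] at h2
    exact h2

theorem mem_centralizingMembers_iff {S : Set (Subgroup G)} {U T : Subgroup G} (hT : T ∈ S) :
    T ∈ centralizingMembers S U ↔ ⁅U, T⁆ = ⊥ := by
  rw [Subgroup.commutator_comm, Subgroup.commutator_eq_bot_iff_le_centralizer]
  exact ⟨fun h => h.2, fun h => ⟨hT, h⟩⟩

/-- if every member commuting with `P` commutes with `C ≠ P`, then `P` and `C` have the same
rank one partners -/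
theorem rankOnePartners_eq_of_centralizing_subset {S : Set (Subgroup G)}
    (hS : IsRootSubgroupClass S) (hdn : IsDegenerateRootSet S ∨ IsNondegenerateRootSet S)
    {P C : Subgroup G} (hP : P ∈ S) (hC : C ∈ S)
    (hsub : centralizingMembers S P ⊆ centralizingMembers S C) :
    rankOnePartners S P = rankOnePartners S C := by
  have h1 : rankOnePartners S C ⊆ rankOnePartners S P := by
    rintro B ⟨hBS, hCB⟩
    refine ⟨hBS, ?_⟩
    rcases hS.1.pair P hP B hBS with h | h | h
    · exfalso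
      have h2 := hsub ((mem_centralizingMembers_iff hBS).mpr h)
      exact rankOne_commutator_ne_bot hCB ((mem_centralizingMembers_iff hBS).mp h2)
    · exact h
    · exfalso
      rcases hdn with hd | hnd
      · exact hd P hP B hBS h
      · have hF : ∀ K ∈ S, ¬ IsIsolatedIn (FAdj S) S K := fun K hK =>
          not_isolated_of_class hS hnd.2.1 hK
        have hK' : ⁅B, P⁆ ∈ S := by rw [Subgroup.commutator_comm]; exact h.1
        have hl : ⁅B, P⁆ ∈ linePartners S B :=
          linePartners_symm hK' (commutator_partition hS.1 (hF B hBS) hBS hP hK').2.2.1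
        obtain ⟨hc, hinf, hroot⟩ := line_facts hBS hl
        apply not_comm_of_line hS.1 hBS hK' hC (RankOnePair_symm hCB) hc hinf hroot
        have hKP : ⁅P, ⁅B, P⁆⁆ = ⊥ := by
          rw [Subgroup.commutator_eq_bot_iff_le_centralizer]
          intro p hp
          rw [Subgroup.mem_centralizer_iff]
          intro k hk
          rw [Subgroup.commutator_comm] at hk
          exact h.2.1 k hk p (Subgroup.mem_sup_left hp)
        exact (mem_centralizingMembers_iff hK').mp
          (hsub ((mem_centralizingMembers_iff hK').mpr hKP))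
  exact ((rankOnePartners_twin hS hdn hC hP h1).2).symm

/-- `S5037`, part (1) -/
theorem centralizingMembers_twin {S : Set (Subgroup G)} (hS : IsRootSubgroupClass S)
    (hdn : IsDegenerateRootSet S ∨ IsNondegenerateRootSet S) {A C : Subgroup G} (hA : A ∈ S)
    (hC : C ∈ S) (hsub : centralizingMembers S A ⊆ centralizingMembers S C) :
    centralizingMembers S A = centralizingMembers S C := by
  have hΩ := rankOnePartners_eq_of_centralizing_subset hS hdn hA hC hsub
  apply Set.Subset.antisymm hsub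
  rintro D ⟨hDS, hDC⟩
  have hCD : ⁅C, D⁆ = ⊥ := (mem_centralizingMembers_iff hDS).mp ⟨hDS, hDC⟩
  rcases hS.1.pair A hA D hDS with h | h | h
  · exact (mem_centralizingMembers_iff hDS).mpr h
  · exfalso
    have h1 : D ∈ rankOnePartners S C := by rw [← hΩ]; exact ⟨hDS, h⟩
    exact rankOne_commutator_ne_bot h1.2 hCD
  · exfalso
    rcases hdn with hd | hnd
    · exact hd A hA D hDS h
    · have hF : ∀ K ∈ S, ¬ IsIsolatedIn (FAdj S) S K := fun K hK =>
        not_isolated_of_class hS hnd.2.1 hK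
      have hK := h.1
      have hp := commutator_partition hS.1 (hF A hA) hA hDS hK
      have hl : ⁅A, D⁆ ∈ linePartners S A := linePartners_symm hK hp.2.2.1
      have hAmem : A ∈ membersIn S (A ⊔ ⁅A, D⁆) := ⟨hA, le_sup_left⟩
      have hKmem : ⁅A, D⁆ ∈ membersIn S (A ⊔ ⁅A, D⁆) := ⟨hK, le_sup_right⟩
      -- conjugates of `A` under elements centralizing `C`
      have hconj : ∀ g : G, (∀ c ∈ C, c * g = g * c) →
          centralizingMembers S (conjBy A g) ⊆ centralizingMembers S C := by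
        intro g hg T hT
        have hTS := hT.1
        have h1 : ⁅conjBy A g, T⁆ = ⊥ := (mem_centralizingMembers_iff hTS).mp hT
        have h2 : ⁅A, conjBy T g⁻¹⁆ = ⊥ := by
          have h3 := congrArg (fun K => conjBy K g⁻¹) h1
          simp only [conjBy_bot] at h3
          rw [conjBy_commutator, conjBy_conjBy, inv_mul_cancel, conjBy_one] at h3
          exact h3
        have hT'S : conjBy T g⁻¹ ∈ S := hS.1.conj_mem T hTS g⁻¹
        have h4 : ⁅C, conjBy T g⁻¹⁆ = ⊥ :=
          (mem_centralizingMembers_iff hT'S).mp (hsub ((mem_centralizingMembers_iff hT'S).mpr h2))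
        have h5 := congrArg (fun K => conjBy K g) h4
        simp only [conjBy_bot] at h5
        rw [conjBy_commutator, conjBy_conjBy, mul_inv_cancel, conjBy_one,
          conjBy_eq_of_forall_comm hg] at h5
        exact (mem_centralizingMembers_iff hTS).mpr h5
      have hDcomm : ∀ d ∈ D, ∀ c ∈ C, c * d = d * c := fun d hd c hc =>
        comm_of_commutator_eq_bot hCD hc hd
      -- `⁅A, D⁆` is such a conjugate
      have hKconj : ∃ g : G, (∀ c ∈ C, c * g = g * c) ∧ ⁅A, D⁆ = conjBy A g := by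
        obtain ⟨x, -, hx1, hx2⟩ := line_two_transitive hS.1 hF hA hl A hAmem ⁅A, D⁆ hKmem
          ⁅A, D⁆ hKmem A hAmem (Ne.symm hl.1.2.1) hl.1.2.1
        have hD'S : conjBy D x ∈ S := hS.1.conj_mem D hDS x
        have hAD' : ⁅A, conjBy D x⁆ = ⊥ := by
          have h1 : ⁅conjBy ⁅A, D⁆ x, conjBy D x⁆ = ⊥ := by
            rw [← conjBy_commutator, conjBy_eq_bot_iff,
              Subgroup.commutator_eq_bot_iff_le_centralizer]
            intro k hk
            rw [Subgroup.mem_centralizer_iff]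
            intro d' hd'
            exact (h.2.1 k hk d' (Subgroup.mem_sup_right hd')).symm
          rw [hx2] at h1
          exact h1
        have hKD' : ⁅⁅A, D⁆, conjBy D x⁆ = A := by
          have h1 : ⁅conjBy A x, conjBy D x⁆ = A := by
            rw [← conjBy_commutator, hx2]
          rw [hx1] at h1
          exact h1
        have hKD'S : ⁅⁅A, D⁆, conjBy D x⁆ ∈ S := by rw [hKD']; exact hA
        have hD'C : ⁅C, conjBy D x⁆ = ⊥ :=
          (mem_centralizingMembers_iff hD'S).mp (hsub ((mem_centralizingMembers_iff hD'S).mpr hAD'))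
        have hp' := (commutator_partition hS.1 (hF _ hK) hK hD'S hKD'S).1
        rw [hKD', sup_comm] at hp'
        obtain ⟨d, hd, hd1⟩ := exists_ne_one_of_ne_bot (hS.1.ne_bot D hDS)
        have hP₀ : conjBy A d ∈ membersIn S (A ⊔ ⁅A, D⁆) := by
          rw [hp.1]; left; exact ⟨d, hd, rfl⟩
        have hP₀A : conjBy A d ≠ A :=
          (conj_mem_linePartners hS.1 (hF A hA) hA hDS h hd hd1).1.2.1
        rw [hp'] at hP₀
        rcases hP₀ with ⟨d', hd', hde⟩ | h'
        · have hde' : conjBy ⁅A, D⁆ d' = conjBy A d := hde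
          refine ⟨d'⁻¹ * d, ?_, ?_⟩
          · intro c hc
            have h1 : Commute c d := hDcomm d hd c hc
            have h2 : Commute c d' := comm_of_commutator_eq_bot hD'C hc hd'
            exact h2.inv_right.mul_right h1
          · rw [← conjBy_conjBy, ← hde', conjBy_conjBy, inv_mul_cancel, conjBy_one]
        · exact absurd h' hP₀A
      have hall : ∀ P ∈ membersIn S (A ⊔ ⁅A, D⁆), rankOnePartners S P = rankOnePartners S C := by
        intro P hPm
        have hPm' := hPm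
        rw [hp.1] at hPm'
        rcases hPm' with ⟨d, hd, hde⟩ | h'
        · have hde' : conjBy A d = P := hde
          apply rankOnePartners_eq_of_centralizing_subset hS (Or.inr hnd) hPm.1 hC
          rw [← hde']
          exact hconj d (fun c hc => hDcomm d hd c hc)
        · have h'' : P = ⁅A, D⁆ := h'
          obtain ⟨g, hg, hge⟩ := hKconj
          apply rankOnePartners_eq_of_centralizing_subset hS (Or.inr hnd) hPm.1 hC
          rw [h'', hge]
          exact hconj g hg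
      obtain ⟨B, hBS, hAB⟩ := exists_partner (hF A hA) hA
      obtain ⟨E, hEl, hEle, hBE, -, -, -⟩ := line_root_group' hS.1 hF hA hl hBS hAB
      have h1 := hall E ⟨hEl.1.1, hEle⟩
      have h2 : B ∈ rankOnePartners S E := by rw [h1, ← hΩ]; exact ⟨hBS, hAB⟩
      exact commutator_not_mem_of_rankOne hS.1 hBS hEl.1.1 (RankOnePair_symm h2.2) hBE

end Cfsg.Agent.Helper26
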