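import Mathlib

set_option autoImplicit false

namespace Cfsg.Agent.S4485P

/-- (L-c2) the Sylow subgroup `P`, viewed inside an overgroup `K`, has the same order -/
theorem h26_card_subtype {G : Type*} [Group G] (p : ℕ) (P : Sylow p G) (K : Subgroup G)
    (hPK : (P : Subgroup G) ≤ K) :
    Nat.card ((P.subtype hPK : Sylow p K) : Subgroup K) = Nat.card (P : Subgroup G) := by
  rw [Sylow.coe_subtype]
  exact Nat.card_congr (Subgroup.subgroupOfEquivOfLe hPK).toEquiv

/-- `p` still divides the order of an overgroup of a Sylow `p`-subgroup -/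
theorem h26_dvd_card_sub {G : Type*} [Group G] [Finite G] (p : ℕ) (hp : p.Prime)
    (hpG : p ∣ Nat.card G) (P : Sylow p G) (K : Subgroup G) (hPK : (P : Subgroup G) ≤ K) :
    p ∣ Nat.card K := by
  haveI : Fact p.Prime := ⟨hp⟩
  have h1 : (P : Subgroup G) ≠ ⊥ := P.ne_bot_of_dvd_card hpG
  obtain ⟨k, hk⟩ := P.isPGroup'.exists_card_eq
  have hk0 : k ≠ 0 := by
    rintro rfl
    rw [pow_zero] at hk
    exact h1 ((Subgroup.card_eq_one).mp hk)
  have h2 : p ∣ Nat.card (P : Subgroup G) := by
    rw [hk]; exact dvd_pow_self p hk0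
  exact dvd_trans h2 (Subgroup.card_dvd_of_le hPK)

/-- (L-c1) the centralizer condition passes to an overgroup `K` of `P` -/
theorem h26_hstar_sub {G : Type*} [Group G] (p : ℕ) (P : Sylow p G) (K : Subgroup G)
    (hPK : (P : Subgroup G) ≤ K)
    (hstar : ∀ x ∈ (P : Subgroup G), x ≠ 1 →
      Subgroup.centralizer ({x} : Set G) = Subgroup.centralizer ((P : Subgroup G) : Set G)) :
    ∀ x ∈ ((P.subtype hPK : Sylow p K) : Subgroup K), x ≠ 1 →
      Subgroup.centralizer ({x} : Set K) =
        Subgroup.centralizer (((P.subtype hPK : Sylow p K) : Subgroup K) : Set K) := by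
  intro x hx hx1
  rw [Sylow.coe_subtype] at hx ⊢
  have hxP : (x : G) ∈ (P : Subgroup G) := Subgroup.mem_subgroupOf.mp hx
  have hx1' : (x : G) ≠ 1 := fun h => hx1 (Subtype.ext h)
  have hs := hstar (x : G) hxP hx1'
  ext g
  simp only [Subgroup.mem_centralizer_iff, Set.mem_singleton_iff, forall_eq, SetLike.mem_coe]
  constructor
  · intro h y hy
    have hg : (g : G) ∈ Subgroup.centralizer ({(x : G)} : Set G) := by
      rw [Subgroup.mem_centralizer_iff]
      intro z hz
      rw [Set.mem_singleton_iff] at hz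
      subst hz
      have := congrArg Subtype.val h
      simpa using this
    rw [hs, Subgroup.mem_centralizer_iff] at hg
    have := hg (y : G) (Subgroup.mem_subgroupOf.mp hy)
    exact Subtype.ext (by simpa using this)
  · intro h
    exact h x hx

/-- a `p`-element normalizing a Sylow `p`-subgroup lies in it -/
theorem h26_pelt_mem {G : Type*} [Group G] [Finite G] {p : ℕ} [Fact p.Prime] (P : Sylow p G)
    (x : G) (hx : x ∈ Subgroup.normalizer ((P : Subgroup G) : Set G)) (k : ℕ)
    (hxp : x ^ (p ^ k) = 1) : x ∈ (P : Subgroup G) := by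
  have h1 : IsPGroup p (Subgroup.zpowers x) := by
    intro y
    obtain ⟨m, hm⟩ := Subgroup.mem_zpowers_iff.mp y.2
    refine ⟨k, ?_⟩
    apply Subtype.ext
    simp only [Subgroup.coe_pow, Subgroup.coe_one]
    rw [← hm, ← zpow_natCast, ← zpow_mul, mul_comm, zpow_mul, zpow_natCast, hxp, one_zpow]
  have h2 : Subgroup.zpowers x ≤ Subgroup.normalizer ((P : Subgroup G) : Set G) := by
    rw [Subgroup.zpowers_le]; exact hx
  have h3 := IsPGroup.to_sup_of_normal_right' h1 P.isPGroup' h2
  have h4 := P.is_maximal' h3 le_sup_right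
  have : x ∈ Subgroup.zpowers x ⊔ (P : Subgroup G) :=
    (le_sup_left : Subgroup.zpowers x ≤ _) (Subgroup.mem_zpowers x)
  rw [h4] at this
  exact this

/-- (L-d) if `P` is normal in a normal subgroup `K` of `G`, then `P` is normal in `G` -/
theorem h26_normal_of_sub {G : Type*} [Group G] [Finite G] (p : ℕ) (hp : p.Prime)
    (P : Sylow p G) (K : Subgroup G) (hK : K.Normal) (hPK : (P : Subgroup G) ≤ K)
    (hn : ((P.subtype hPK : Sylow p K) : Subgroup K).Normal) : (P : Subgroup G).Normal := by
  haveI : Fact p.Prime := ⟨hp⟩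
  rw [Sylow.coe_subtype] at hn
  -- K normalizes P
  have hKN : K ≤ Subgroup.normalizer ((P : Subgroup G) : Set G) := by
    intro k hk
    rw [Subgroup.mem_set_normalizer_iff]
    intro y
    constructor
    · intro hy
      have := hn.conj_mem ⟨y, hPK hy⟩ (Subgroup.mem_subgroupOf.mpr hy) ⟨k, hk⟩
      have h2 := Subgroup.mem_subgroupOf.mp this
      have h3 : k * y * k⁻¹ ∈ (P : Subgroup G) := by simpa using h2
      exact h3
    · intro hy
      have := hn.conj_mem ⟨k * y * k⁻¹, hPK hy⟩ (Subgroup.mem_subgroupOf.mpr hy)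
        (⟨k, hk⟩ : K)⁻¹
      have h2 := Subgroup.mem_subgroupOf.mp this
      have h3 : y ∈ (P : Subgroup G) := by simpa [mul_assoc] using h2
      exact h3
  refine ⟨fun y hy g => ?_⟩
  have hyK : g * y * g⁻¹ ∈ K := hK.conj_mem y (hPK hy) g
  obtain ⟨j, hj⟩ := P.isPGroup' ⟨y, hy⟩
  have hj' : y ^ (p ^ j) = 1 := by
    have := congrArg Subtype.val hj
    simpa using this
  apply h26_pelt_mem P _ (hKN hyK) j
  rw [conj_pow, hj']; simp

end Cfsg.Agent.S4485P
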