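import Mathlib
import Cfsg.Prelude.Def_RootSubgroups
import Cfsg.Prelude.Def_CaseTheorems
import Cfsg.Agent.Helper26.RootSimple
import Cfsg.Agent.S0243
import Cfsg.Agent.Helper27.SL2Elem
import Cfsg.Agent.S5017

set_option autoImplicit false

namespace Cfsg.Agent.Helper26

open Cfsg
open scoped commutatorElement

section SmallOrders

theorem card_le_of_subset_range {α ι : Type*} [Finite ι] (K : Set α) (f : ι → α)
    (h : K ⊆ Set.range f) : K.Finite ∧ Nat.card ↥K ≤ Nat.card ι := by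
  have hfin : K.Finite := (Set.finite_range f).subset h
  refine ⟨hfin, ?_⟩
  rw [Nat.card_coe_set_eq]
  calc K.ncard ≤ (Set.range f).ncard := Set.ncard_le_ncard h (Set.finite_range f)
    _ = Nat.card ↥(Set.range f) := (Nat.card_coe_set_eq _).symm
    _ ≤ Nat.card ι := Nat.card_le_card_of_surjective _ Set.rangeFactorization_surjective

variable {G : Type*} [Group G]

/-- a group generated by two involutions satisfying the braid relation has at most 6 elements -/
theorem closure_pair_card_le_six {a b : G} (ha : a * a = 1) (hb : b * b = 1)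
    (hbr : a * b * a = b * a * b) :
    (Subgroup.closure ({a, b} : Set G) : Set G).Finite ∧
      Nat.card ↥(Subgroup.closure ({a, b} : Set G)) ≤ 6 := by
  classical
  have hai : a⁻¹ = a := inv_eq_of_mul_eq_one_left ha
  have hbi : b⁻¹ = b := inv_eq_of_mul_eq_one_left hb
  have step : ∀ t ∈ ({1, a, b, a * b, b * a, a * b * a} : Set G), ∀ y ∈ ({a, b} : Set G),
      t * y ∈ ({1, a, b, a * b, b * a, a * b * a} : Set G) := by
    intro t ht y hy
    simp only [Set.mem_insert_iff, Set.mem_singleton_iff] at ht hy ⊢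
    rcases hy with hy | hy
    · rw [hy]
      rcases ht with ht | ht | ht | ht | ht | ht
      · right; left; rw [ht, one_mul]
      · left; rw [ht]; exact ha
      · right; right; right; right; left; rw [ht]
      · right; right; right; right; right; rw [ht]
      · right; right; left; rw [ht, mul_assoc, ha, mul_one]
      · right; right; right; left; rw [ht, mul_assoc, ha, mul_one]
    · rw [hy]
      rcases ht with ht | ht | ht | ht | ht | ht
      · right; right; left; rw [ht, one_mul]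
      · right; right; right; left; rw [ht]
      · left; rw [ht]; exact hb
      · right; left; rw [ht, mul_assoc, hb, mul_one]
      · right; right; right; right; right; rw [ht]; exact hbr.symm
      · right; right; right; right; left; rw [ht, hbr, mul_assoc, hb, mul_one]
  have hsub : (Subgroup.closure ({a, b} : Set G) : Set G) ⊆
      {1, a, b, a * b, b * a, a * b * a} := by
    intro x hx
    induction hx using Subgroup.closure_induction_right with
    | one => simp
    | mul_right x hx y hy ih => exact step x ih y hy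
    | mul_inv_cancel x hx y hy ih =>
      have hy' : y⁻¹ = y := by
        rcases hy with hy | hy
        · rw [hy]; exact hai
        · rw [Set.mem_singleton_iff] at hy; rw [hy]; exact hbi
      rw [hy']; exact step x ih y hy
  have hfin : ({1, a, b, a * b, b * a, a * b * a} : Set G).Finite := by simp
  refine ⟨hfin.subset hsub, ?_⟩
  show (Subgroup.closure ({a, b} : Set G) : Set G).ncard ≤ 6
  have h1 := Set.ncard_le_ncard hsub hfin
  have h2 : ({1, a, b, a * b, b * a, a * b * a} : Set G).ncard ≤ 6 := by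
    have e : ({1, a, b, a * b, b * a, a * b * a} : Set G) =
        ↑({1, a, b, a * b, b * a, a * b * a} : Finset G) := by simp
    rw [e, Set.ncard_coe_finset]
    exact Finset.card_le_six
  exact h1.trans h2

theorem braid3_facts {a b i z j : G} (ha : a ^ 3 = 1) (hbr : a * b * a = b * a * b)
    (hi : i = a * b * a) (hz : z = i * i) (hj : j = a * i * a⁻¹) :
    i * a = b * i ∧ Commute z a ∧ Commute z b ∧ j * j = z ∧ z * z = 1 ∧ j * i = i * j * z ∧
      a * j * a⁻¹ = z * i * j := by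
  have h3 : a * a * a = 1 := by rw [← ha, pow_succ, pow_succ, pow_one]
  have hai : a⁻¹ = a * a := inv_eq_of_mul_eq_one_right (by rw [← mul_assoc]; exact h3)
  have R1 : i * a = b * i := by
    rw [hi]
    calc a * b * a * a = b * a * b * a := by rw [hbr]
      _ = b * (a * b * a) := by group
  have R2 : i * b = a * i := by
    rw [hi]
    calc a * b * a * b = a * (b * a * b) := by group
      _ = a * (a * b * a) := by rw [hbr]
  have hza : Commute z a := by
    show z * a = a * z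
    rw [hz]
    calc i * i * a = i * (i * a) := by group
      _ = i * (b * i) := by rw [R1]
      _ = i * b * i := by group
      _ = a * i * i := by rw [R2]
      _ = a * (i * i) := by group
  have hzb : Commute z b := by
    show z * b = b * z
    rw [hz]
    calc i * i * b = i * (i * b) := by group
      _ = i * (a * i) := by rw [R2]
      _ = i * a * i := by group
      _ = b * i * i := by rw [R1]
      _ = b * (i * i) := by group
  have hzi : Commute z i := by
    rw [hz]; exact (Commute.refl i).mul_left (Commute.refl i)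
  have hzj : Commute z j := by
    rw [hj]; exact (hza.mul_right hzi).mul_right hza.inv_right
  have R6 : j * j = z := by
    calc j * j = a * (i * i) * a⁻¹ := by rw [hj]; group
      _ = a * z * a⁻¹ := by rw [hz]
      _ = z * a * a⁻¹ := by rw [hza.eq]
      _ = z := by group
  obtain ⟨k, hk⟩ : ∃ k, k = a⁻¹ * i * a := ⟨_, rfl⟩
  have hk2 : k = b * a⁻¹ := by
    rw [hk, hai]
    calc a * a * i * a = a * a * (a * b * a) * a := by rw [hi]
      _ = (a * a * a) * b * (a * a) := by group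
      _ = b * (a * a) := by rw [h3, one_mul]
  have R5 : i * j = z * k := by
    calc i * j = (i * a) * i * a⁻¹ := by rw [hj]; group
      _ = (b * i) * i * a⁻¹ := by rw [R1]
      _ = b * (i * i) * a⁻¹ := by group
      _ = b * z * a⁻¹ := by rw [hz]
      _ = z * b * a⁻¹ := by rw [hzb.eq]
      _ = z * (b * a⁻¹) := by group
      _ = z * k := by rw [hk2]
  have haa : a⁻¹ * a⁻¹ = a := by
    rw [hai]
    calc a * a * (a * a) = (a * a * a) * a := by group
      _ = a := by rw [h3, one_mul]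
  have ajk : a * j * a⁻¹ = k := by
    calc a * j * a⁻¹ = (a * a) * i * (a⁻¹ * a⁻¹) := by rw [hj]; group
      _ = a⁻¹ * i * a := by rw [← hai, haa]
      _ = k := hk.symm
  have aka : a * k * a⁻¹ = i := by rw [hk]; group
  have R7 : j * k = z * i := by
    calc j * k = (a * i * a⁻¹) * (a * j * a⁻¹) := by rw [ajk, ← hj]
      _ = a * (i * j) * a⁻¹ := by group
      _ = a * (z * k) * a⁻¹ := by rw [R5]
      _ = (a * z) * k * a⁻¹ := by group
      _ = (z * a) * k * a⁻¹ := by rw [hza.eq]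
      _ = z * (a * k * a⁻¹) := by group
      _ = z * i := by rw [aka]
  have hk' : k = z⁻¹ * (i * j) := by rw [R5]; group
  have E0 : j * (z⁻¹ * (i * j)) = z * i := by rw [← hk']; exact R7
  have E1 : j * i * j = z * (z * i) := by
    calc j * i * j = (j * z) * z⁻¹ * (i * j) := by group
      _ = (z * j) * z⁻¹ * (i * j) := by rw [hzj.eq]
      _ = z * (j * (z⁻¹ * (i * j))) := by group
      _ = z * (z * i) := by rw [E0]
  have hL : (j * i * j) * (j * i * j) = z * z * z := by
    calc (j * i * j) * (j * i * j) = j * i * (j * j) * i * j := by group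
      _ = j * i * z * i * j := by rw [R6]
      _ = j * (i * z) * i * j := by group
      _ = j * (z * i) * i * j := by rw [hzi.eq]
      _ = (j * z) * (i * i) * j := by group
      _ = (z * j) * z * j := by rw [hzj.eq, ← hz]
      _ = z * (j * z) * j := by group
      _ = z * (z * j) * j := by rw [hzj.eq]
      _ = z * z * (j * j) := by group
      _ = z * z * z := by rw [R6]
  have hR : (z * (z * i)) * (z * (z * i)) = z * z * z * (z * z) := by
    calc (z * (z * i)) * (z * (z * i)) = z * z * (i * z) * z * i := by group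
      _ = z * z * (z * i) * z * i := by rw [hzi.eq]
      _ = z * z * z * (i * z) * i := by group
      _ = z * z * z * (z * i) * i := by rw [hzi.eq]
      _ = z * z * z * z * (i * i) := by group
      _ = z * z * z * z * z := by rw [← hz]
      _ = z * z * z * (z * z) := by group
  have hzz : z * z = 1 := by
    have h5 : z * z * z = z * z * z * (z * z) := by
      calc z * z * z = (j * i * j) * (j * i * j) := hL.symm
        _ = (z * (z * i)) * (z * (z * i)) := by rw [E1]
        _ = z * z * z * (z * z) := hR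
    exact left_eq_mul.mp h5
  have hji1 : j * i * j = i := by
    rw [E1, ← mul_assoc, hzz, one_mul]
  have hjinv : j⁻¹ = j * z := by
    apply inv_eq_of_mul_eq_one_right
    rw [← mul_assoc, R6, hzz]
  have hzinv : z⁻¹ = z := inv_eq_of_mul_eq_one_right hzz
  refine ⟨R1, hza, hzb, R6, hzz, ?_, ?_⟩
  · calc j * i = (j * i * j) * j⁻¹ := by group
      _ = i * (j * z) := by rw [hji1, hjinv]
      _ = i * j * z := by group
  · rw [ajk, hk', hzinv]; group

/-- a group generated by `a, b` with `a³ = 1` and the braid relation has at most 24 elements -/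
theorem closure_pair_card_le_24 {a b : G} (ha : a ^ 3 = 1) (hbr : a * b * a = b * a * b) :
    (Subgroup.closure ({a, b} : Set G) : Set G).Finite ∧
      Nat.card ↥(Subgroup.closure ({a, b} : Set G)) ≤ 24 := by
  obtain ⟨i, hi⟩ : ∃ i, i = a * b * a := ⟨_, rfl⟩
  obtain ⟨z, hz⟩ : ∃ z, z = i * i := ⟨_, rfl⟩
  obtain ⟨j, hj⟩ : ∃ j, j = a * i * a⁻¹ := ⟨_, rfl⟩
  obtain ⟨R1, hza, hzb, hjj, hzz, hji, haj⟩ := braid3_facts ha hbr hi hz hj
  have h3 : a * a * a = 1 := by rw [← ha, pow_succ, pow_succ, pow_one]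
  have hai : a⁻¹ = a ^ 2 := inv_eq_of_mul_eq_one_right (by rw [pow_two, ← mul_assoc]; exact h3)
  have hzi : Commute z i := by rw [hz]; exact (Commute.refl i).mul_left (Commute.refl i)
  have hzj : Commute z j := by rw [hj]; exact (hza.mul_right hzi).mul_right hza.inv_right
  have hii : i * i = z := hz.symm
  have hiinv : i⁻¹ = i * i * i := by
    apply inv_eq_of_mul_eq_one_right
    calc i * (i * i * i) = (i * i) * (i * i) := by group
      _ = 1 := by rw [hii, hzz]
  have hjinv : j⁻¹ = j * j * j := by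
    apply inv_eq_of_mul_eq_one_right
    calc j * (j * j * j) = (j * j) * (j * j) := by group
      _ = 1 := by rw [hjj, hzz]
  have L1 : ∀ d : ℕ, j ^ d * i = i * j ^ d * z ^ d := by
    intro d
    induction d with
    | zero => simp
    | succ d ih =>
      calc j ^ (d + 1) * i = j ^ d * (j * i) := by rw [pow_succ]; group
        _ = j ^ d * (i * j * z) := by rw [hji]
        _ = (j ^ d * i) * j * z := by group
        _ = (i * j ^ d * z ^ d) * j * z := by rw [ih]
        _ = i * j ^ d * (z ^ d * j) * z := by group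
        _ = i * j ^ d * (j * z ^ d) * z := by rw [(hzj.pow_left d).eq]
        _ = i * (j ^ d * j) * (z ^ d * z) := by group
        _ = i * j ^ (d + 1) * z ^ (d + 1) := by rw [← pow_succ, ← pow_succ]
  obtain ⟨Q, hQdef⟩ : ∃ Q, Q = Subgroup.closure ({i, j} : Set G) := ⟨_, rfl⟩
  have hiQ : i ∈ Q := by rw [hQdef]; exact Subgroup.subset_closure (by simp)
  have hjQ : j ∈ Q := by rw [hQdef]; exact Subgroup.subset_closure (by simp)
  have hzQ : z ∈ Q := by rw [hz]; exact Q.mul_mem hiQ hiQ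
  have stepi : ∀ x : G, (∃ e d g : ℕ, x = i ^ e * j ^ d * z ^ g) →
      ∃ e d g : ℕ, x * i = i ^ e * j ^ d * z ^ g := by
    rintro x ⟨e, d, g, rfl⟩
    refine ⟨e + 1, d, d + g, ?_⟩
    calc i ^ e * j ^ d * z ^ g * i = i ^ e * j ^ d * (z ^ g * i) := by group
      _ = i ^ e * j ^ d * (i * z ^ g) := by rw [(hzi.pow_left g).eq]
      _ = i ^ e * (j ^ d * i) * z ^ g := by group
      _ = i ^ e * (i * j ^ d * z ^ d) * z ^ g := by rw [L1]
      _ = (i ^ e * i) * j ^ d * (z ^ d * z ^ g) := by group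
      _ = i ^ (e + 1) * j ^ d * z ^ (d + g) := by rw [← pow_succ, ← pow_add]
  have stepj : ∀ x : G, (∃ e d g : ℕ, x = i ^ e * j ^ d * z ^ g) →
      ∃ e d g : ℕ, x * j = i ^ e * j ^ d * z ^ g := by
    rintro x ⟨e, d, g, rfl⟩
    refine ⟨e, d + 1, g, ?_⟩
    calc i ^ e * j ^ d * z ^ g * j = i ^ e * j ^ d * (z ^ g * j) := by group
      _ = i ^ e * j ^ d * (j * z ^ g) := by rw [(hzj.pow_left g).eq]
      _ = i ^ e * (j ^ d * j) * z ^ g := by group
      _ = i ^ e * j ^ (d + 1) * z ^ g := by rw [← pow_succ]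
  have hQ : ∀ q ∈ Q, ∃ e d g : ℕ, q = i ^ e * j ^ d * z ^ g := by
    intro q hq
    rw [hQdef] at hq
    induction hq using Subgroup.closure_induction_right with
    | one => exact ⟨0, 0, 0, by simp⟩
    | mul_right x hx y hy ih =>
      rcases hy with hy | hy
      · rw [hy]; exact stepi x ih
      · rw [Set.mem_singleton_iff] at hy; rw [hy]; exact stepj x ih
    | mul_inv_cancel x hx y hy ih =>
      rcases hy with hy | hy
      · rw [hy, hiinv, ← mul_assoc, ← mul_assoc]
        exact stepi _ (stepi _ (stepi x ih))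
      · rw [Set.mem_singleton_iff] at hy
        rw [hy, hjinv, ← mul_assoc, ← mul_assoc]
        exact stepj _ (stepj _ (stepj x ih))
  have hz2 : ∀ g : ℕ, z ^ g = z ^ (g % 2) := by
    intro g
    conv_lhs => rw [← Nat.mod_add_div g 2]
    rw [pow_add, pow_mul, pow_two, hzz, one_pow, mul_one]
  have hi2 : ∀ e : ℕ, i ^ e = i ^ (e % 2) * z ^ (e / 2) := by
    intro e
    conv_lhs => rw [← Nat.mod_add_div e 2]
    rw [pow_add, pow_mul, pow_two, hii]
  have hj2 : ∀ d : ℕ, j ^ d = j ^ (d % 2) * z ^ (d / 2) := by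
    intro d
    conv_lhs => rw [← Nat.mod_add_div d 2]
    rw [pow_add, pow_mul, pow_two, hjj]
  have hQ8 : ∀ q ∈ Q, ∃ t : Fin 2 × Fin 2 × Fin 2,
      q = i ^ (t.1 : ℕ) * j ^ (t.2.1 : ℕ) * z ^ (t.2.2 : ℕ) := by
    intro q hq
    obtain ⟨e, d, g, rfl⟩ := hQ q hq
    refine ⟨(⟨e % 2, Nat.mod_lt _ (by norm_num)⟩, ⟨d % 2, Nat.mod_lt _ (by norm_num)⟩,
      ⟨(e / 2 + d / 2 + g) % 2, Nat.mod_lt _ (by norm_num)⟩), ?_⟩
    show i ^ e * j ^ d * z ^ g = i ^ (e % 2) * j ^ (d % 2) * z ^ ((e / 2 + d / 2 + g) % 2)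
    rw [← hz2, hi2 e, hj2 d]
    calc i ^ (e % 2) * z ^ (e / 2) * (j ^ (d % 2) * z ^ (d / 2)) * z ^ g
        = i ^ (e % 2) * (z ^ (e / 2) * j ^ (d % 2)) * z ^ (d / 2) * z ^ g := by
          simp only [mul_assoc]
      _ = i ^ (e % 2) * (j ^ (d % 2) * z ^ (e / 2)) * z ^ (d / 2) * z ^ g := by
          rw [((hzj.pow_left (e / 2)).pow_right (d % 2)).eq]
      _ = i ^ (e % 2) * j ^ (d % 2) * (z ^ (e / 2) * z ^ (d / 2) * z ^ g) := by
          simp only [mul_assoc]
      _ = i ^ (e % 2) * j ^ (d % 2) * z ^ (e / 2 + d / 2 + g) := by rw [← pow_add, ← pow_add]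
  have hnorm : ∀ q ∈ Q, a * q * a⁻¹ ∈ Q := by
    intro q hq
    have hq' := hq
    rw [hQdef] at hq'
    induction hq' using Subgroup.closure_induction with
    | mem y hy =>
      rcases hy with hy | hy
      · rw [hy, ← hj]; exact hjQ
      · rw [Set.mem_singleton_iff] at hy
        rw [hy, haj]; exact Q.mul_mem (Q.mul_mem hzQ hiQ) hjQ
    | one => simpa using Q.one_mem
    | mul x y hx hy ihx ihy =>
      have e : a * (x * y) * a⁻¹ = (a * x * a⁻¹) * (a * y * a⁻¹) := by group
      rw [e]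
      exact Q.mul_mem (ihx (by rw [hQdef]; exact hx)) (ihy (by rw [hQdef]; exact hy))
    | inv x hx ih =>
      have e : a * x⁻¹ * a⁻¹ = (a * x * a⁻¹)⁻¹ := by group
      rw [e]; exact Q.inv_mem (ih (by rw [hQdef]; exact hx))
  have hnormpow : ∀ m : ℕ, ∀ q ∈ Q, a ^ m * q * (a ^ m)⁻¹ ∈ Q := by
    intro m
    induction m with
    | zero => intro q hq; simpa using hq
    | succ m ih =>
      intro q hq
      have e : a ^ (m + 1) * q * (a ^ (m + 1))⁻¹ = a * (a ^ m * q * (a ^ m)⁻¹) * a⁻¹ := by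
        rw [pow_succ']; group
      rw [e]; exact hnorm _ (ih q hq)
  have hb : b = i * a * i⁻¹ := by
    calc b = (b * i) * i⁻¹ := by group
      _ = i * a * i⁻¹ := by rw [← R1]
  have hbinv : b⁻¹ = i * a ^ 2 * i⁻¹ := by
    rw [← hai]
    calc b⁻¹ = (i * a * i⁻¹)⁻¹ := by rw [← hb]
      _ = i * a⁻¹ * i⁻¹ := by group
  have key : ∀ (q : G), q ∈ Q → ∀ (m n : ℕ), ∃ q' ∈ Q,
      q * a ^ m * (i * a ^ n * i⁻¹) = q' * a ^ (m + n) := by
    intro q hq m n
    refine ⟨q * (a ^ m * i * (a ^ m)⁻¹) * (a ^ (m + n) * i⁻¹ * (a ^ (m + n))⁻¹), ?_, ?_⟩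
    · exact Q.mul_mem (Q.mul_mem hq (hnormpow m i hiQ)) (hnormpow (m + n) _ (Q.inv_mem hiQ))
    · rw [pow_add]; group
  have hT : ∀ x ∈ Subgroup.closure ({a, b} : Set G), ∃ q ∈ Q, ∃ m : ℕ, x = q * a ^ m := by
    intro x hx
    induction hx using Subgroup.closure_induction_right with
    | one => exact ⟨1, Q.one_mem, 0, by simp⟩
    | mul_right x hx y hy ih =>
      obtain ⟨q, hq, m, rfl⟩ := ih
      rcases hy with hy | hy
      · rw [hy]; exact ⟨q, hq, m + 1, by rw [pow_succ]; group⟩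
      · rw [Set.mem_singleton_iff] at hy
        obtain ⟨q', hq', e⟩ := key q hq m 1
        rw [pow_one] at e
        rw [hy]
        exact ⟨q', hq', m + 1, by rw [← e, ← hb]⟩
    | mul_inv_cancel x hx y hy ih =>
      obtain ⟨q, hq, m, rfl⟩ := ih
      rcases hy with hy | hy
      · rw [hy, hai]; exact ⟨q, hq, m + 2, by rw [pow_add]; group⟩
      · rw [Set.mem_singleton_iff] at hy
        obtain ⟨q', hq', e⟩ := key q hq m 2
        rw [hy]
        exact ⟨q', hq', m + 2, by rw [← e, ← hbinv]⟩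
  have hsub : (Subgroup.closure ({a, b} : Set G) : Set G) ⊆
      Set.range (fun t : (Fin 2 × Fin 2 × Fin 2) × Fin 3 =>
        i ^ (t.1.1 : ℕ) * j ^ (t.1.2.1 : ℕ) * z ^ (t.1.2.2 : ℕ) * a ^ (t.2 : ℕ)) := by
    intro x hx
    obtain ⟨q, hq, m, rfl⟩ := hT x hx
    obtain ⟨t, rfl⟩ := hQ8 q hq
    refine ⟨(t, ⟨m % 3, Nat.mod_lt _ (by norm_num)⟩), ?_⟩
    show i ^ (t.1 : ℕ) * j ^ (t.2.1 : ℕ) * z ^ (t.2.2 : ℕ) * a ^ (m % 3) = _
    congr 1
    conv_rhs => rw [← Nat.mod_add_div m 3]
    rw [pow_add, pow_mul, ha, one_pow, mul_one]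
  have h := card_le_of_subset_range _ _ hsub
  refine ⟨h.1, h.2.trans ?_⟩
  simp [Nat.card_eq_fintype_card]

end SmallOrders

section Graph

theorem exists_hom_of_graph {X Y : Type*} [Group X] [Group Y] [Finite Y] {a b : X} {u l : Y}
    (hY : Subgroup.closure ({u, l} : Set Y) = ⊤)
    (hfin : (Subgroup.closure ({(a, u), (b, l)} : Set (X × Y)) : Set (X × Y)).Finite)
    (hcard : Nat.card ↥(Subgroup.closure ({(a, u), (b, l)} : Set (X × Y))) ≤ Nat.card Y) :
    ∃ f : Y →* X, f u = a ∧ f l = b := by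
  obtain ⟨D, hD⟩ : ∃ D, D = Subgroup.closure ({(a, u), (b, l)} : Set (X × Y)) := ⟨_, rfl⟩
  rw [← hD] at hfin hcard
  haveI : Finite D := hfin.to_subtype
  have hau : (a, u) ∈ D := by rw [hD]; exact Subgroup.subset_closure (by simp)
  have hbl : (b, l) ∈ D := by rw [hD]; exact Subgroup.subset_closure (by simp)
  obtain ⟨π₂, hπ₂⟩ : ∃ π₂ : D →* Y, π₂ = (MonoidHom.snd X Y).comp D.subtype := ⟨_, rfl⟩
  have hsurj : Function.Surjective π₂ := by
    rw [← MonoidHom.range_eq_top, eq_top_iff, ← hY, Subgroup.closure_le]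
    intro y hy
    rcases hy with hy | hy
    · rw [hy]; exact ⟨⟨(a, u), hau⟩, by rw [hπ₂]; rfl⟩
    · rw [Set.mem_singleton_iff] at hy
      rw [hy]; exact ⟨⟨(b, l), hbl⟩, by rw [hπ₂]; rfl⟩
  have hbij : Function.Bijective π₂ := hsurj.bijective_of_nat_card_le hcard
  obtain ⟨e, he⟩ : ∃ e : D ≃* Y, ∀ d, e d = π₂ d := ⟨MulEquiv.ofBijective π₂ hbij, fun _ => rfl⟩
  refine ⟨((MonoidHom.fst X Y).comp D.subtype).comp e.symm.toMonoidHom, ?_, ?_⟩
  · have h1 : e.symm u = ⟨(a, u), hau⟩ := by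
      rw [MulEquiv.symm_apply_eq, he, hπ₂]; rfl
    show ((MonoidHom.fst X Y).comp D.subtype) (e.symm u) = a
    rw [h1]; rfl
  · have h1 : e.symm l = ⟨(b, l), hbl⟩ := by
      rw [MulEquiv.symm_apply_eq, he, hπ₂]; rfl
    show ((MonoidHom.fst X Y).comp D.subtype) (e.symm l) = b
    rw [h1]; rfl

theorem surjective_of_closure_eq_top {X Y : Type*} [Group X] [Group Y] {a b : X} {u l : Y}
    (hX : Subgroup.closure ({a, b} : Set X) = ⊤) (f : Y →* X) (hu : f u = a) (hl : f l = b) :
    Function.Surjective f := by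
  rw [← MonoidHom.range_eq_top, eq_top_iff, ← hX, Subgroup.closure_le]
  intro x hx
  rcases hx with hx | hx
  · rw [hx]; exact ⟨u, hu⟩
  · rw [Set.mem_singleton_iff] at hx
    rw [hx]; exact ⟨l, hl⟩

theorem normal_le_center_of_card_le_two {G : Type*} [Group G] (N : Subgroup G) [N.Normal]
    [Finite N] (hN : Nat.card N ≤ 2) : N ≤ Subgroup.center G := by
  intro n hn
  rw [Subgroup.mem_center_iff]
  intro g
  by_cases hn1 : n = 1
  · rw [hn1, mul_one, one_mul]
  have hnt : Nontrivial N := ⟨⟨⟨n, hn⟩, 1, fun h0 => hn1 (congrArg Subtype.val h0)⟩⟩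
  have h2 : Nat.card N = 2 := le_antisymm hN (Finite.one_lt_card_iff_nontrivial.mpr hnt)
  obtain ⟨y, -, hy⟩ := (Nat.card_eq_two_iff' (1 : N)).mp h2
  have hm : g * n * g⁻¹ ∈ N := Subgroup.Normal.conj_mem inferInstance n hn g
  have e1 : (⟨n, hn⟩ : N) = y := hy _ (fun h0 => hn1 (congrArg Subtype.val h0))
  have e2 : (⟨g * n * g⁻¹, hm⟩ : N) = y := hy _ (fun h0 => hn1 (by
    have h3 : g * n * g⁻¹ = 1 := congrArg Subtype.val h0
    have h4 : n = g⁻¹ * (g * n * g⁻¹) * g := by group
    rw [h4, h3]; group))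
  have e3 : g * n * g⁻¹ = n := congrArg Subtype.val (e2.trans e1.symm)
  calc g * n = (g * n * g⁻¹) * g := by group
    _ = n * g := by rw [e3]

end Graph

section Mats

open Cfsg.Agent.Helper27.SL2E

theorem sl2_two_facts :
    (Um (1 : ZMod 2)) * Um 1 = 1 ∧ (Lm (1 : ZMod 2)) * Lm 1 = 1 ∧
      Um (1 : ZMod 2) * Lm 1 * Um 1 = Lm 1 * Um 1 * Lm 1 := by
  refine ⟨?_, ?_, ?_⟩ <;> decide

theorem sl2_three_facts :
    (Um (1 : ZMod 3)) ^ 3 = 1 ∧
      Um (1 : ZMod 3) * Lm (-1) * Um 1 = Lm (-1) * Um 1 * Lm (-1) := by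
  refine ⟨?_, ?_⟩ <;> decide

theorem card_sl2_two : Nat.card (Matrix.SpecialLinearGroup (Fin 2) (ZMod 2)) = 6 := by
  have h := Cfsg.Agent.S0242.result (F := ZMod 2) (ZMod.card 2) 2 (by norm_num)
  rw [Fin.prod_univ_two] at h
  have e : ((2 : ℕ) ^ 2 - 2 ^ ((0 : Fin 2) : ℕ)) * (2 ^ 2 - 2 ^ ((1 : Fin 2) : ℕ)) = 6 := by
    norm_num
  rw [e] at h
  omega

theorem card_sl2_three : Nat.card (Matrix.SpecialLinearGroup (Fin 2) (ZMod 3)) = 24 := by
  have h := Cfsg.Agent.S0242.result (F := ZMod 3) (ZMod.card 3) 2 (by norm_num)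
  rw [Fin.prod_univ_two] at h
  have e : ((3 : ℕ) ^ 2 - 3 ^ ((0 : Fin 2) : ℕ)) * (3 ^ 2 - 3 ^ ((1 : Fin 2) : ℕ)) = 48 := by
    norm_num
  rw [e] at h
  omega

theorem card_center_sl2_three :
    Nat.card (Subgroup.center (Matrix.SpecialLinearGroup (Fin 2) (ZMod 3))) = 2 := by
  have h := Cfsg.Agent.S0243.card_center_SL (F := ZMod 3) 2 (by norm_num)
  rw [ZMod.card 3] at h
  exact h

theorem closure_sl2_three :
    Subgroup.closure ({Um (1 : ZMod 3), Lm (-1)} : Set (Matrix.SpecialLinearGroup (Fin 2) (ZMod 3)))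
      = ⊤ := by
  rw [eq_top_iff, ← closure_eq_top (p := 3), Subgroup.closure_le]
  intro y hy
  rcases hy with hy | hy
  · rw [hy]; exact Subgroup.subset_closure (by simp)
  · rw [Set.mem_singleton_iff] at hy
    have e : Lm (1 : ZMod 3) = Lm (-1) * Lm (-1) := by decide
    rw [hy, e]
    exact Subgroup.mul_mem _ (Subgroup.subset_closure (by simp)) (Subgroup.subset_closure (by simp))

end Mats

section Small

open Cfsg.Agent.Helper27.SL2E

variable {X : Type*} [Group X] {A B : Subgroup X}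

/-- common setup of the small case -/
theorem small_setup (h : IsRankOneGroup X A B) (hs : IsSpecialRankOnePair A B)
    [Finite A] {p : ℕ} (hp : p.Prime) (hcard : Nat.card A = p) :
    ∃ a c : X, a ^ p = 1 ∧ c ^ p = 1 ∧ a * c * a = c * a * c ∧
      Subgroup.closure ({a, c} : Set X) = ⊤ ∧ (Finite X → p * p ≤ Nat.card X) := by
  obtain ⟨a, ha, ha1⟩ := exists_ne_one_left h.2
  obtain ⟨c, hc⟩ := nuRel_exists h.2 ha ha1
  have hord : orderOf a = p := by
    have h1 : orderOf a ∣ p := by rw [← hcard]; exact Subgroup.orderOf_dvd_natCard A ha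
    rcases (Nat.dvd_prime hp).mp h1 with h2 | h2
    · exact absurd (orderOf_eq_one_iff.mp h2) ha1
    · exact h2
  have hap : a ^ p = 1 := by rw [← hord]; exact pow_orderOf_eq_one a
  have hcp : c ^ p = 1 := by rw [nuRel_pow hs hc p, hap]; group
  have hbr : a * c * a = c * a * c := by
    have hb := nuRel_braid hs hc
    calc a * c * a = a * (c * a * c⁻¹) * c := by group
      _ = a * (a⁻¹ * c * a) * c := by rw [hb]
      _ = c * a * c := by group
  have hAz : Subgroup.zpowers a = A := by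
    apply Subgroup.eq_of_le_of_card_ge (Subgroup.zpowers_le.mpr ha)
    rw [Nat.card_zpowers, hord, hcard]
  have hB : B = conjBy A (a * c) := by
    have e := hc.2.2.2.2
    have e2 : conjBy (conjBy A c) a = conjBy (conjBy B a⁻¹) a := by rw [e]
    rw [conjBy_conjBy, conjBy_conjBy, mul_inv_cancel, conjBy_one] at e2
    exact e2.symm
  have haK : a ∈ Subgroup.closure ({a, c} : Set X) := Subgroup.subset_closure (by simp)
  have hcK : c ∈ Subgroup.closure ({a, c} : Set X) := Subgroup.subset_closure (by simp)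
  have hAK : A ≤ Subgroup.closure ({a, c} : Set X) := by
    rw [← hAz]; exact Subgroup.zpowers_le.mpr haK
  have hcl : Subgroup.closure ({a, c} : Set X) = ⊤ := by
    rw [eq_top_iff, ← h.1, sup_le_iff]
    refine ⟨hAK, ?_⟩
    intro x hx
    rw [hB, mem_conjBy] at hx
    have h1 := hAK hx
    have h2 : x = (a * c) * ((a * c)⁻¹ * x * (a * c)) * (a * c)⁻¹ := by group
    rw [h2]
    exact Subgroup.mul_mem _ (Subgroup.mul_mem _ (Subgroup.mul_mem _ haK hcK) h1)
      (Subgroup.inv_mem _ (Subgroup.mul_mem _ haK hcK))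
  refine ⟨a, c, hap, hcp, hbr, hcl, ?_⟩
  intro hfin
  have hinj : Function.Injective
      (fun t : A × A => (t.1 : X) * ((a * c) * (t.2 : X) * (a * c)⁻¹)) := by
    rintro ⟨x, y⟩ ⟨x', y'⟩ hxy
    simp only at hxy
    have hyB : (a * c) * (y : X) * (a * c)⁻¹ ∈ B := by rw [hB]; exact conj_mem_conjBy y.2
    have hy'B : (a * c) * (y' : X) * (a * c)⁻¹ ∈ B := by rw [hB]; exact conj_mem_conjBy y'.2
    have e1 : (x' : X)⁻¹ * x =
        ((a * c) * (y' : X) * (a * c)⁻¹) * ((a * c) * (y : X) * (a * c)⁻¹)⁻¹ := by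
      have e0 : (x' : X)⁻¹ * x = (x' : X)⁻¹ * ((x : X) * ((a * c) * (y : X) * (a * c)⁻¹)) *
          ((a * c) * (y : X) * (a * c)⁻¹)⁻¹ := by group
      rw [e0, hxy]; group
    have hmemA : (x' : X)⁻¹ * x ∈ A := A.mul_mem (A.inv_mem x'.2) x.2
    have hmemB : (x' : X)⁻¹ * x ∈ B := by rw [e1]; exact B.mul_mem hy'B (B.inv_mem hyB)
    have h1 : (x' : X)⁻¹ * x = 1 :=
      eq_one_of_mem_of_normalizes h.2 hmemA (Subgroup.le_normalizer hmemB)
    have hxx : (x : X) = x' := by
      have e0 : (x : X) = x' * ((x' : X)⁻¹ * x) := by group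
      rw [e0, h1, mul_one]
    have hyy : (y : X) = y' := by
      rw [hxx] at hxy
      exact mul_left_cancel (mul_right_cancel (mul_left_cancel hxy))
    exact Prod.ext (Subtype.ext hxx) (Subtype.ext hyy)
  have h5 := Nat.card_le_card_of_injective _ hinj
  rw [Nat.card_prod, hcard] at h5
  exact h5

theorem small_case_two (h : IsRankOneGroup X A B) (hs : IsSpecialRankOnePair A B)
    [Finite A] (hcard : Nat.card A = 2) :
    Nonempty (X ≃* Matrix.SpecialLinearGroup (Fin 2) (ZMod 2)) := by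
  obtain ⟨a, c, hap, hcp, hbr, hcl, hX⟩ := small_setup h hs Nat.prime_two hcard
  obtain ⟨hu, hl, hbr'⟩ := sl2_two_facts
  have haa : a * a = 1 := by rw [← pow_two]; exact hap
  have hcc : c * c = 1 := by rw [← pow_two]; exact hcp
  have hD := closure_pair_card_le_six (a := ((a, Um (1 : ZMod 2)) : X × _))
    (b := (c, Lm (1 : ZMod 2))) (Prod.ext haa hu) (Prod.ext hcc hl) (Prod.ext hbr hbr')
  obtain ⟨f, hfu, hfl⟩ := exists_hom_of_graph (closure_eq_top (p := 2)) hD.1
    (by rw [card_sl2_two]; exact hD.2)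
  have hsurj := surjective_of_closure_eq_top hcl f hfu hfl
  haveI : Finite X := Finite.of_surjective f hsurj
  have h4 := hX inferInstance
  have hk : Nat.card f.ker * Nat.card X = 6 := by
    have h1 := Subgroup.card_eq_card_quotient_mul_card_subgroup f.ker
    rw [Nat.card_congr (QuotientGroup.quotientKerEquivOfSurjective f hsurj).toEquiv,
      card_sl2_two] at h1
    rw [mul_comm]; exact h1.symm
  have hker1 : Nat.card f.ker = 1 := by
    have hpos : 0 < Nat.card f.ker := Nat.card_pos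
    by_contra hne
    have h2 : 2 ≤ Nat.card f.ker := by omega
    nlinarith
  have hkbot : f.ker = ⊥ := Subgroup.card_eq_one.mp hker1
  have hinj : Function.Injective f := (MonoidHom.ker_eq_bot_iff f).mp hkbot
  exact ⟨(MulEquiv.ofBijective f ⟨hinj, hsurj⟩).symm⟩

theorem small_case_three (h : IsRankOneGroup X A B) (hs : IsSpecialRankOnePair A B)
    [Finite A] (hcard : Nat.card A = 3) :
    Nonempty (X ≃* Matrix.SpecialLinearGroup (Fin 2) (ZMod 3)) ∨
      Nonempty (X ≃* Matrix.ProjectiveSpecialLinearGroup (Fin 2) (ZMod 3)) := by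
  obtain ⟨a, c, hap, hcp, hbr, hcl, hX⟩ := small_setup h hs Nat.prime_three hcard
  obtain ⟨hu, hbr'⟩ := sl2_three_facts
  have hD := closure_pair_card_le_24 (a := ((a, Um (1 : ZMod 3)) : X × _))
    (b := (c, Lm (-1 : ZMod 3))) (Prod.ext hap hu) (Prod.ext hbr hbr')
  obtain ⟨f, hfu, hfl⟩ := exists_hom_of_graph closure_sl2_three hD.1
    (by rw [card_sl2_three]; exact hD.2)
  have hsurj := surjective_of_closure_eq_top hcl f hfu hfl
  haveI : Finite X := Finite.of_surjective f hsurj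
  have h9 := hX inferInstance
  have hk : Nat.card f.ker * Nat.card X = 24 := by
    have h1 := Subgroup.card_eq_card_quotient_mul_card_subgroup f.ker
    rw [Nat.card_congr (QuotientGroup.quotientKerEquivOfSurjective f hsurj).toEquiv,
      card_sl2_three] at h1
    rw [mul_comm]; exact h1.symm
  have hpos : 0 < Nat.card f.ker := Nat.card_pos
  have hker2 : Nat.card f.ker ≤ 2 := by
    by_contra hne
    have h2 : 3 ≤ Nat.card f.ker := by omega
    nlinarith
  have hle : f.ker ≤ Subgroup.center _ := normal_le_center_of_card_le_two f.ker hker2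
  by_cases hk1 : Nat.card f.ker = 1
  · left
    have hkbot : f.ker = ⊥ := Subgroup.card_eq_one.mp hk1
    have hinj : Function.Injective f := (MonoidHom.ker_eq_bot_iff f).mp hkbot
    exact ⟨(MulEquiv.ofBijective f ⟨hinj, hsurj⟩).symm⟩
  · right
    have hk2 : Nat.card f.ker = 2 := by omega
    have heq : f.ker = Subgroup.center _ :=
      Subgroup.eq_of_le_of_card_ge hle (by rw [card_center_sl2_three, hk2])
    exact ⟨((QuotientGroup.quotientMulEquivOfEq heq).symm.trans
      (QuotientGroup.quotientKerEquivOfSurjective f hsurj)).symm⟩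

end Small

section Large

variable {X : Type*} [Group X] {A B : Subgroup X}

theorem nuRel_swap (hs : IsSpecialRankOnePair A B) {x cx : X} (hx : NuRel A B x cx) :
    conjBy A (x * cx * x) = B ∧ conjBy B (x * cx * x) = A := by
  have hxi := nuRel_inv hs hx
  obtain ⟨hxA, hx1, hcx, hcx1, e⟩ := hx
  obtain ⟨-, -, -, -, ei⟩ := hxi
  rw [inv_inv] at ei
  have e1 : conjBy A (x * cx) = B := by
    rw [← conjBy_conjBy, e, conjBy_conjBy, mul_inv_cancel, conjBy_one]
  have e2 : conjBy B (cx * x) = A := by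
    rw [← conjBy_conjBy, ← ei, conjBy_conjBy, mul_inv_cancel, conjBy_one]
  constructor
  · have e3 : conjBy A (x * cx * x) = conjBy (conjBy A x) (x * cx) := by rw [conjBy_conjBy]
    rw [e3, conjBy_of_mem hxA, e1]
  · have e3 : conjBy B (x * cx * x) = conjBy (conjBy B (cx * x)) x := by
      rw [conjBy_conjBy, mul_assoc]
    rw [e3, e2, conjBy_of_mem hxA]

theorem comm_diag_le (A B : Subgroup X) : (⁅A, rankOneDiagonal A B⁆ : Subgroup X) ≤ A := by
  rw [Subgroup.commutator_le]
  intro a ha g hg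
  rw [commutatorElement_def]
  have hgn : g ∈ Subgroup.normalizer (A : Set X) := hg.1.2
  have h1 : g * a⁻¹ * g⁻¹ ∈ A := (Subgroup.mem_normalizer_iff.mp hgn a⁻¹).mp (A.inv_mem ha)
  have e : a * g * a⁻¹ * g⁻¹ = a * (g * a⁻¹ * g⁻¹) := by group
  rw [e]; exact A.mul_mem ha h1

theorem exists_diag_comm (h : IsRankOneGroup X A B) (hs : IsSpecialRankOnePair A B)
    (hab : HasAbelianUnipotents A B) {x y cx cy : X}
    (hx : NuRel A B x cx) (hy : NuRel A B y cy) :
    ∃ z ∈ A, y⁻¹ * cx * y = cy * z * cy⁻¹ ∧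
      z * x⁻¹ ∈ (⁅A, rankOneDiagonal A B⁆ : Subgroup X) := by
  obtain ⟨sx1, sx2⟩ := nuRel_swap hs hx
  obtain ⟨sy1, sy2⟩ := nuRel_swap hs hy
  have hbx := nuRel_braid hs hx
  have hxA := hx.1
  have hyA := hy.1
  obtain ⟨g, hg⟩ : ∃ g, g = (y * cy * y)⁻¹ * (x * cx * x) := ⟨_, rfl⟩
  have hgA : conjBy A g = A := by
    rw [hg, ← conjBy_conjBy, sx1]
    exact (conjBy_eq_iff.mp sy1).symm
  have hgB : conjBy B g = B := by
    rw [hg, ← conjBy_conjBy, sx2]
    exact (conjBy_eq_iff.mp sy2).symm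
  have hgH : g ∈ rankOneDiagonal A B := by
    refine ⟨⟨?_, conjBy_eq_self_iff.mp hgA⟩, conjBy_eq_self_iff.mp hgB⟩
    show g ∈ A ⊔ B
    rw [h.1]; trivial
  have hzA : g * x * g⁻¹ ∈ A := by
    have h1 := conj_mem_conjBy (g := g) hxA
    rwa [hgA] at h1
  have hz2 : g * x * g⁻¹ = (y * cy * y)⁻¹ * cx * (y * cy * y) := by
    have h1 : (x * cx * x) * x * (x * cx * x)⁻¹ = cx := by
      calc (x * cx * x) * x * (x * cx * x)⁻¹ = x * (cx * x * cx⁻¹) * x⁻¹ := by group
        _ = x * (x⁻¹ * cx * x) * x⁻¹ := by rw [hbx]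
        _ = cx := by group
    calc g * x * g⁻¹
        = (y * cy * y)⁻¹ * ((x * cx * x) * x * (x * cx * x)⁻¹) * (y * cy * y) := by
          rw [hg]; group
      _ = _ := by rw [h1]
  refine ⟨g * x * g⁻¹, hzA, ?_, ?_⟩
  · have hcomm : y * (g * x * g⁻¹) = (g * x * g⁻¹) * y := comm_of_isMulCommutative hab.1 hyA hzA
    have h3 : cy⁻¹ * (y⁻¹ * cx * y) * cy = y * (g * x * g⁻¹) * y⁻¹ := by rw [hz2]; group
    have h4 : y * (g * x * g⁻¹) * y⁻¹ = g * x * g⁻¹ := by rw [hcomm]; group
    rw [← h4, ← h3]; group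
  · have e : g * x * g⁻¹ * x⁻¹ = ⁅g, x⁆ := by rw [commutatorElement_def]
    rw [e, Subgroup.commutator_comm]
    exact Subgroup.commutator_mem_commutator hgH hxA

theorem diag_comm_map (h : IsRankOneGroup X A B) (hs : IsSpecialRankOnePair A B)
    (hab : HasAbelianUnipotents A B) {u : X} (hu : u ∈ A) (hu1 : u ≠ 1) :
    ∃ F : X → X,
      (∀ y ∈ A, y ≠ 1 → y ≠ u →
        F y ∈ (⁅A, rankOneDiagonal A B⁆ : Subgroup X) ∧ F y * u ≠ 1) ∧
      (∀ y ∈ A, y ≠ 1 → y ≠ u → ∀ y' ∈ A, y' ≠ 1 → y' ≠ u → F y = F y' → y = y') := by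
  classical
  have hle := comm_diag_le A B
  have hex : ∀ y : X, y ∈ A ∧ y ≠ 1 ∧ y ≠ u → ∃ t : X, ∃ cy : X, NuRel A B y cy ∧
      t ∈ (⁅A, rankOneDiagonal A B⁆ : Subgroup X) ∧ t * u ≠ 1 ∧
      ∀ w, NuRel A B (t * u) w → NuRel A B u (cy * w⁻¹) := by
    rintro y ⟨hy, hy1, hyu⟩
    have hxA : u * y⁻¹ ∈ A := A.mul_mem hu (A.inv_mem hy)
    have hx1 : u * y⁻¹ ≠ 1 := by
      intro h0; apply hyu
      have e0 : y = (u * y⁻¹)⁻¹ * u := by group
      rw [e0, h0]; group
    obtain ⟨cx, hcx⟩ := nuRel_exists h.2 hxA hx1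
    obtain ⟨cy, hcy⟩ := nuRel_exists h.2 hy hy1
    obtain ⟨z, hz, e, hzx⟩ := exists_diag_comm h hs hab hcx hcy
    have hxy : u * y⁻¹ * y ≠ 1 := by rw [inv_mul_cancel_right]; exact hu1
    obtain ⟨hzy, hF⟩ := nuRel_add hs hcx hcy hxy hz e
    have e2 : z * (u * y⁻¹)⁻¹ * u = z * y := by group
    refine ⟨z * (u * y⁻¹)⁻¹, cy, hcy, hzx, by rw [e2]; exact hzy, ?_⟩
    intro w hw
    rw [e2] at hw
    have h5 := hF w hw
    rwa [inv_mul_cancel_right] at h5
  refine ⟨fun y => if hy : y ∈ A ∧ y ≠ 1 ∧ y ≠ u then Classical.choose (hex y hy) else 1, ?_, ?_⟩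
  · intro y hy hy1 hyu
    have hyy : y ∈ A ∧ y ≠ 1 ∧ y ≠ u := ⟨hy, hy1, hyu⟩
    simp only [dif_pos hyy]
    obtain ⟨cy, -, h1, h2, -⟩ := Classical.choose_spec (hex y hyy)
    exact ⟨h1, h2⟩
  · intro y hy hy1 hyu y' hy' hy'1 hy'u hF
    have hyy : y ∈ A ∧ y ≠ 1 ∧ y ≠ u := ⟨hy, hy1, hyu⟩
    have hyy' : y' ∈ A ∧ y' ≠ 1 ∧ y' ≠ u := ⟨hy', hy'1, hy'u⟩
    simp only [dif_pos hyy, dif_pos hyy'] at hF
    have hsp := Classical.choose_spec (hex y hyy)
    have hsp' := Classical.choose_spec (hex y' hyy')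
    obtain ⟨t, ht⟩ : ∃ t, t = Classical.choose (hex y hyy) := ⟨_, rfl⟩
    rw [← hF] at hsp'
    rw [← ht] at hsp hsp'
    obtain ⟨cy, hcy, h1, h2, h3⟩ := hsp
    obtain ⟨cy', hcy', -, -, h3'⟩ := hsp'
    obtain ⟨w, hw⟩ := nuRel_exists h.2 (A.mul_mem (hle h1) hu) h2
    have e1 := nuRel_unique h.2 (h3 w hw) (h3' w hw)
    have e2 : cy = cy' := mul_right_cancel e1
    rw [← e2] at hcy'
    exact nuRel_inj h.2 hcy hcy'

theorem card_le_of_diag (h : IsRankOneGroup X A B) (hs : IsSpecialRankOnePair A B)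
    (hab : HasAbelianUnipotents A B) {u : X} (hu : u ∈ A) (hu1 : u ≠ 1)
    (hfin : ((⁅A, rankOneDiagonal A B⁆ : Subgroup X) : Set X).Finite) :
    (A : Set X).Finite ∧ (A : Set X).ncard ≤
      ({t : X | t ∈ (⁅A, rankOneDiagonal A B⁆ : Subgroup X) ∧ t * u ≠ 1}).ncard + 2 := by
  obtain ⟨F, hF1, hF2⟩ := diag_comm_map h hs hab hu hu1
  obtain ⟨S, hS⟩ : ∃ S : Set X, S = {y | y ∈ A ∧ y ≠ 1 ∧ y ≠ u} := ⟨_, rfl⟩
  obtain ⟨T, hT⟩ : ∃ T : Set X,
      T = {t : X | t ∈ (⁅A, rankOneDiagonal A B⁆ : Subgroup X) ∧ t * u ≠ 1} := ⟨_, rfl⟩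
  rw [← hT]
  have hTfin : T.Finite := hfin.subset (by rw [hT]; intro t ht; exact ht.1)
  have hmaps : Set.MapsTo F S T := by
    intro y hy; rw [hS] at hy; rw [hT]; exact hF1 y hy.1 hy.2.1 hy.2.2
  have hinj : Set.InjOn F S := by
    intro y hy y' hy' e; rw [hS] at hy hy'
    exact hF2 y hy.1 hy.2.1 hy.2.2 y' hy'.1 hy'.2.1 hy'.2.2 e
  have hSfin : S.Finite := Set.Finite.of_injOn hmaps hinj hTfin
  have hST : S.ncard ≤ T.ncard := Set.ncard_le_ncard_of_injOn F hmaps hinj hTfin
  have hsub : (A : Set X) ⊆ insert 1 (insert u S) := by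
    intro y hy
    by_cases hy1 : y = 1
    · left; exact hy1
    · by_cases hyu : y = u
      · right; left; exact hyu
      · right; right; rw [hS]; exact ⟨hy, hy1, hyu⟩
  have hfin2 : (insert 1 (insert u S) : Set X).Finite := (hSfin.insert u).insert 1
  refine ⟨hfin2.subset hsub, ?_⟩
  have h1 := Set.ncard_le_ncard hsub hfin2
  have h2 := Set.ncard_insert_le (1 : X) (insert u S)
  have h3 := Set.ncard_insert_le u S
  omega

theorem card_comm_diag_gt (h : IsRankOneGroup X A B) (hs : IsSpecialRankOnePair A B)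
    (hab : HasAbelianUnipotents A B) (hcard : 3 < ENat.card A) :
    3 < ENat.card ↥(⁅A, rankOneDiagonal A B⁆ : Subgroup X) := by
  by_contra hle
  rw [not_lt] at hle
  have hle' := comm_diag_le A B
  obtain ⟨A₁, hA₁⟩ : ∃ A₁ : Subgroup X, A₁ = ⁅A, rankOneDiagonal A B⁆ := ⟨_, rfl⟩
  rw [← hA₁] at hle hle'
  haveI hf1 : Finite A₁ := ENat.card_lt_top.mp (lt_of_le_of_lt hle (ENat.natCast_lt_top 3))
  have hfin : (A₁ : Set X).Finite := Set.toFinite _
  have hn1 : (A₁ : Set X).ncard ≤ 3 := by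
    rw [ENat.card_eq_coe_natCard] at hle
    have h0 : Nat.card A₁ ≤ 3 := by exact_mod_cast hle
    exact h0
  have key : ∀ u ∈ A, u ≠ 1 → (A : Set X).Finite ∧
      (A : Set X).ncard ≤ ({t : X | t ∈ A₁ ∧ t * u ≠ 1}).ncard + 2 := by
    intro u hu hu1; rw [hA₁]
    exact card_le_of_diag h hs hab hu hu1 (by rw [← hA₁]; exact hfin)
  have hA4 : (A : Set X).Finite → 4 ≤ (A : Set X).ncard := by
    intro hAf
    haveI : Finite A := hAf.to_subtype
    rw [ENat.card_eq_coe_natCard] at hcard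
    have h0 : 3 < Nat.card A := by exact_mod_cast hcard
    exact h0
  by_cases hbot : A₁ = ⊥
  · obtain ⟨u, hu, hu1⟩ := exists_ne_one_left h.2
    obtain ⟨hAf, hle2⟩ := key u hu hu1
    have hT : ({t : X | t ∈ A₁ ∧ t * u ≠ 1}).ncard ≤ 1 := by
      have hsub : {t : X | t ∈ A₁ ∧ t * u ≠ 1} ⊆ {1} := by
        intro t ht
        have h0 := ht.1
        rw [hbot] at h0
        exact h0
      have h0 := Set.ncard_le_ncard hsub (Set.finite_singleton 1)
      rwa [Set.ncard_singleton] at h0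
    have h4 := hA4 hAf
    omega
  · obtain ⟨u, hu, hu1⟩ : ∃ u ∈ A₁, u ≠ 1 := by
      by_contra hne
      apply hbot
      rw [eq_bot_iff]
      intro t ht
      by_contra ht1
      exact hne ⟨t, ht, ht1⟩
    obtain ⟨hAf, hle2⟩ := key u (hle' hu) hu1
    have hT : ({t : X | t ∈ A₁ ∧ t * u ≠ 1}).ncard ≤ (A₁ : Set X).ncard - 1 := by
      have hsub : {t : X | t ∈ A₁ ∧ t * u ≠ 1} ⊆ (A₁ : Set X) \ {u⁻¹} := by
        intro t ht
        refine ⟨ht.1, ?_⟩
        intro h0
        rw [Set.mem_singleton_iff] at h0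
        apply ht.2; rw [h0, inv_mul_cancel]
      have h0 := Set.ncard_le_ncard hsub (hfin.subset Set.sdiff_subset)
      rwa [Set.ncard_sdiff_singleton_of_mem (A₁.inv_mem hu)] at h0
    have h4 := hA4 hAf
    haveI : Finite A := hAf.to_subtype
    have hdvd : (A₁ : Set X).ncard ∣ (A : Set X).ncard := Subgroup.card_dvd_of_le hle'
    have e1 : (A₁ : Set X).ncard = 3 := by omega
    have e2 : (A : Set X).ncard = 4 := by omega
    rw [e1, e2] at hdvd
    omega

/-- the structure dichotomy for special rank one groups (`S5020`) -/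
theorem special_rank_one_dichotomy (h : IsRankOneGroup X A B) (hs : IsSpecialRankOnePair A B)
    (hab : HasAbelianUnipotents A B) :
    (ENat.card A ≤ 3 ∧ (Nonempty (X ≃* Matrix.SpecialLinearGroup (Fin 2) (ZMod 2)) ∨
        Nonempty (X ≃* Matrix.SpecialLinearGroup (Fin 2) (ZMod 3)) ∨
        Nonempty (X ≃* Matrix.ProjectiveSpecialLinearGroup (Fin 2) (ZMod 3)))) ∨
    (commutator X ⊔ A = ⊤ ∧ IsQuasisimple (commutator X) ∧
      3 < ENat.card ↥(⁅A, rankOneDiagonal A B⁆ : Subgroup X)) := by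
  by_cases hcard : ENat.card A ≤ 3
  · left
    refine ⟨hcard, ?_⟩
    haveI : Finite A := ENat.card_lt_top.mp (lt_of_le_of_lt hcard (ENat.natCast_lt_top 3))
    have hn : Nat.card A ≤ 3 := by
      rw [ENat.card_eq_coe_natCard] at hcard; exact_mod_cast hcard
    have hn2 : 2 ≤ Nat.card A := by
      obtain ⟨a, ha, ha1⟩ := exists_ne_one_left h.2
      have hnt : Nontrivial A := ⟨⟨⟨a, ha⟩, 1, fun h0 => ha1 (congrArg Subtype.val h0)⟩⟩
      exact Finite.one_lt_card_iff_nontrivial.mpr hnt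
    rcases (by omega : Nat.card A = 2 ∨ Nat.card A = 3) with h2 | h3
    · left; exact small_case_two h hs h2
    · right; exact small_case_three h hs h3
  · right
    rw [not_le] at hcard
    have hperf : commutator X = ⊤ := by
      have hA : A ≤ commutator X := by
        intro a ha
        have h1 := special_hom_trivial hs hab hcard (Abelianization.of : X →* Abelianization X)
          (fun a _ b _ => mul_comm _ _) a ha
        rw [← Abelianization.ker_of X]
        exact h1
      obtain ⟨g, -, hg⟩ := exists_conj_eq h.2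
      have hB : B ≤ commutator X := by
        rw [hg]; rintro _ ⟨a, ha, rfl⟩
        exact (inferInstance : (commutator X).Normal).conj_mem a (hA ha) g
      rw [eq_top_iff, ← h.1]; exact sup_le hA hB
    refine ⟨by rw [hperf]; exact top_sup_eq _, ?_, card_comm_diag_gt h hs hab hcard⟩
    have hq : IsQuasisimple X := (Cfsg.Agent.S5017.result h).2 (Group.isPerfect_def.mpr hperf)
    exact isQuasisimple_of_equiv
      ((MulEquiv.subgroupCongr hperf).trans Subgroup.topEquiv).symm hq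

end Large

end Cfsg.Agent.Helper26
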