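import Mathlib

set_option autoImplicit false

namespace Cfsg.Agent.Helper26

theorem comm_div {A : Type*} [Group A] (hA : ∀ a b : A, a * b = b * a)
    {a b c d e a' b' d' e' : A} (h1 : a * b * c = d * e) (h2 : a' * b' * c = d' * e') :
    (a * a'⁻¹) * (b * b'⁻¹) = (d * d'⁻¹) * (e * e'⁻¹) := by
  letI : CommGroup A := { ‹Group A› with mul_comm := hA }
  have h3 : (a * b * c) / (a' * b' * c) = (d * e) / (d' * e') := by rw [h1, h2]
  have h4 : (a * a'⁻¹) * (b * b'⁻¹) = (a * b * c) / (a' * b' * c) := by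
    rw [div_eq_mul_inv, mul_inv, mul_inv]
    have : c * ((a')⁻¹ * (b')⁻¹ * c⁻¹) = (a')⁻¹ * (b')⁻¹ := by
      rw [mul_comm c, mul_assoc, inv_mul_cancel, mul_one]
    rw [mul_assoc (a * b), this, mul_mul_mul_comm]
  have h5 : (d * d'⁻¹) * (e * e'⁻¹) = (d * e) / (d' * e') := by
    rw [div_eq_mul_inv, mul_inv, mul_mul_mul_comm]
  rw [h4, h5, h3]

/-- among the extensions of an abelian group `V` with a given action of the quotient, the
split extension has the largest class number -/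
theorem classNumber_le_semidirect {X : Type*} [Group X] [Finite X] (V : Subgroup X) [V.Normal]
    (hab : ∀ a ∈ V, ∀ b ∈ V, a * b = b * a) (φ : X ⧸ V →* MulAut ↥V)
    (hφ : ∀ (x : X) (v : ↥V), ((φ (QuotientGroup.mk x) v : ↥V) : X) = x * v * x⁻¹) :
    Nat.card (ConjClasses X) ≤ Nat.card (ConjClasses (SemidirectProduct ↥V (X ⧸ V) φ)) := by
  classical
  have hA : ∀ a b : V, a * b = b * a := fun a b => Subtype.ext (hab a a.2 b b.2)
  -- the section and the `V`-part
  let σ : X ⧸ V → X := fun q => Quotient.out q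
  have hσ : ∀ q : X ⧸ V, (QuotientGroup.mk (σ q) : X ⧸ V) = q := fun q => QuotientGroup.out_eq' q
  have hvp : ∀ x : X, x * (σ (QuotientGroup.mk x))⁻¹ ∈ V := by
    intro x
    rw [← QuotientGroup.eq_one_iff (N := V), QuotientGroup.mk_mul, QuotientGroup.mk_inv, hσ,
      mul_inv_cancel]
  let vp : X → V := fun x => ⟨x * (σ (QuotientGroup.mk x))⁻¹, hvp x⟩
  have hdec : ∀ x : X, x = (vp x : X) * σ (QuotientGroup.mk x) := by
    intro x
    show x = x * (σ (QuotientGroup.mk x))⁻¹ * σ (QuotientGroup.mk x)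
    group
  -- the commutation relation in terms of the `V`-parts
  have hE : ∀ (x y : X), x * y = y * x →
      ∃ c : V, (c : X) = σ (QuotientGroup.mk x) * σ (QuotientGroup.mk y) *
          (σ (QuotientGroup.mk x))⁻¹ * (σ (QuotientGroup.mk y))⁻¹ ∧
        vp x * φ (QuotientGroup.mk x) (vp y) * c = vp y * φ (QuotientGroup.mk y) (vp x) := by
    intro x y hxy
    have hq : (QuotientGroup.mk x : X ⧸ V) * QuotientGroup.mk y =
        QuotientGroup.mk y * QuotientGroup.mk x := by
      rw [← QuotientGroup.mk_mul, ← QuotientGroup.mk_mul, hxy]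
    have hc : σ (QuotientGroup.mk x) * σ (QuotientGroup.mk y) *
        (σ (QuotientGroup.mk x))⁻¹ * (σ (QuotientGroup.mk y))⁻¹ ∈ V := by
      rw [← QuotientGroup.eq_one_iff (N := V), QuotientGroup.mk_mul, QuotientGroup.mk_mul,
        QuotientGroup.mk_mul, QuotientGroup.mk_inv, QuotientGroup.mk_inv, hσ, hσ, hq]
      group
    refine ⟨⟨_, hc⟩, rfl, ?_⟩
    apply Subtype.ext
    have h1 : ((φ (QuotientGroup.mk x) (vp y) : V) : X) =
        σ (QuotientGroup.mk x) * (vp y : X) * (σ (QuotientGroup.mk x))⁻¹ := by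
      have := hφ (σ (QuotientGroup.mk x)) (vp y)
      rw [hσ] at this
      exact this
    have h2 : ((φ (QuotientGroup.mk y) (vp x) : V) : X) =
        σ (QuotientGroup.mk y) * (vp x : X) * (σ (QuotientGroup.mk y))⁻¹ := by
      have := hφ (σ (QuotientGroup.mk y)) (vp x)
      rw [hσ] at this
      exact this
    show (vp x : X) * ((φ (QuotientGroup.mk x) (vp y) : V) : X) *
        (σ (QuotientGroup.mk x) * σ (QuotientGroup.mk y) *
          (σ (QuotientGroup.mk x))⁻¹ * (σ (QuotientGroup.mk y))⁻¹) =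
      (vp y : X) * ((φ (QuotientGroup.mk y) (vp x) : V) : X)
    rw [h1, h2]
    have e1 : (vp x : X) * (σ (QuotientGroup.mk x) * (vp y : X) * (σ (QuotientGroup.mk x))⁻¹) *
        (σ (QuotientGroup.mk x) * σ (QuotientGroup.mk y) *
          (σ (QuotientGroup.mk x))⁻¹ * (σ (QuotientGroup.mk y))⁻¹) =
        ((vp x : X) * σ (QuotientGroup.mk x)) * ((vp y : X) * σ (QuotientGroup.mk y)) *
          (σ (QuotientGroup.mk x))⁻¹ * (σ (QuotientGroup.mk y))⁻¹ := by group
    have e2 : (vp y : X) * (σ (QuotientGroup.mk y) * (vp x : X) * (σ (QuotientGroup.mk y))⁻¹) =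
        ((vp y : X) * σ (QuotientGroup.mk y)) * ((vp x : X) * σ (QuotientGroup.mk x)) *
          (σ (QuotientGroup.mk x))⁻¹ * (σ (QuotientGroup.mk y))⁻¹ := by group
    rw [e1, e2, ← hdec x, ← hdec y, hxy]
  -- base points
  have hbase : ∀ q₁ q₂ : X ⧸ V, ∃ a : V × V, ∀ x y : X, QuotientGroup.mk x = q₁ →
      QuotientGroup.mk y = q₂ → x * y = y * x →
      (vp x * a.1⁻¹) * φ q₁ (vp y * a.2⁻¹) = (vp y * a.2⁻¹) * φ q₂ (vp x * a.1⁻¹) := by
    intro q₁ q₂
    by_cases h : ∃ x₀ y₀ : X, QuotientGroup.mk x₀ = q₁ ∧ QuotientGroup.mk y₀ = q₂ ∧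
        x₀ * y₀ = y₀ * x₀
    · obtain ⟨x₀, y₀, rfl, rfl, h0⟩ := h
      refine ⟨(vp x₀, vp y₀), fun x y hx hy hxy => ?_⟩
      obtain ⟨c, hc, E1⟩ := hE x y hxy
      obtain ⟨c₀, hc₀, E2⟩ := hE x₀ y₀ h0
      have hcc : c = c₀ := by
        apply Subtype.ext
        rw [hc, hc₀, hx, hy]
      rw [hx, hy] at E1
      rw [← hcc] at E2
      rw [map_mul, map_mul, map_inv, map_inv]
      exact comm_div hA E1 E2
    · exact ⟨(1, 1), fun x y hx hy hxy => absurd ⟨x, y, hx, hy, hxy⟩ h⟩
  choose base hbase using hbase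
  -- the injection of commuting pairs
  let F : {p : X × X // Commute p.1 p.2} →
      {p : SemidirectProduct ↥V (X ⧸ V) φ × SemidirectProduct ↥V (X ⧸ V) φ // Commute p.1 p.2} :=
    fun p => ⟨(⟨vp p.1.1 * (base (QuotientGroup.mk p.1.1) (QuotientGroup.mk p.1.2)).1⁻¹,
        QuotientGroup.mk p.1.1⟩,
      ⟨vp p.1.2 * (base (QuotientGroup.mk p.1.1) (QuotientGroup.mk p.1.2)).2⁻¹,
        QuotientGroup.mk p.1.2⟩), by
      have hxy : p.1.1 * p.1.2 = p.1.2 * p.1.1 := p.2
      apply SemidirectProduct.ext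
      · rw [SemidirectProduct.mul_left, SemidirectProduct.mul_left]
        exact hbase _ _ p.1.1 p.1.2 rfl rfl hxy
      · rw [SemidirectProduct.mul_right, SemidirectProduct.mul_right]
        show (QuotientGroup.mk p.1.1 : X ⧸ V) * QuotientGroup.mk p.1.2 =
          QuotientGroup.mk p.1.2 * QuotientGroup.mk p.1.1
        rw [← QuotientGroup.mk_mul, ← QuotientGroup.mk_mul, hxy]⟩
  have hF : Function.Injective F := by
    rintro ⟨⟨x, y⟩, hxy⟩ ⟨⟨x', y'⟩, hxy'⟩ h
    have h1 := congrArg (fun p : {p : SemidirectProduct ↥V (X ⧸ V) φ ×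
      SemidirectProduct ↥V (X ⧸ V) φ // Commute p.1 p.2} => p.1.1) h
    have h2 := congrArg (fun p : {p : SemidirectProduct ↥V (X ⧸ V) φ ×
      SemidirectProduct ↥V (X ⧸ V) φ // Commute p.1 p.2} => p.1.2) h
    have hq1 : (QuotientGroup.mk x : X ⧸ V) = QuotientGroup.mk x' :=
      congrArg SemidirectProduct.right h1
    have hq2 : (QuotientGroup.mk y : X ⧸ V) = QuotientGroup.mk y' :=
      congrArg SemidirectProduct.right h2
    have hv1 : vp x * (base (QuotientGroup.mk x) (QuotientGroup.mk y)).1⁻¹ =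
        vp x' * (base (QuotientGroup.mk x') (QuotientGroup.mk y')).1⁻¹ :=
      congrArg SemidirectProduct.left h1
    have hv2 : vp y * (base (QuotientGroup.mk x) (QuotientGroup.mk y)).2⁻¹ =
        vp y' * (base (QuotientGroup.mk x') (QuotientGroup.mk y')).2⁻¹ :=
      congrArg SemidirectProduct.left h2
    rw [← hq1, ← hq2] at hv1 hv2
    have hx : x = x' := by
      rw [hdec x, hdec x', mul_right_cancel hv1, hq1]
    have hy : y = y' := by
      rw [hdec y, hdec y', mul_right_cancel hv2, hq2]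
    subst hx
    subst hy
    rfl
  haveI : Finite (SemidirectProduct ↥V (X ⧸ V) φ) :=
    Finite.of_equiv _ SemidirectProduct.equivProd.symm
  have h1 := Nat.card_le_card_of_injective F hF
  rw [card_comm_eq_card_conjClasses_mul_card, card_comm_eq_card_conjClasses_mul_card] at h1
  have hcard : Nat.card (SemidirectProduct ↥V (X ⧸ V) φ) = Nat.card X := by
    rw [Nat.card_congr SemidirectProduct.equivProd, Nat.card_prod,
      Subgroup.card_eq_card_quotient_mul_card_subgroup V, mul_comm]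
  rw [hcard] at h1
  exact Nat.le_of_mul_le_mul_right h1 Nat.card_pos

end Cfsg.Agent.Helper26
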